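import Cfsg.Agent.H1.Ic0
import Cfsg.Agent.H3.Two

/-! S1315: Sylow `2`-subgroups of an intrinsic `2`-component with a unique involution. -/

set_option autoImplicit false
set_option linter.unusedVariables false

namespace Cfsg.Agent.H1.Ic

open Subgroup Cfsg.Agent.FT Cfsg.Agent.GW
open scoped commutatorElement

variable {G : Type*} [Group G] [Finite G] {J J' K D M Q T : Subgroup G} {a b x y : G}

theorem p4_u (h : Ic K b) (hx : x ∈ K) (e : x * x = 1) : x = 1 ∨ x = b :=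
  or_iff_not_imp_left.2 fun e1 => h.uniq x hx (invo_of e e1)

theorem p4_big (h : Ic K b) (hD : D ≤ K) (hc : #D = 2 ^ 2) : ∃ k ∈ D, k * k ≠ 1 := by
  by_contra hn
  push Not at hn
  have := card_le_of_le (show D ≤ ⟪b⟫ from fun x hx => h.inv.mem_zpowers.2 (p4_u h (hD hx) (hn x hx)))
  rw [hc, h.inv.card] at this
  omega

theorem p4_q (h : Ic K b) (hQ : Syl 2 Q K) : ∃ a c m, H3.MCQ Q a c m ∧ a ^ 2 ^ (m - 1) = b := by
  obtain ⟨a, c, m, h1⟩ := (H3.cyc_or_mc_of_no_normal_four hQ.pi fun A _ hA => by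
    obtain ⟨k, hk, e⟩ := p4_big h (hA.le.trans hQ.le) hA.card
    exact e (by rw [← sq]; exact hA.abelem.pow hk)).resolve_left (h.pc.pqs.not_cyc_two hQ)
  have h2 : a ^ 2 ^ (m - 1) = b := (p4_u h (hQ.le (h1.le h1.z_mem)) h1.z_mul).resolve_left h1.z_ne
  have k : ∀ c, H3.MC Q a c m → c ^ 2 ≠ 1 := fun c hc e => hc.nmem (by
    rw [(p4_u h (hQ.le hc.b_mem) (sq c ▸ e)).resolve_left hc.b_ne, ← h2]; exact h1.z_mem)
  rcases h1.cases with h3 | h3 | ⟨c', h3⟩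
  · exact (k _ h3.toMC h3.sq).elim
  · exact ⟨a, c, m, h3, h2⟩
  · exact (k _ h3.toMC h3.sq).elim

theorem p4a (h : Ic K b) (hx : x ∈ K) (h2 : PiElt {2} x) (hc : ⁅K, ⟪x⟫⁆ ≤ O[{2}ᶜ](K)) : x * x = 1 := by
  obtain ⟨Q, hQ, l⟩ := PiGrp.exists_syl h2.zpowers (zpowers_le.2 hx)
  obtain ⟨a, c, m, h1, e⟩ := p4_q h hQ
  have xQ := l (mem_zpowers x)
  have : x ∈ Z(Q) := ⟨xQ, mem_cen.2 fun q hq => commutatorElement_eq_one_iff_mul_comm.1 (mem_bot.1
    ((hQ.pi.cop (pcore_pi {2}ᶜ K)).inf.le ⟨Q.mul_mem (Q.mul_mem (Q.mul_mem hq xQ) (Q.inv_mem hq)) (Q.inv_mem xQ),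
      hc (commutator_mem_commutator (hQ.le hq) (mem_zpowers x))⟩))⟩
  rw [h1.center] at this
  rcases h1.mem_z_iff.1 this with rfl | rfl
  exacts [mul_one 1, h1.z_mul]

theorem p4b (h : Ic K b) (hQ : Syl 2 Q K) (hy : y ∈ Q) (e : y * y = b) :
    ∃ m ∈ Q, m * m = b ∧ m * y * m⁻¹ = y⁻¹ := by
  obtain ⟨a, c, m, h1, e1⟩ := p4_q h hQ
  by_cases h2 : y ∈ ⟪a⟫
  · obtain ⟨i, rfl⟩ := mem_zpowers_iff.1 h2
    exact ⟨c, h1.b_mem, by rw [← sq, h1.sq, e1], by rw [← conj_zpow, h1.inv, inv_zpow]⟩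
  · have h3 := h1.out hy h2
    have h4 : a ^ 2 ^ (m - 2) * a ^ 2 ^ (m - 2) = b := by
      have := h1.two_le
      rw [← pow_add, ← two_mul, ← pow_succ', ← e1]; congr 2; omega
    have h5 : y * a ^ 2 ^ (m - 2) * y⁻¹ = (a ^ 2 ^ (m - 2))⁻¹ := by rw [← conj_pow, h3.inv, inv_pow]
    refine ⟨_, pow_mem h1.a_mem _, h4, ?_⟩
    generalize a ^ 2 ^ (m - 2) = n at h4 h5
    have h6 : b * b = 1 := h.inv.sq
    calc n * y * n⁻¹ = n * (y * n * y⁻¹)⁻¹ * y := by group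
      _ = (y * y) * y := by rw [h5, inv_inv, h4, e]
      _ = (y * y) * (y * y) * y⁻¹ := by group
      _ = y⁻¹ := by rw [e, h6, one_mul]

theorem p4c (h : Ic K b) (hQ : Syl 2 Q K) (ha : Invo a) (hn : a ∈ N(Q)) :
    ∃ k ∈ Q, k * k = b ∧ (a * k * a⁻¹ = k ∨ a * k * a⁻¹ = k * b) := by
  obtain ⟨a', c, m, h1, e1⟩ := p4_q h hQ
  have n := zpowers_le.2 hn
  obtain ⟨P, hP, l, hc⟩ := normal_pgroup (n := 2) (hQ.pi.sup ha.pElt.zpowers n) Nat.prime_two (nml_sup_left n)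
    (by rw [h1.card]; exact Nat.pow_le_pow_right two_pos (by have := h1.two_le; omega))
  obtain ⟨k, hk, e⟩ := p4_big h (l.trans hQ.le) hc
  have ab := ab_of_card_sq Nat.prime_two hc
  have s : ∀ k ∈ P, k * k ≠ 1 → k * k = b := fun k hk e =>
    (p4_u h (hQ.le (l (mul_mem hk hk))) (by
      have : (⟨k, hk⟩ : P) ^ Nat.card P = 1 := pow_card_eq_one'
      have := congrArg Subtype.val this
      rw [hc] at this
      simpa [pow_succ, mul_assoc] using this)).resolve_left e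
  have hk' : a * k * a⁻¹ ∈ P := mem_nrm.1 (hP.nrm (mem_sup_right (mem_zpowers a))) k hk
  have e2 := s _ hk' (by rwa [conj_mul, Ne, conj_eq_one_iff])
  refine ⟨k, l hk, s k hk e, ?_⟩
  generalize a * k * a⁻¹ = j at hk' e2
  rcases p4_u h (hQ.le (l (mul_mem (inv_mem hk) hk'))) (by
    rw [mul_assoc, ← mul_assoc j, ab.comm hk' (inv_mem hk), mul_assoc, e2, ← s k hk e]; group) with e3 | e3
  · exact .inl (inv_mul_eq_one.1 e3).symm
  · exact .inr (inv_mul_eq_iff_eq_mul.1 e3)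

end Cfsg.Agent.H1.Ic
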