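import Mathlib
import Cfsg.Agent.H13.WeylTw
import Cfsg.Agent.H18.SylIn
import Cfsg.Agent.H14.Coord

/-! Sections of groups with root group data whose Sylow subgroups lie in the torus. -/

set_option autoImplicit false
set_option linter.unusedSectionVars false

namespace Cfsg.Agent.H17

open Cfsg.Agent.H12 Cfsg.Agent.H13 Cfsg.Agent.H12.RGD Cfsg.Agent.H18

variable {Φ I k G : Type*} [DecidableEq I] [Fintype I] [Finite Φ] [CommRing k] [LinearOrder k]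
  [IsStrictOrderedRing k] {R : RS Φ I k} [Group G] {X : RGD R G}

theorem conjN {g : G} (hg : g ∈ X.grp) :
    ∃ n ∈ X.N, ∀ t ∈ X.T, g * t * g⁻¹ ∈ X.T → n * t * n⁻¹ = g * t * g⁻¹ := by
  obtain ⟨w, hw⟩ := mem_grp_iff.1 hg
  obtain ⟨n, hn⟩ := exists_rep (X := X) w
  obtain ⟨b, hb, u, hu, rfl⟩ := hn.exists_normal_form hw
  obtain ⟨v, hv, c, hc, rfl⟩ := mem_B.1 hb
  refine ⟨c * n, mul_mem (T_le_N hc) hn.mem_N, fun t ht ht' => ?_⟩
  generalize h : v * c * n * u * t * (v * c * n * u)⁻¹ = t' at ht'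
  have h1 := (hn.normal_form_unique (b := v * c * (n * t * n⁻¹)) (b' := t' * (v * c))
    (u := t⁻¹ * u * t) (u' := u) (mul_mem hb (T_le_B (hn.conj_T ht))) (mul_mem (T_le_B ht') hb)
    (by simpa using T_conj_US (inv_mem ht) hu) hu (by rw [← h]; group)).1
  have h2 := eq_one_of_mem_Up_T (mul_mem (inv_mem hv) (T_conj_US ht' hv))
    (u := v⁻¹ * (t' * v * t'⁻¹)) (by
      rw [show v⁻¹ * (t' * v * t'⁻¹) = v⁻¹ * (t' * (v * c)) * (t' * c)⁻¹ by group, ← h1]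
      simpa [mul_assoc] using mul_mem (mul_mem hc (hn.conj_T ht)) (inv_mem (mul_mem ht' hc)))
  rw [inv_mul_eq_one] at h2
  calc c * n * t * (c * n)⁻¹ = v⁻¹ * (v * c * (n * t * n⁻¹)) * c⁻¹ := by group
    _ = v⁻¹ * (t' * v * t'⁻¹) * t' := by rw [h1]; group
    _ = t' := by rw [← h2]; group

theorem rep_pow {n : G} {w : R.W} (h : X.Rep n w) (j : ℕ) : X.Rep (n ^ j) (w ^ j) := by
  induction j with
  | zero => simpa using rep_one
  | succ j ih => rw [pow_succ, pow_succ]; exact ih.mul h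

theorem act_pow {H : Type*} [Group H] {f : H →* G} (hf : ∀ y, f y ∈ X.grp) {Y : Set H}
    (hY : ∀ y ∈ Y, f y ∈ X.T) {g : H} (hg : ∀ y ∈ Y, g * y * g⁻¹ ∈ Y) : ∃ n w, X.Rep n w ∧ ∀ i : ℕ,
      ∀ y ∈ Y, g ^ i * y * (g ^ i)⁻¹ ∈ Y ∧ n ^ i * f y * (n ^ i)⁻¹ = f (g ^ i * y * (g ^ i)⁻¹) := by
  obtain ⟨n, h1, h2⟩ := conjN (hf g)
  obtain ⟨w, hw⟩ := mem_N_iff.1 h1
  refine ⟨n, w, hw, fun i y hy => ?_⟩
  induction i with
  | zero => simpa using hy
  | succ i ih =>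
    have e : g ^ (i + 1) * y * (g ^ (i + 1))⁻¹ = g * (g ^ i * y * (g ^ i)⁻¹) * g⁻¹ := by group
    rw [e]
    refine ⟨hg _ ih.1, ?_⟩
    have := hY _ (hg _ ih.1)
    rw [map_mul, map_mul, map_inv] at this ⊢
    rw [← h2 _ (hY _ ih.1) this, ← ih.2]
    group

variable [Finite G]

theorem relIndex_T_modEq {m : ℕ} (h : ∀ r, Nat.card (X.U r) ≡ 1 [MOD m]) :
    X.T.relIndex X.grp ≡ Nat.card R.W [MOD m] := by
  have h1 : ∀ S : Set Φ, R.Closed S → (∀ r ∈ S, R.Pos r) → Nat.card (X.US S) ≡ 1 [MOD m] :=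
    fun S h1 h2 => by
      rw [card_US h1 h2]
      exact finprod_mem_induction (· ≡ 1 [MOD m]) rfl (fun a b ha hb => ha.mul hb) fun r _ => h r
  have h2 := (X.T.subgroupOf X.grp).index_mul_card
  rw [Nat.card_congr (Subgroup.subgroupOfEquivOfLe T_le_grp).toEquiv, card_grp, mul_right_comm] at h2
  rw [show X.T.relIndex X.grp = _ from Nat.eq_of_mul_eq_mul_right Nat.card_pos h2, ← one_mul (Nat.card R.W)]
  refine (h1 _ R.closed_pos fun _ h => h).mul ?_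
  haveI := Fintype.ofFinite R.W
  rw [finsum_eq_sum_of_fintype, Nat.card_eq_fintype_card, ← Finset.card_univ, Finset.card_eq_sum_ones]
  exact Nat.ModEq.sum fun w _ => h1 _ (R.closed_invSet w) fun _ h => h.1

theorem sylIn_grp {K : Subgroup G} (hK : K ≤ X.grp) {l : ℕ} [Fact l.Prime] (h : ¬ l ∣ K.relIndex X.grp) :
    ∃ S ≤ K, SylIn l S X.grp := by
  obtain ⟨S, hS, -⟩ := exists_sylIn_ge (p := l) IsPGroup.of_bot (bot_le (a := K))
  refine ⟨S, hS.le, sylIn_of_not_dvd_relIndex (hS.le.trans hK) hS.isP ?_⟩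
  rw [← Subgroup.relIndex_mul_relIndex _ _ _ hS.le hK]
  exact fun h' => ((Nat.Prime.dvd_mul Fact.out).1 h').elim hS.not_dvd_relIndex h

theorem not_dvd_relIndex_T {l : ℕ} (h : ∀ r, Nat.card (X.U r) ≡ 1 [MOD l]) (hW : ¬ l ∣ Nat.card R.W) :
    ¬ l ∣ X.T.relIndex X.grp := fun h' => hW (((relIndex_T_modEq h).dvd_iff dvd_rfl).1 h')

omit [Finite G] in
theorem isPGroup_zpowers_of_pow {a : G} {l : ℕ} (h : a ^ l = 1) : IsPGroup l (Subgroup.zpowers a) :=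
  fun ⟨_, j, e⟩ => ⟨1, Subtype.ext (by
    subst e
    show (a ^ j) ^ l ^ 1 = 1
    rw [pow_one, ← zpow_natCast, ← zpow_mul, mul_comm, zpow_mul, zpow_natCast, h, one_zpow])⟩

omit [Finite G] in
theorem conj_pow_pow {b a : G} {c : ℕ} (h : b * a * b⁻¹ = a ^ c) (i : ℕ) :
    b ^ i * a * (b ^ i)⁻¹ = a ^ c ^ i := by
  induction i with
  | zero => simp
  | succ i ih => rw [pow_succ' b, mul_inv_rev, show ∀ u v : G, b * u * a * (v * b⁻¹) = b * (u * a * v) * b⁻¹ by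
      intros; simp only [mul_assoc], ih, ← conj_pow, h, ← pow_mul, pow_succ']

/-- fusion of a commuting pair of elements of prime order in a section is realised in the Weyl group -/
theorem fus_two (hT : ∀ s ∈ X.T, ∀ t ∈ X.T, s * t = t * s) {H A : Type*} [Group H] [Group A]
    {f : H →* G} (hf : Function.Injective f) (hf' : ∀ y, f y ∈ X.grp) {φ : H →* A}
    (hφ : Function.Surjective φ) {l l' : ℕ} [Fact l.Prime] [Fact l'.Prime]
    (hl : ∀ r, Nat.card (X.U r) ≡ 1 [MOD l]) (hW : ¬ l ∣ Nat.card R.W)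
    (hl' : ∀ r, Nat.card (X.U r) ≡ 1 [MOD l']) (hW' : ¬ l' ∣ Nat.card R.W) {a a' b : A} {c c' : ℕ}
    (h1 : a ^ l = 1) (h1' : a' ^ l' = 1) (h2 : b * a * b⁻¹ = a ^ c) (h2' : b * a' * b⁻¹ = a' ^ c')
    (h3 : Commute a a') : ∃ n w, X.Rep n w ∧ ∀ i : ℕ, (w ^ i = 1 → a ^ c ^ i = a ∧ a' ^ c' ^ i = a') ∧
      ((∀ t ∈ X.T, n ^ i * t * (n ^ i)⁻¹ = t⁻¹) → a ^ c ^ i = a⁻¹) := by
  haveI : Finite H := Finite.of_injective f hf
  haveI : Finite A := Finite.of_surjective φ hφ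
  set Z := Subgroup.closure ({a, a'} : Set A)
  have hZ : ∀ z ∈ Z, Commute z a ∧ Commute z a' := fun z hz => by
    have := (Subgroup.closure_le (Subgroup.centralizer ({a, a'} : Set A))).2 (by
      rintro _ (rfl | rfl) _ (rfl | rfl)
      exacts [rfl, h3.symm, h3, rfl]) hz
    exact ⟨(this a (by simp)).symm, (this a' (by simp)).symm⟩
  have ha : a ∈ Z := Subgroup.subset_closure (by simp)
  have ha' : a' ∈ Z := Subgroup.subset_closure (by simp)
  have nz : ∀ {z u : A} {d : ℕ}, z * u * z⁻¹ = u ^ d → ∀ y, φ y = z →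
      y ∈ Subgroup.normalizer ((Subgroup.zpowers u).comap φ : Set H) := fun {z u d} e y hy =>
    mem_normalizer_of_conj_mem (by
      rintro v ⟨j, hj⟩
      simp only at hj
      rw [Subgroup.mem_comap, map_mul, map_mul, map_inv, ← hj, ← conj_zpow, hy, e]
      exact zpow_mem (pow_mem (Subgroup.mem_zpowers u) d) j)
  obtain ⟨P, hP, -⟩ := exists_sylIn_ge (p := l) IsPGroup.of_bot (bot_le (a := (Subgroup.zpowers a).comap φ))
  obtain ⟨x, hx, rfl⟩ : a ∈ P.map φ := by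
    have := hP.map φ
    rw [Subgroup.map_comap_eq_self_of_surjective hφ] at this
    rw [this.eq_of_isPGroup (isPGroup_zpowers_of_pow h1)]
    exact Subgroup.mem_zpowers a
  set K := Z.comap φ ⊓ Subgroup.normalizer (P : Set H)
  obtain ⟨Q, hQ, -⟩ := exists_sylIn_ge (p := l') IsPGroup.of_bot (bot_le (a := K))
  obtain ⟨x', hx', rfl⟩ : a' ∈ Q.map φ := by
    obtain ⟨y, rfl⟩ := hφ a'
    obtain ⟨u, ⟨j, hu⟩, h4⟩ := hP.frattini (nz (d := 1) (by rw [pow_one, ← h3.eq, mul_inv_cancel_right]) y rfl)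
    simp only at hu
    refine (hQ.map φ).le_of_normal (Subgroup.zpowers_le.2 ⟨(x ^ j)⁻¹ * (u * y), Subgroup.mem_inf.2 ⟨?_, mul_mem (inv_mem
      (zpow_mem (Subgroup.le_normalizer hx) j)) h4⟩, by simp [← hu]⟩) (isPGroup_zpowers_of_pow h1')
      ?_ (Subgroup.mem_zpowers _)
    · simpa [← hu] using ha'
    · rintro _ ⟨v, hv, rfl⟩ _ ⟨j, rfl⟩
      simp only [((hZ _ hv.1).2.zpow_right j).eq, mul_inv_cancel_right]
      exact ⟨j, rfl⟩
  obtain ⟨y, rfl⟩ := hφ b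
  obtain ⟨u, ⟨j, hu⟩, h4⟩ := hP.frattini (nz h2 y rfl)
  simp only at hu
  have h5 : φ u ∈ Z := hu ▸ zpow_mem ha j
  have h6 : ∀ z ∈ Z, φ y * z * (φ y)⁻¹ ∈ Z := fun z hz => (Subgroup.closure_le
    (Z.comap (MulAut.conj (φ y)).toMonoidHom)).2 (by
      rintro _ (rfl | rfl)
      exacts [show _ * _ * _ ∈ Z from h2 ▸ pow_mem ha c, show _ * _ * _ ∈ Z from h2' ▸ pow_mem ha' c']) hz
  obtain ⟨v, hv, h7⟩ := hQ.frattini (g := u * y) (mem_normalizer_of_conj_mem fun s hs => Subgroup.mem_inf.2 ⟨by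
    have := mul_mem (mul_mem h5 (h6 _ hs.1)) (inv_mem h5)
    simpa [mul_assoc] using this, mul_mem (mul_mem h4 (Subgroup.mem_inf.1 hs).2) (inv_mem h4)⟩)
  have h8 : ∀ {s : A} {d : ℕ}, (∀ z ∈ Z, Commute z s) → φ y * s * (φ y)⁻¹ = s ^ d →
      φ (v * (u * y)) * s * (φ (v * (u * y)))⁻¹ = s ^ d := fun {s d} e1 e2 => by
    rw [← mul_assoc, map_mul, mul_inv_rev, show ∀ p q r : A, p * q * s * (q⁻¹ * r) = p * (q * s * q⁻¹) * r by
      intros; simp only [mul_assoc], e2, map_mul, ((e1 _ (mul_mem hv.1 h5)).pow_right d).eq,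
      mul_inv_cancel_right]
  have h9 := mul_mem hv.2 h4
  replace h2 := h8 (fun z hz => (hZ z hz).1) h2
  replace h2' := h8 (fun z hz => (hZ z hz).2) h2'
  generalize v * (u * y) = g at h2 h2' h7 h9
  -- conjugate into the torus
  obtain ⟨S, s1, s2⟩ := sylIn_grp T_le_grp (not_dvd_relIndex_T hl hW)
  obtain ⟨d, d1, d2⟩ := s2.exists_conj_mem (P := P.map f) (by rintro _ ⟨y, -, rfl⟩; exact hf' y) (hP.isP.map f)
  set f1 := (MulAut.conj d).toMonoidHom.comp f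
  have e1 : ∀ y, f1 y ∈ X.grp := fun y => mul_mem (mul_mem d1 (hf' y)) (inv_mem d1)
  have e2 : ∀ y ∈ P, f1 y ∈ X.T := fun y hy => s1 (d2 _ ⟨y, hy, rfl⟩)
  have e0 : Function.Injective f1 := (MulAut.conj d).injective.comp hf
  have e3 : ∀ y ∈ Q, ∀ z ∈ P, z * y = y * z := fun y hy z hz => by
    obtain ⟨n, w, n1, n2⟩ := act_pow e1 (Y := P) e2 (g := y) fun z hz =>
      (Subgroup.mem_normalizer_iff.1 (hQ.le hy).2 z).1 hz
    have n3 := (n2 (Nat.card R.W) z hz).2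
    rw [hT _ (pow_card_eq_one' (x := w) ▸ rep_pow n1 (Nat.card R.W)).mem_T _ (e2 z hz),
      mul_inv_cancel_right] at n3
    obtain ⟨j, hj⟩ := hQ.isP ⟨y, hy⟩
    obtain ⟨m, hm⟩ := exists_pow_eq_self_of_coprime (x := y) (n := Nat.card R.W)
      (Nat.Coprime.coprime_dvd_right (orderOf_dvd_of_pow_eq_one (congrArg Subtype.val hj))
        (((Nat.Prime.coprime_iff_not_dvd Fact.out).2 hW').symm.pow_right j))
    rw [← hm]
    exact (show Commute z (y ^ Nat.card R.W) from eq_mul_inv_iff_mul_eq.1 (e0 n3)).pow_right m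
  obtain ⟨S', s1', s2'⟩ := sylIn_grp T_le_grp (not_dvd_relIndex_T hl' hW')
  obtain ⟨d', d1', d2'⟩ := (s2'.mono (K := X.grp ⊓ Subgroup.centralizer (f1 '' P)) (le_inf s2'.le (by
    rintro s hs _ ⟨y, hy, rfl⟩
    exact hT _ (e2 y hy) _ (s1' hs))) inf_le_left).exists_conj_mem (P := Q.map f1) (by
      rintro _ ⟨y, hy, rfl⟩
      refine ⟨e1 y, ?_⟩
      rintro _ ⟨z, hz, rfl⟩
      rw [← map_mul, ← map_mul, e3 y hy z hz]) (hQ.isP.map f1)
  set f2 := (MulAut.conj d').toMonoidHom.comp f1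
  have e4 : Function.Injective f2 := (MulAut.conj d').injective.comp e0
  have e5 : ∀ y ∈ (P : Set H) ∪ Q, f2 y ∈ X.T := by
    rintro y (hy | hy)
    · show d' * f1 y * d'⁻¹ ∈ X.T
      rw [← d1'.2 _ ⟨y, hy, rfl⟩, mul_inv_cancel_right]
      exact e2 y hy
    · exact s1' (d2' _ ⟨y, hy, rfl⟩)
  obtain ⟨n, w, n1, n2⟩ := act_pow (f := f2) (fun y => mul_mem (mul_mem d1'.1 (e1 y)) (inv_mem d1'.1)) e5
    (g := g) (by
      rintro y (hy | hy)
      exacts [Or.inl ((Subgroup.mem_normalizer_iff.1 h9 y).1 hy),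
        Or.inr ((Subgroup.mem_normalizer_iff.1 h7 y).1 hy)])
  have e6 : ∀ {y : H} {d : ℕ}, φ g * φ y * (φ g)⁻¹ = φ y ^ d → ∀ i : ℕ,
      φ (g ^ i * y * (g ^ i)⁻¹) = φ y ^ d ^ i := fun e i => by
    rw [map_mul, map_mul, map_inv, map_pow, conj_pow_pow e]
  refine ⟨n, w, n1, fun i => ⟨fun hw => ?_, fun hn => ?_⟩⟩
  · have : ∀ y ∈ (P : Set H) ∪ Q, y = g ^ i * y * (g ^ i)⁻¹ := fun y hy => e4 (by
      rw [← (n2 i y hy).2, hT _ (hw ▸ rep_pow n1 i).mem_T _ (e5 y hy), mul_inv_cancel_right])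
    exact ⟨by rw [← e6 h2, ← this x (Or.inl hx)], by rw [← e6 h2', ← this x' (Or.inr hx')]⟩
  · rw [← e6 h2, ← map_inv]
    exact congrArg φ (e4 (by rw [← (n2 i x (Or.inl hx)).2, hn _ (e5 x (Or.inl hx)), map_inv]))

theorem fus_one (hT : ∀ s ∈ X.T, ∀ t ∈ X.T, s * t = t * s) {H A : Type*} [Group H] [Group A]
    {f : H →* G} (hf : Function.Injective f) (hf' : ∀ y, f y ∈ X.grp) {φ : H →* A}
    (hφ : Function.Surjective φ) {l : ℕ} [Fact l.Prime]
    (hl : ∀ r, Nat.card (X.U r) ≡ 1 [MOD l]) (hW : ¬ l ∣ Nat.card R.W) {a b : A} {c : ℕ}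
    (h1 : a ^ l = 1) (h2 : b * a * b⁻¹ = a ^ c) : a ^ c ^ Nat.card R.W = a := by
  obtain ⟨n, w, -, h⟩ := fus_two hT hf hf' hφ hl hW hl hW (a' := 1) (c' := 1) h1 (one_pow _) h2 (by simp)
    (Commute.one_right a)
  exact ((h _).1 pow_card_eq_one').1

/-- transport of even permutations -/
theorem exists_alt_emb {m r : ℕ} (h : m ≤ r) : ∃ ι : Equiv.Perm (Fin m) →* Equiv.Perm (Fin r),
    Function.Injective ι ∧ ∀ s, Equiv.Perm.sign s = 1 → ι s ∈ alternatingGroup (Fin r) :=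
  ⟨Equiv.Perm.viaEmbeddingHom (Fin.castLEEmb h), Equiv.Perm.viaEmbeddingHom_injective _, fun _ hs =>
    (@Equiv.Perm.sign_extendDomain _ _ _ _ _ _ _ _ (_) _).trans hs⟩

theorem exists_alt_hom {m r : ℕ} (h : m ≤ r) : ∃ ι : alternatingGroup (Fin m) →* alternatingGroup (Fin r),
    Function.Injective ι := by
  obtain ⟨ι, h1, h2⟩ := exists_alt_emb h
  exact ⟨(ι.comp (alternatingGroup (Fin m)).subtype).codRestrict _ fun s => h2 s s.2, fun a b e =>
    Subtype.ext (h1 (congrArg Subtype.val e))⟩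

/-- a section `A_r` gives a section `A_m` -/
theorem exists_alt_sec {H : Type*} [Group H] {N : Subgroup H} [N.Normal] {m r : ℕ} (h : m ≤ r)
    (e : H ⧸ N ≃* alternatingGroup (Fin r)) : ∃ (L : Subgroup H) (φ : L →* alternatingGroup (Fin m)),
      Function.Surjective φ := by
  obtain ⟨ι, hι⟩ := exists_alt_hom h
  let ψ := e.toMonoidHom.comp (QuotientGroup.mk' N)
  have hψ : Function.Surjective ψ := e.surjective.comp (QuotientGroup.mk'_surjective N)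
  refine ⟨ι.range.comap ψ, (MonoidHom.ofInjective hι).symm.toMonoidHom.comp (ψ.subgroupComap _),
    (MonoidHom.ofInjective hι).symm.surjective.comp (ψ.subgroupComap_surjective_of_surjective _ hψ)⟩

end Cfsg.Agent.H17
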