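import Mathlib
import Cfsg.Agent.H17.MulF
import Cfsg.Agent.H12.ChevAll
import Cfsg.Agent.H12.Stein

/-!
The Chevalley groups of types `D₄` and `B₂` as orthogonal groups.
-/

set_option autoImplicit false
set_option linter.unusedSectionVars false

namespace Cfsg.Agent.H17

open Subgroup H10 H11 H12 CT Cfsg.Lie

section Gen

variable {D : ChevalleyDatum} [Good D] {K : Type*} [Field K] {G : Type*} [Group G]

/-- a non-trivial group generated by a Steinberg system maps onto the Chevalley group -/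
theorem exists_hom_of_ne (S : StSys (cdOf D) K G) (hd : ∀ r, (cdOf D).Der K r)
    (top : ⨆ r, S.U r = ⊤) [Nontrivial G] : ∃ f : G →* D.group K, S.Hom (grpSt D K) f := by
  obtain ⟨f, hf⟩ := scSt_lift S
  obtain ⟨g, hg⟩ := scSt_lift (grpSt D K)
  have hfs := hf.surjective top
  have hgs := hg.surjective grpSt_top
  haveI := grp_isSimpleGroup hd
  rcases (Subgroup.Normal.map inferInstance g hgs : (f.ker.map g).Normal).eq_bot_or_eq_top with h | h
  · refine ⟨f.liftOfSurjective hfs ⟨g, (Subgroup.map_eq_bot_iff _).1 h⟩, fun r t => ?_⟩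
    rw [← hf r t, MonoidHom.liftOfSurjective, MonoidHom.liftOfRightInverse_comp_apply]
    exact hg r t
  · exfalso
    have h1 : f.ker ⊔ center _ = ⊤ := by
      rw [← hom_grp_ker scSt_top hg, ← comap_map_eq, h, comap_top]
    have h2 : ∀ a : G, a ∈ center G := fun a => by
      obtain ⟨a, rfl⟩ := hfs a
      have : f.ker ⊔ center _ ≤ (center G).comap f := sup_le (fun x hx => by
        rw [mem_comap, (MonoidHom.mem_ker).1 hx]; exact one_mem _) fun x hx => mem_center_iff.2 fun y => by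
          obtain ⟨y, rfl⟩ := hfs y
          rw [← map_mul, ← map_mul, mem_center_iff.1 hx y]
      exact this (h1 ▸ mem_top a)
    have h3 := (chev_nc S).perfect top hd
    rw [(commutator_eq_bot_iff_center_eq_top G).2 (eq_top_iff.2 fun a _ => h2 a)] at h3
    exact bot_ne_top h3

theorem equiv_quot_of_st (S : StSys (cdOf D) K G) (top : ⨆ r, S.U r = ⊤) {f : G →* D.group K}
    (hf : S.Hom (grpSt D K) f) : Nonempty (D.group K ≃* G ⧸ center G) :=
  ⟨((QuotientGroup.quotientMulEquivOfEq (hom_grp_ker top hf).symm).trans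
    (QuotientGroup.quotientKerEquivOfSurjective f (hf.surjective grpSt_top))).symm⟩

theorem equiv_commutator_quot (S : StSys (cdOf D) K G) (hd : ∀ r, (cdOf D).Der K r)
    (hle : commutator G ≤ ⨆ r, S.U r) {r : Fin D.nroots} {t : K} (hne : S.x r t ≠ 1) :
    Nonempty (D.group K ≃* commutator G ⧸ center (commutator G)) := by
  have hm : ∀ r t, S.x r t ∈ commutator G := fun r t =>
    (chev_nc S).U_le_commutator (hd r) (S.x_mem_U r t)
  haveI : Nontrivial (commutator G) := ⟨⟨⟨_, hm r t⟩, 1, fun e => hne (congrArg Subtype.val e)⟩⟩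
  have top := S.restrict_top _ hm hle
  obtain ⟨f, hf⟩ := exists_hom_of_ne _ hd top
  exact equiv_quot_of_st _ top hf

end Gen

namespace ChD4

/-- the label of a root -/
def lab (r : ℕ) : (Fin 4 ⊕ Fin 4) × (Fin 4 ⊕ Fin 4) :=
  [(.inr 0, .inr 1), (.inr 0, .inr 2), (.inr 0, .inl 3), (.inr 0, .inr 3), (.inl 2, .inr 0),
    (.inr 0, .inl 1), (.inr 1, .inr 2), (.inr 1, .inl 3), (.inr 1, .inr 3), (.inl 2, .inr 1),
    (.inl 3, .inr 2), (.inr 3, .inr 2), (.inl 2, .inl 3), (.inl 2, .inr 3), (.inl 1, .inr 2),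
    (.inl 3, .inl 1), (.inr 3, .inl 1), (.inl 2, .inl 1), (.inr 1, .inl 0), (.inl 0, .inr 2),
    (.inl 3, .inl 0), (.inr 3, .inl 0), (.inl 2, .inl 0), (.inl 1, .inl 0)].getD r (.inl 0, .inl 1)

def jx {n : ℕ} : Fin n ⊕ Fin n → ℕ := Sum.elim Fin.val Fin.val

/-- the two root elements commute -/
def Cm {n : ℕ} (x y : (Fin n ⊕ Fin n) × (Fin n ⊕ Fin n)) : Prop :=
  (x.1 ≠ y.1.swap ∧ x.1 ≠ y.2.swap ∧ x.2 ≠ y.1.swap ∧ x.2 ≠ y.2.swap) ∨
    (y.1 = x.2.swap ∧ y.2 = x.1) ∨ (y.2 = x.2.swap ∧ y.1 = x.1) ∨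
    (y.1 = x.1.swap ∧ y.2 = x.2) ∨ (y.2 = x.1.swap ∧ y.1 = x.2)

instance (x y : (Fin 4 ⊕ Fin 4) × (Fin 4 ⊕ Fin 4)) : Decidable (Cm x y) := by
  unfold Cm; infer_instance

/-- the commutator of the root elements -/
def Rl {n : ℕ} (x y z : (Fin n ⊕ Fin n) × (Fin n ⊕ Fin n)) : Prop :=
  (y.1 = x.2.swap ∧ z = (x.1, y.2) ∧ jx x.1 ≠ jx y.2 ∧ jx x.2 ≠ jx y.2) ∨
    (y.2 = x.2.swap ∧ z = (y.1, x.1) ∧ jx x.1 ≠ jx y.1 ∧ jx x.2 ≠ jx y.1) ∨
    (y.1 = x.1.swap ∧ z = (y.2, x.2) ∧ jx x.1 ≠ jx y.2 ∧ jx x.2 ≠ jx y.2) ∨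
    (y.2 = x.1.swap ∧ z = (x.2, y.1) ∧ jx x.1 ≠ jx y.1 ∧ jx x.2 ≠ jx y.1)

instance (x y z : (Fin 4 ⊕ Fin 4) × (Fin 4 ⊕ Fin 4)) : Decidable (Rl x y z) := by
  unfold Rl; infer_instance

theorem lab_ne (r : ℕ) (h : r < 24) : jx (lab r).1 ≠ jx (lab r).2 := by
  revert r; decide +kernel

/-- the tabulated commutator agrees with the one of the labels -/
def Ag (L : List (ℕ × ℤ × ℕ × ℕ)) (r s q : ℕ) : Prop :=
  (L = [(q, 1, 1, 1)] ∧ Rl (lab r) (lab s) (lab q)) ∨ (L = [(q, -1, 1, 1)] ∧ Rl (lab r) (lab s) (lab q).swap)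

instance (L : List (ℕ × ℤ × ℕ × ℕ)) (r s q : ℕ) : Decidable (Ag L r s q) := by
  unfold Ag; infer_instance

/-- the check for one pair -/
def Ck (r s : ℕ) : Prop := s ≠ r → s ≠ chevD4.neg r →
    (chevD4.commTerms r s = ([] : List (ℕ × ℤ × ℕ × ℕ)) ∧ Cm (lab r) (lab s)) ∨
      ∃ q < 24, Ag (chevD4.commTerms r s) r s q

instance (r s : ℕ) : Decidable (Ck r s) := by
  unfold Ck; infer_instance

theorem chk : ∀ r < 24, ∀ s < 24, Ck r s := by
  decide +kernel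

theorem lab_surj : ∀ a b : Fin 4 ⊕ Fin 4, jx a ≠ jx b → ∃ r < 24, lab r = (a, b) ∨ lab r = (b, a) := by
  decide +kernel

variable {F : Type*} [Field F] {V : Type*} [AddCommGroup V] [Module F V] {B : V →ₗ[F] V →ₗ[F] F}
  {Q : V → F}

section
variable {C : CT} (P : Frame (σ := RingHom.id F) C ℤ 1 2 (AddMonoidHom.id F) B Q)

theorem β_one (a : C.ι) : P.β a = 1 := (P.β_cases a).elim id id

theorem sw {a b : C.ι} (h : idx a ≠ idx b) (t : F) : P.xo b a t = P.xo a b (-t) := by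
  rw [P.xo_comm h]; simp

theorem c1 {a b : C.ι} (h : idx a ≠ idx b) (t u : F) :
    P.xo b.swap a u * P.xo a b t = P.xo a b t * P.xo b.swap a u := by
  have := P.cm_xx' h u t
  rw [one_mul, RingHom.id_apply, sub_self, P.yo_zero, mul_inv_eq_one, mul_inv_eq_iff_eq_mul] at this
  exact this

theorem cm {x y : C.ι × C.ι} (hx : idx x.1 ≠ idx x.2) (hy : idx y.1 ≠ idx y.2) (h : Cm x y) (t u : F) :
    P.xo y.1 y.2 u * P.xo x.1 x.2 t = P.xo x.1 x.2 t * P.xo y.1 y.2 u := by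
  obtain ⟨a, b⟩ := x
  obtain ⟨c, d⟩ := y
  dsimp only [Cm] at h hx hy ⊢
  rcases h with ⟨h1, h2, h3, h4⟩ | ⟨rfl, rfl⟩ | ⟨rfl, rfl⟩ | ⟨rfl, rfl⟩ | ⟨rfl, rfl⟩
  · exact (P.xx_comm hx hy h1 h2 h3 h4 t u).symm
  · exact c1 P hx t u
  · rw [sw P hy.symm]; exact c1 P hx t _
  · rw [sw P hx.symm]; exact c1 P hx.symm _ u
  · rw [sw P hx.symm, sw P hy.symm]; exact c1 P hx.symm _ _

theorem r1 {a b d : C.ι} (h1 : idx a ≠ idx b) (h2 : idx a ≠ idx d) (h3 : idx b ≠ idx d) (t u : F) :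
    P.xo b.swap d u * P.xo a b t = P.xo a b t * P.xo b.swap d u * P.xo a d (-t * u) := by
  have e := P.cm_xx h1 h2 h3 u t
  rw [β_one, mul_inv_eq_iff_eq_mul, mul_inv_eq_iff_eq_mul] at e
  have h4 : idx b.swap ≠ idx d := by rwa [idx_swap]
  have k1 : Commute (P.xo a d (-1 * u * t)) (P.xo a b t) :=
    P.xx_comm h2 h1 (swap_ne_self a).symm (ne_ix (by rwa [idx_swap])) (ne_ix (by rw [idx_swap]; exact h2.symm))
      (ne_ix (by rw [idx_swap]; exact h3.symm)) _ _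
  have k2 : Commute (P.xo a d (-1 * u * t)) (P.xo b.swap d u) :=
    P.xx_comm h2 h4 (ne_ix (by rwa [idx_swap, idx_swap])) (ne_ix (by rwa [idx_swap]))
      (ne_ix (by rw [idx_swap, idx_swap]; exact h3.symm)) (swap_ne_self d).symm _ _
  rw [e, mul_assoc, (k1.mul_right k2).eq]
  congr 2; ring

theorem rl {x y z : C.ι × C.ι} (hx : idx x.1 ≠ idx x.2) (hy : idx y.1 ≠ idx y.2) (h : Rl x y z) (t u : F) :
    P.xo y.1 y.2 u * P.xo x.1 x.2 t = P.xo x.1 x.2 t * P.xo y.1 y.2 u * P.xo z.1 z.2 (-t * u) := by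
  obtain ⟨a, b⟩ := x
  obtain ⟨c, d⟩ := y
  dsimp only [Rl] at h hx hy ⊢
  rcases h with ⟨rfl, rfl, h1, h2⟩ | ⟨rfl, rfl, h1, h2⟩ | ⟨rfl, rfl, h1, h2⟩ | ⟨rfl, rfl, h1, h2⟩
  · exact r1 P hx h1 h2 t u
  · rw [sw P hy.symm, r1 P hx h1 h2, sw P h1]; congr 2; ring
  · rw [sw P hx.symm, r1 P hx.symm h2 h1, sw P h2]; congr 2; ring
  · rw [sw P hx.symm, sw P hy.symm, r1 P hx.symm h2 h1]; congr 2; ring

end

variable (P : Frame (σ := RingHom.id F) (ctD 4 (by norm_num)) ℤ 1 2 (AddMonoidHom.id F) B Q)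

/-- the Steinberg system of Siegel elements -/
noncomputable def st : StSys (cdOf chevD4) F P.cl.Om where
  x := fun r t => P.xo (lab r).1 (lab r).2 t
  add := fun r t u => P.xo_add (lab_ne r r.2) t u
  comm := fun r s h1 h2 t u => by
    have hr := lab_ne r r.2
    have hs := lab_ne s s.2
    rcases chk r r.2 s s.2 (fun e => h1 (Fin.ext e)) (fun e => h2 (Fin.ext e)) with
      ⟨e, h⟩ | ⟨q, hq, ⟨e, h⟩ | ⟨e, h⟩⟩ <;>
      simp only [cdOf, e, List.map_nil, List.prod_nil, mul_one, List.map_cons, List.prod_cons, pow_one,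
        Int.cast_one, one_mul, Int.cast_neg]
    · exact cm P hr hs h t u
    · rw [finR_val r hq]; exact rl P hr hs h t u
    · rw [finR_val r hq, rl P hr hs h t u]
      congr 1
      rw [Prod.fst_swap, Prod.snd_swap, sw P (lab_ne q hq)]
      congr 1; ring

theorem st_top [FiniteDimensional F V] : ⨆ r, (st P).U r = ⊤ := by
  rw [eq_top_iff, ← P.rgdO_US_univ]
  refine RGD.US_le.2 fun r _ g hg => ?_
  rcases root_cases r with ⟨a, b, h, rfl⟩ | ⟨h, -⟩
  · obtain ⟨t, rfl⟩ := (P.mem_rx h).1 hg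
    obtain ⟨r, hr, e | e⟩ := lab_surj a b h
    · have := le_iSup (st P).U ⟨r, hr⟩ ((st P).x_mem_U _ t)
      simpa only [st, e] using this
    · have := le_iSup (st P).U ⟨r, hr⟩ ((st P).x_mem_U _ (-t))
      rw [sw P h.symm]
      simpa only [st, e] using this
  · simp [ctD] at h

end ChD4

theorem chevD4_equiv (F : Type*) [Field F] :
    Nonempty (chevD4.group F ≃* POmega F (quadFormPlus 4 F)) := by
  obtain ⟨P, hP⟩ := frame_plus (m := 4) (by norm_num) F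
  have hQ := isQuad_plus 4 F
  let S := (ChD4.st P).map (inclusion P.cl.om_le_isom)
  have hle : commutator (Isom (bPlus 4 F) (quadFormPlus 4 F)) ≤ ⨆ r, S.U r := fun g hg => by
    have h1 := hQ.commutator_le_eichSub (bPlus_sep 4 F) (hQ.nonExc_of_finrank (bPlus_sep 4 F) (by simp))
      (by simp) (P.Qf (.inl (0 : Fin 4))) (P.f_ne _) hg
    have h2 := mem_map_of_mem (inclusion P.cl.om_le_isom)
      (ChD4.st_top P ▸ mem_top (⟨g.1, (mem_om_iff_eichSub P.cl g).2 h1⟩ : P.cl.Om))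
    rw [Subgroup.map_iSup] at h2
    simp only [((ChD4.st P).hom_map _).map_U] at h2
    exact h2
  obtain ⟨e⟩ := equiv_commutator_quot S (der_of_mem5 (by simp)) hle (r := ⟨0, by decide⟩) (t := 1) fun e => by
    have h : idx (C := ctD 4 (by norm_num)) _ ≠ idx (C := ctD 4 (by norm_num)) _ := ChD4.lab_ne 0 (by norm_num)
    have := congrArg Subtype.val e
    change (P.xo _ _ 1).1 = 1 at this
    rw [P.xo_val h] at this
    exact one_ne_zero (P.X_eq_one (val_ix h).1 (ne_ix h).symm this)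
  exact ⟨e.trans (pomegaEquiv hQ).symm⟩

end Cfsg.Agent.H17
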