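import Mathlib
import Cfsg.Agent.H17.ChIso

/-!
The Chevalley group of type `B₂` as the orthogonal group of a five-dimensional form (any field).
-/

set_option autoImplicit false
set_option linter.unusedSectionVars false

namespace Cfsg.Agent.H17

open Subgroup H10 H11 H12 Cfsg.Lie

namespace ChB2

variable {F : Type*} [Field F]

abbrev ι5 : Type := Unit ⊕ (Fin 2 ⊕ Fin 2)

/-- a vector from its coordinates -/
def mk (a b c d e : F) : ι5 → F := Sum.elim (fun _ => a) (Sum.elim ![b, c] ![d, e])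

theorem exists_mk (v : ι5 → F) : ∃ a b c d e, v = mk a b c d e :=
  ⟨v (.inl ()), v (.inr (.inl 0)), v (.inr (.inl 1)), v (.inr (.inr 0)), v (.inr (.inr 1)), by
    ext (_ | i | i) <;> first | rfl | (fin_cases i <;> rfl)⟩

theorem mk_inj {a b c d e a' b' c' d' e' : F} : mk a b c d e = mk a' b' c' d' e' ↔
    a = a' ∧ b = b' ∧ c = c' ∧ d = d' ∧ e = e' :=
  ⟨fun h => ⟨congrFun h (.inl ()), congrFun h (.inr (.inl 0)), congrFun h (.inr (.inl 1)),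
    congrFun h (.inr (.inr 0)), congrFun h (.inr (.inr 1))⟩, by rintro ⟨rfl, rfl, rfl, rfl, rfl⟩; rfl⟩

theorem mk_add (a b c d e a' b' c' d' e' : F) : mk a b c d e + mk a' b' c' d' e' =
    mk (a + a') (b + b') (c + c') (d + d') (e + e') := by
  ext (_ | i | i) <;> first | rfl | (fin_cases i <;> rfl)

theorem mk_sub (a b c d e a' b' c' d' e' : F) : mk a b c d e - mk a' b' c' d' e' =
    mk (a - a') (b - b') (c - c') (d - d') (e - e') := by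
  ext (_ | i | i) <;> first | rfl | (fin_cases i <;> rfl)

theorem mk_smul (t a b c d e : F) : t • mk a b c d e = mk (t * a) (t * b) (t * c) (t * d) (t * e) := by
  ext (_ | i | i) <;> first | rfl | (fin_cases i <;> rfl)

theorem mk_zero : (0 : ι5 → F) = mk 0 0 0 0 0 := by
  ext (_ | i | i) <;> first | rfl | (fin_cases i <;> rfl)

theorem B_mk (a b c d e a' b' c' d' e' : F) : bOdd 2 F (mk a b c d e) (mk a' b' c' d' e') =
    2 * a * a' + (b * d' + d * b' + (c * e' + e * c')) := by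
  rw [bOdd_apply, Fin.sum_univ_two]; rfl

theorem Q_mk (a b c d e : F) : quadFormOdd 2 F (mk a b c d e) = a ^ 2 + (b * d + c * e) := by
  rw [quadFormOdd, Fin.sum_univ_two]; rfl

/-- the singular vector of a root -/
def ua (F : Type*) [Field F] : ℕ → ι5 → F
  | 2 => mk 0 0 0 0 1
  | 4 => mk 0 1 0 0 0
  | 5 => mk 0 0 1 0 0
  | 6 => mk 0 1 0 0 0
  | 7 => mk 0 1 0 0 0
  | _ => mk 0 0 0 1 0

/-- the second vector of a root element -/
def wb : ℕ → F → ι5 → F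
  | 0, t => mk 0 0 0 0 (-t)
  | 3, t => mk 0 0 (-t) 0 0
  | 4, t => mk 0 0 0 0 t
  | 5, t => mk t 0 0 0 0
  | 6, t => mk t 0 0 0 0
  | 7, t => mk 0 0 t 0 0
  | _, t => mk (-t) 0 0 0 0

theorem Q_ua (r : ℕ) : quadFormOdd 2 F (ua F r) = 0 := by
  unfold ua; split <;> simp [Q_mk]

theorem B_ua (r : ℕ) (t : F) : bOdd 2 F (ua F r) (wb r t) = 0 := by
  unfold ua wb; split <;> split <;> simp_all [B_mk]

theorem wb_add (r : ℕ) (t u : F) : wb r (t + u) = wb r t + wb r u := by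
  match r with
  | 0 | 1 | 2 | 3 | 4 | 5 | 6 | 7 | _ + 8 =>
    simp [wb, mk_add, mk_inj, add_comm]

abbrev O5 (F : Type*) [Field F] := Isom (bOdd 2 F) (quadFormOdd 2 F)

/-- the root elements -/
noncomputable def x (r : ℕ) (t : F) : O5 F := (isQuad_odd 2 F).eich (Q_ua r) (B_ua r t)

theorem ext5 {g h : O5 F} (H : ∀ a b c d e, g.1 (mk a b c d e) = h.1 (mk a b c d e)) : g = h :=
  Subtype.ext (LinearEquiv.ext fun v => by obtain ⟨a, b, c, d, e, rfl⟩ := exists_mk v; exact H ..)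

section
variable (t a b c d e : F)

theorem x0 : (x 0 t).1 (mk a b c d e) = mk a b c (d - t * c) (e + t * b) := by
  simp only [x, IsQuad.eich_apply, ua, wb, B_mk, Q_mk, mk_smul, mk_add, mk_sub, mk_inj]
  refine ⟨?_, ?_, ?_, ?_, ?_⟩ <;> ring
theorem x1 : (x 1 t).1 (mk a b c d e) = mk (a + t * b) b c (d - 2 * t * a - t ^ 2 * b) e := by
  simp only [x, IsQuad.eich_apply, ua, wb, B_mk, Q_mk, mk_smul, mk_add, mk_sub, mk_inj]
  refine ⟨?_, ?_, ?_, ?_, ?_⟩ <;> ring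
theorem x2 : (x 2 t).1 (mk a b c d e) = mk (a + t * c) b c d (e - 2 * t * a - t ^ 2 * c) := by
  simp only [x, IsQuad.eich_apply, ua, wb, B_mk, Q_mk, mk_smul, mk_add, mk_sub, mk_inj]
  refine ⟨?_, ?_, ?_, ?_, ?_⟩ <;> ring
theorem x3 : (x 3 t).1 (mk a b c d e) = mk a b (c + t * b) (d - t * e) e := by
  simp only [x, IsQuad.eich_apply, ua, wb, B_mk, Q_mk, mk_smul, mk_add, mk_sub, mk_inj]
  refine ⟨?_, ?_, ?_, ?_, ?_⟩ <;> ring
theorem x4 : (x 4 t).1 (mk a b c d e) = mk a (b + t * c) c d (e - t * d) := by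
  simp only [x, IsQuad.eich_apply, ua, wb, B_mk, Q_mk, mk_smul, mk_add, mk_sub, mk_inj]
  refine ⟨?_, ?_, ?_, ?_, ?_⟩ <;> ring
theorem x5 : (x 5 t).1 (mk a b c d e) = mk (a - t * e) b (c + 2 * t * a - t ^ 2 * e) d e := by
  simp only [x, IsQuad.eich_apply, ua, wb, B_mk, Q_mk, mk_smul, mk_add, mk_sub, mk_inj]
  refine ⟨?_, ?_, ?_, ?_, ?_⟩ <;> ring
theorem x6 : (x 6 t).1 (mk a b c d e) = mk (a - t * d) (b + 2 * t * a - t ^ 2 * d) c d e := by
  simp only [x, IsQuad.eich_apply, ua, wb, B_mk, Q_mk, mk_smul, mk_add, mk_sub, mk_inj]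
  refine ⟨?_, ?_, ?_, ?_, ?_⟩ <;> ring
theorem x7 : (x 7 t).1 (mk a b c d e) = mk a (b + t * e) (c - t * d) d e := by
  simp only [x, IsQuad.eich_apply, ua, wb, B_mk, Q_mk, mk_smul, mk_add, mk_sub, mk_inj]
  refine ⟨?_, ?_, ?_, ?_, ?_⟩ <;> ring

end

/-- the commutator table -/
def tb (r s : ℕ) : List (ℕ × ℤ × ℕ × ℕ) :=
  ([[[], [], [], [], [], [(1, 1, 1, 1), (3, -1, 1, 2)], [(2, -1, 1, 1), (4, 1, 1, 2)], []],
    [[], [], [(0, 2, 1, 1)], [], [(2, 1, 1, 1), (0, 1, 2, 1)], [(3, -2, 1, 1)], [], [(5, -1, 1, 1), (3, 1, 2, 1)]],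
    [[], [(0, -2, 1, 1)], [], [(1, 1, 1, 1), (0, -1, 2, 1)], [], [], [(4, -2, 1, 1)], [(6, 1, 1, 1), (4, -1, 2, 1)]],
    [[], [], [(1, -1, 1, 1), (0, -1, 1, 2)], [], [], [], [(5, 1, 1, 1), (7, 1, 1, 2)], []],
    [[], [(2, -1, 1, 1), (0, 1, 1, 2)], [], [], [], [(6, 1, 1, 1), (7, -1, 1, 2)], [], []],
    [[(1, -1, 1, 1), (3, -1, 2, 1)], [(3, 2, 1, 1)], [], [], [(6, -1, 1, 1), (7, -1, 2, 1)], [], [(7, 2, 1, 1)], []],
    [[(2, 1, 1, 1), (4, 1, 2, 1)], [], [(4, 2, 1, 1)], [(5, -1, 1, 1), (7, 1, 2, 1)], [], [(7, -2, 1, 1)], [], []],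
    [[], [(5, 1, 1, 1), (3, 1, 1, 2)], [(6, -1, 1, 1), (4, -1, 1, 2)], [], [], [], [], []]].getD r []).getD s []

theorem tb_eq : ∀ r < 8, ∀ s < 8, chevB2.commTerms r s = tb r s := by
  have : ∀ r < 8, ∀ s < 8, (chevB2.commTerms r s == tb r s) = true := by decide +kernel
  exact fun r hr s hs => eq_of_beq (this r hr s hs)

theorem neg_eq : ∀ r < 8, chevB2.neg r = 7 - r := by decide +kernel

theorem x_comm (r s : ℕ) (hr : r < 8) (hs : s < 8) (h1 : s ≠ r) (h2 : s ≠ 7 - r) (t u : F) :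
    x s u * x r t = x r t * x s u *
      ((tb r s).map fun c => x c.1 ((c.2.1 : F) * (-t) ^ c.2.2.1 * u ^ c.2.2.2)).prod := by
  interval_cases r <;> interval_cases s <;> first | exact absurd rfl h1 | exact absurd rfl h2 | skip
  all_goals
    refine ext5 fun a b c d e => ?_
    simp only [tb, List.getD_cons_zero, List.getD_cons_succ, List.map_nil, List.prod_nil, mul_one,
      List.map_cons, List.prod_cons, Subgroup.coe_mul, LinearEquiv.mul_apply, x0, x1, x2, x3, x4, x5, x6,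
      x7, mk_inj]
    refine ⟨?_, ?_, ?_, ?_, ?_⟩ <;> first | trivial | (push_cast; ring)

/-- the Steinberg system -/
noncomputable def st (F : Type*) [Field F] : StSys (cdOf chevB2) F (O5 F) where
  x := fun r t => x r t
  add := fun r t u => by
    rw [x, x, x, IsQuad.eich_mul]
    refine IsQuad.eich_congr _ _ _ _ _ rfl ?_
    exact wb_add r t u
  comm := fun r s h1 h2 t u => by
    rw [x_comm r s r.2 s.2 (fun e => h1 (Fin.ext e)) (fun e => h2 (Fin.ext (e.trans (neg_eq r r.2).symm))),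
      ← tb_eq r r.2 s s.2]
    simp only [cdOf, List.map_map]
    congr 2
    exact List.map_congr_left fun c hc => by
      simp only [Function.comp, finR_val r (mem_commTerms r.2 s.2 hc).1]

/-- the group generated by the root elements -/
noncomputable def L (F : Type*) [Field F] : Subgroup (O5 F) := ⨆ r, (st F).U r

theorem x_mem {r : ℕ} (hr : r < 8) (t : F) : x r t ∈ L F :=
  le_iSup (st F).U ⟨r, hr⟩ ((st F).x_mem_U _ t)

theorem Q_isom (g : O5 F) (a b c d e : F) : quadFormOdd 2 F (g.1 (mk a b c d e)) = a ^ 2 + (b * d + c * e) := by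
  rw [g.2.2, Q_mk]

/-- move a singular vector with `x₁ ≠ 0` to a multiple of `e₁` -/
theorem mv1 {a b c d e : F} (h : a ^ 2 + (b * d + c * e) = 0) (hb : b ≠ 0) :
    (x 0 (-e / b) * x 3 (-c / b) * x 1 (-a / b)).1 (mk a b c d e) = mk 0 b 0 0 0 := by
  simp only [Subgroup.coe_mul, LinearEquiv.mul_apply, x0, x1, x3, mk_inj]
  refine ⟨?_, trivial, ?_, ?_, ?_⟩ <;> field_simp
  · ring
  · ring
  · linear_combination h
  · ring

theorem mv1' {a b c d e : F} (h : a ^ 2 + (b * d + c * e) = 0) (hd : d ≠ 0) :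
    (x 7 (c / d) * x 4 (e / d) * x 6 (a / d)).1 (mk a b c d e) = mk 0 0 0 d 0 := by
  simp only [Subgroup.coe_mul, LinearEquiv.mul_apply, x7, x4, x6, mk_inj]
  refine ⟨?_, ?_, ?_, trivial, ?_⟩ <;> field_simp
  · ring
  · linear_combination h
  · ring
  · ring

theorem step1 (g : O5 F) : ∃ l ∈ L F, ∃ b, b ≠ 0 ∧ (l * g).1 (mk 0 1 0 0 0) = mk 0 b 0 0 0 := by
  have k : ∀ g : O5 F, ∀ a b c d e, g.1 (mk 0 1 0 0 0) = mk a b c d e → b ≠ 0 →
      ∃ l ∈ L F, ∃ b, b ≠ 0 ∧ (l * g).1 (mk 0 1 0 0 0) = mk 0 b 0 0 0 := fun g a b c d e h hb => by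
    have hQ := Q_isom g 0 1 0 0 0
    rw [h, Q_mk] at hQ
    refine ⟨x 0 (-e / b) * x 3 (-c / b) * x 1 (-a / b), mul_mem (mul_mem (x_mem (by norm_num) _)
      (x_mem (by norm_num) _)) (x_mem (by norm_num) _), b, hb, ?_⟩
    rw [Subgroup.coe_mul, LinearEquiv.mul_apply, h]
    exact mv1 (by simpa using hQ) hb
  have k' : ∀ l ∈ L F, ∀ a b c d e, (l * g).1 (mk 0 1 0 0 0) = mk a b c d e → b ≠ 0 →
      ∃ l ∈ L F, ∃ b, b ≠ 0 ∧ (l * g).1 (mk 0 1 0 0 0) = mk 0 b 0 0 0 := fun l hl a b c d e h hb => by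
    obtain ⟨l', hl', H⟩ := k _ a b c d e h hb
    exact ⟨l' * l, mul_mem hl' hl, by rwa [mul_assoc]⟩
  obtain ⟨a, b, c, d, e, h⟩ := exists_mk (g.1 (mk 0 1 0 0 0))
  have hQ := Q_isom g 0 1 0 0 0
  rw [h, Q_mk] at hQ
  by_cases hb : b = 0
  swap
  · exact k g _ _ _ _ _ h hb
  by_cases hc : c = 0
  swap
  · exact k' _ (x_mem (r := 4) (by norm_num) 1) _ _ _ _ _
      (by rw [Subgroup.coe_mul, LinearEquiv.mul_apply, h, x4]) (by simpa [hb])
  by_cases he : e = 0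
  swap
  · exact k' _ (x_mem (r := 7) (by norm_num) 1) _ _ _ _ _
      (by rw [Subgroup.coe_mul, LinearEquiv.mul_apply, h, x7]) (by simpa [hb])
  have ha : a = 0 := by simpa [hb, hc] using hQ
  have hd : d ≠ 0 := fun hd => by
    rw [ha, hb, hc, hd, he, ← mk_zero, LinearEquiv.map_eq_zero_iff, mk_zero, mk_inj] at h
    exact one_ne_zero h.2.1
  exact k' _ (x_mem (r := 6) (by norm_num) 1) _ _ _ _ _
    (by rw [Subgroup.coe_mul, LinearEquiv.mul_apply, h, x6]) (by simpa [hb, ha])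

theorem B_isom (g : O5 F) (v w : ι5 → F) : bOdd 2 F (g.1 v) (g.1 w) = bOdd 2 F v w := g.2.1 v w

/-- the first pair of lines is fixed -/
def F1 (g : O5 F) : Prop :=
  ∃ b, b ≠ 0 ∧ g.1 (mk 0 1 0 0 0) = mk 0 b 0 0 0 ∧ g.1 (mk 0 0 0 1 0) = mk 0 0 0 b⁻¹ 0

theorem step2 (g : O5 F) : ∃ l ∈ L F, F1 (l * g) := by
  obtain ⟨l, hl, b, hb, h⟩ := step1 g
  obtain ⟨a, b', c, d, e, h'⟩ := exists_mk ((l * g).1 (mk 0 0 0 1 0))
  have hQ := Q_isom (l * g) 0 0 0 1 0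
  have hB := B_isom (l * g) (mk 0 1 0 0 0) (mk 0 0 0 1 0)
  rw [h', Q_mk] at hQ
  rw [h, h', B_mk, B_mk] at hB
  have hd : d = b⁻¹ := eq_inv_of_mul_eq_one_right (by simpa using hB)
  have hd0 : d ≠ 0 := hd ▸ inv_ne_zero hb
  refine ⟨x 7 (c / d) * x 4 (e / d) * x 6 (a / d) * l, mul_mem (mul_mem (mul_mem (x_mem (by norm_num) _)
    (x_mem (by norm_num) _)) (x_mem (by norm_num) _)) hl, b, hb, ?_, ?_⟩ <;>
    rw [mul_assoc, Subgroup.coe_mul, LinearEquiv.mul_apply]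
  · rw [h]; simp [x4, x6, x7]
  · rw [h', mv1' (by simpa using hQ) hd0, hd]

theorem F1.perp {g : O5 F} (h : F1 g) (a c e : F) : ∃ a' c' e', g.1 (mk a 0 c 0 e) = mk a' 0 c' 0 e' := by
  obtain ⟨b, hb, h1, h2⟩ := h
  obtain ⟨a', b', c', d', e', h'⟩ := exists_mk (g.1 (mk a 0 c 0 e))
  have k1 := B_isom g (mk 0 1 0 0 0) (mk a 0 c 0 e)
  have k2 := B_isom g (mk 0 0 0 1 0) (mk a 0 c 0 e)
  rw [h1, h', B_mk, B_mk] at k1
  rw [h2, h', B_mk, B_mk] at k2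
  have e1 : d' = 0 := by simpa [hb] using k1
  have e2 : b' = 0 := by simpa [hb] using k2
  exact ⟨a', c', e', by rw [h', e1, e2]⟩

theorem F1.x2 {g : O5 F} (h : F1 g) (t : F) : F1 (x 2 t * g) := by
  obtain ⟨b, hb, h1, h2⟩ := h
  exact ⟨b, hb, by simp [h1, ChB2.x2], by simp [h2, ChB2.x2]⟩

theorem F1.x5 {g : O5 F} (h : F1 g) (t : F) : F1 (x 5 t * g) := by
  obtain ⟨b, hb, h1, h2⟩ := h
  exact ⟨b, hb, by simp [h1, ChB2.x5], by simp [h2, ChB2.x5]⟩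

theorem step3 {g : O5 F} (h : F1 g) :
    ∃ l ∈ L F, F1 (l * g) ∧ ∃ c, c ≠ 0 ∧ (l * g).1 (mk 0 0 1 0 0) = mk 0 0 c 0 0 := by
  have k : ∀ g : O5 F, F1 g → ∀ a c e, g.1 (mk 0 0 1 0 0) = mk a 0 c 0 e → c ≠ 0 →
      ∃ t, (x 2 t * g).1 (mk 0 0 1 0 0) = mk 0 0 c 0 0 := fun g _ a c e h hc => by
    have hQ := Q_isom g 0 0 1 0 0
    rw [h, Q_mk] at hQ
    refine ⟨-a / c, ?_⟩
    rw [Subgroup.coe_mul, LinearEquiv.mul_apply, h, ChB2.x2, mk_inj]
    refine ⟨?_, rfl, rfl, rfl, ?_⟩ <;> field_simp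
    · ring
    · linear_combination hQ
  obtain ⟨a, c, e, h'⟩ := h.perp 0 1 0
  by_cases hc : c = 0
  · have hQ := Q_isom g 0 0 1 0 0
    rw [h', Q_mk] at hQ
    have ha : a = 0 := by simpa [hc] using hQ
    have he : e ≠ 0 := fun he => by
      rw [ha, hc, he, ← mk_zero, LinearEquiv.map_eq_zero_iff, mk_zero, mk_inj] at h'
      exact one_ne_zero h'.2.2.1
    have h0 : c + 2 * 1 * a - 1 ^ 2 * e ≠ 0 := by simpa [hc, ha]
    obtain ⟨t, ht⟩ := k _ (h.x5 1) _ _ _ (by rw [Subgroup.coe_mul, LinearEquiv.mul_apply, h', ChB2.x5]) h0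
    exact ⟨x 2 t * x 5 1, mul_mem (x_mem (by norm_num) _) (x_mem (by norm_num) _),
      by rw [mul_assoc]; exact (h.x5 1).x2 t, _, h0, by rwa [mul_assoc]⟩
  · obtain ⟨t, ht⟩ := k _ h _ _ _ h' hc
    exact ⟨_, x_mem (by norm_num) t, h.x2 t, c, hc, ht⟩

/-- diagonal elements -/
def Dg (g : O5 F) : Prop := ∃ a b c : F, b ≠ 0 ∧ c ≠ 0 ∧ a * a = 1 ∧
  ∀ v₀ v₁ v₂ v₃ v₄, g.1 (mk v₀ v₁ v₂ v₃ v₄) = mk (a * v₀) (b * v₁) (c * v₂) (b⁻¹ * v₃) (c⁻¹ * v₄)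

theorem step4 (g : O5 F) : ∃ l ∈ L F, Dg (l * g) := by
  obtain ⟨l₁, hl₁, h⟩ := step2 g
  obtain ⟨l₂, hl₂, h, c, hc, h3⟩ := step3 h
  set g' := l₂ * (l₁ * g) with hg'
  obtain ⟨a, c', e, h4⟩ := h.perp 0 0 1
  have hQ := Q_isom g' 0 0 0 0 1
  have hB := B_isom g' (mk 0 0 1 0 0) (mk 0 0 0 0 1)
  rw [h4, Q_mk] at hQ
  rw [h3, h4, B_mk, B_mk] at hB
  have he : e = c⁻¹ := eq_inv_of_mul_eq_one_right (by simpa using hB)
  have he0 : e ≠ 0 := he ▸ inv_ne_zero hc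
  have k := h.x5 (a / e)
  have k3 : (x 5 (a / e) * g').1 (mk 0 0 1 0 0) = mk 0 0 c 0 0 := by simp [h3, ChB2.x5]
  have k4 : (x 5 (a / e) * g').1 (mk 0 0 0 0 1) = mk 0 0 0 0 c⁻¹ := by
    rw [Subgroup.coe_mul, LinearEquiv.mul_apply, h4, ChB2.x5, mk_inj]
    refine ⟨?_, rfl, ?_, rfl, he⟩ <;> field_simp
    · ring
    · linear_combination hQ
  refine ⟨x 5 (a / e) * (l₂ * l₁), mul_mem (x_mem (by norm_num) _) (mul_mem hl₂ hl₁), ?_⟩
  rw [mul_assoc, mul_assoc, ← hg']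
  generalize x 5 (a / e) * g' = g at k k3 k4
  obtain ⟨a, c', e', h5⟩ := k.perp 1 0 0
  have b1 := B_isom g (mk 0 0 1 0 0) (mk 1 0 0 0 0)
  have b2 := B_isom g (mk 0 0 0 0 1) (mk 1 0 0 0 0)
  have b3 := Q_isom g 1 0 0 0 0
  rw [k3, h5, B_mk, B_mk] at b1
  rw [k4, h5, B_mk, B_mk] at b2
  have e1 : e' = 0 := by simpa [hc] using b1
  have e2 : c' = 0 := by simpa [hc] using b2
  rw [e1, e2] at h5
  rw [h5, Q_mk] at b3
  obtain ⟨b, hb, k1, k2⟩ := k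
  refine ⟨a, b, c, hb, hc, by linear_combination b3, fun v₀ v₁ v₂ v₃ v₄ => ?_⟩
  have : mk v₀ v₁ v₂ v₃ v₄ = v₀ • mk 1 0 0 0 0 + v₁ • mk 0 1 0 0 0 + v₂ • mk 0 0 1 0 0 + v₃ • mk 0 0 0 1 0 +
      v₄ • mk 0 0 0 0 1 := by simp [mk_smul, mk_add]
  rw [this]
  simp only [map_add, map_smul, h5, k1, k2, k3, k4]
  simp [mk_smul, mk_add, mul_comm]

theorem Dg.conj {g : O5 F} (h : Dg g) {r : ℕ} (hr : r < 8) (t : F) : ∃ s, g * x r t = x r s * g := by
  obtain ⟨a, b, c, hb, hc, ha, h⟩ := h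
  have ha0 : a ≠ 0 := left_ne_zero_of_mul_eq_one ha
  refine ⟨t * [b⁻¹ * c⁻¹, a * b⁻¹, a * c⁻¹, c * b⁻¹, b * c⁻¹, a * c, a * b, b * c].getD r 0,
    ext5 fun v₀ v₁ v₂ v₃ v₄ => ?_⟩
  interval_cases r
  all_goals
    simp only [List.getD_cons_zero, List.getD_cons_succ, Subgroup.coe_mul, LinearEquiv.mul_apply, x0, x1,
      ChB2.x2, x3, x4, ChB2.x5, x6, x7, h, mk_inj]
    refine ⟨?_, ?_, ?_, ?_, ?_⟩ <;> first | trivial | (field_simp; done) | (field_simp; grind)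

theorem Dg.comm {g g' : O5 F} (h : Dg g) (h' : Dg g') : g * g' = g' * g := by
  obtain ⟨a, b, c, -, -, -, h⟩ := h
  obtain ⟨a', b', c', -, -, -, h'⟩ := h'
  refine ext5 fun v₀ v₁ v₂ v₃ v₄ => ?_
  simp only [Subgroup.coe_mul, LinearEquiv.mul_apply, h, h', mk_inj]
  refine ⟨?_, ?_, ?_, ?_, ?_⟩ <;> ring

theorem Dg.norm {g : O5 F} (h : Dg g) {l : O5 F} (hl : l ∈ L F) : g * l * g⁻¹ ∈ L F := by
  have : L F ≤ (L F).comap (MulAut.conj g).toMonoidHom := iSup_le fun r => (st F).U_le.2 fun t => by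
    obtain ⟨s, hs⟩ := h.conj r.2 t
    change g * x r t * g⁻¹ ∈ L F
    rw [hs, mul_inv_cancel_right]
    exact x_mem r.2 s
  exact this hl

theorem commutator_le : commutator (O5 F) ≤ L F := by
  haveI : (L F).Normal := ⟨fun l hl g => by
    obtain ⟨m, hm, h⟩ := step4 g
    have := mul_mem (mul_mem (inv_mem hm) (h.norm hl)) hm
    rwa [show m⁻¹ * (m * g * l * (m * g)⁻¹) * m = g * l * g⁻¹ by group] at this⟩
  refine Subgroup.commutator_le.2 fun g _ g' _ => ?_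
  obtain ⟨m, hm, h⟩ := step4 g
  obtain ⟨m', hm', h'⟩ := step4 g'
  have e := congrArg (QuotientGroup.mk' (L F)) (h.comm h')
  have e1 := (QuotientGroup.eq_one_iff m).2 hm
  have e2 := (QuotientGroup.eq_one_iff m').2 hm'
  simp only [map_mul, QuotientGroup.mk'_apply, e1, e2, one_mul] at e
  rw [← QuotientGroup.eq_one_iff, commutatorElement_def]
  simp only [QuotientGroup.mk_mul, QuotientGroup.mk_inv, e]
  group

end ChB2

theorem chevB2_equiv {F : Type*} [Field F] (hF : ∃ a : F, a ≠ 0 ∧ a ≠ 1) :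
    Nonempty (chevB2.group F ≃* POmega F (quadFormOdd 2 F)) := by
  obtain ⟨e⟩ := equiv_commutator_quot (ChB2.st F) (der_B2 hF) ChB2.commutator_le (r := ⟨7, by decide⟩)
    (t := 1) fun e => by
      have := congrArg (fun g : ChB2.O5 F => g.1 (ChB2.mk 0 0 0 0 1)) e
      change (ChB2.x 7 (1 : F)).1 _ = ChB2.mk 0 0 0 0 1 at this
      simp [ChB2.x7, ChB2.mk_inj] at this
  exact ⟨e.trans (pomegaEquiv (isQuad_odd 2 F)).symm⟩

end Cfsg.Agent.H17
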