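import Mathlib
import Cfsg.Agent.H17.F4T

/-!
Central extensions of `F₄(2)`: one element controls the kernel.
-/

set_option autoImplicit false
set_option linter.unusedSectionVars false
set_option maxRecDepth 100000

namespace Cfsg.Agent.H17.F4U

open Cfsg.Lie Cfsg.Agent.H12 Subgroup
open scoped commutatorElement

variable {K : Type*} [Field K] (hK : ∀ t : K, t = 0 ∨ t = 1)

section
include hK

theorem two_eq : (2 : K) = 0 := (hK 2).resolve_right fun e => one_ne_zero (α := K) (by linear_combination e)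

theorem neg_one_eq : (-1 : K) = 1 := by linear_combination -two_eq hK

theorem cast_even {n : ℤ} (h : n % 2 = 0) : (n : K) = 0 := by
  obtain ⟨k, rfl⟩ : ∃ k, n = 2 * k := ⟨n / 2, by omega⟩
  push_cast; rw [two_eq hK, zero_mul]

theorem cast_odd {n : ℤ} (h : n % 2 = 1) : (n : K) = 1 := by
  obtain ⟨k, rfl⟩ : ∃ k, n = 2 * k + 1 := ⟨n / 2, by omega⟩
  push_cast; rw [two_eq hK, zero_mul, zero_add]

theorem hK' (t : K) : ∃ n : ℤ, t = n := by
  rcases hK t with rfl | rfl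
  exacts [⟨0, by simp⟩, ⟨1, by simp⟩]

theorem cm_of {a b : Rt} (h : cm2 a b = true) : CC.Cm K a b := by
  simp only [cm2, Bool.or_eq_true, Bool.and_eq_true, decide_eq_true_eq, List.all_eq_true] at h
  rcases h with h | ⟨h1, h2⟩
  · exact Or.inl (Fin.ext h)
  · refine Or.inr ⟨fun e => h1 (by rw [e, neg_eq]), fun c hc => ?_⟩
    rw [terms_eq] at hc
    obtain ⟨c, hc', rfl⟩ := List.mem_map.1 hc
    exact cast_even hK (h2 c hc')

end

/-- two roots of the same length at an obtuse angle -/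
def A2 (a b k : Rt) : Prop := RR.cor a (RR.α b) = -1 ∧ RR.cor b (RR.α a) = -1 ∧
  ∃ e : ℤ, (e = 1 ∨ e = -1) ∧ TT a b = [(k.1, e, 1, 1)]

theorem a2_of {a b k : Rt} (h : a2 a b k = true) : A2 a b k := by
  simp only [a2, Bool.or_eq_true, Bool.and_eq_true, decide_eq_true_eq] at h
  exact ⟨(cor_eq _ _).trans h.1.1, (cor_eq _ _).trans h.1.2,
    h.2.elim (fun e => ⟨1, Or.inl rfl, e⟩) fun e => ⟨-1, Or.inr rfl, e⟩⟩

theorem A2.ne {a b k : Rt} (h : A2 a b k) : b ≠ a ∧ b ≠ RR.neg a :=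
  RS.ne_of_cor (R := RR) (r := a) (s := b) (by rw [h.1]; omega)

theorem le_two (a t : Rt) : RR.cor a (RR.α t) ≤ 2 := by
  rw [cor_eq]
  exact of_decide_eq_true (allLt_iff.1 (allLt_iff.1 leChk a a.2) t t.2)

theorem A2.dec {a b k : Rt} (h : A2 a b k) : (a, b) ∈ RR.Dec k := by
  obtain ⟨e, -, he⟩ := h.2.2
  have h1 := (mem_commTerms a.2 b.2 (c := (k.1, e, 1, 1)) (by rw [TT_eq, he]; simp)).2.1
  have h2 : RR.α k = RR.α a + RR.α b := by simpa using h1
  refine ⟨h.ne.1, h.ne.2, Set.eq_singleton_iff_unique_mem.2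
    ⟨⟨1, 1, one_pos, one_pos, by simpa using h2⟩, ?_⟩⟩
  rintro t ⟨p, q, hp, hq, ht⟩
  have a1 := le_two a t
  have a2 := le_two b t
  rw [ht] at a1 a2
  simp only [map_add, map_smul, RR.cor_self, h.1, h.2.1, smul_eq_mul] at a1 a2
  obtain ⟨rfl, rfl⟩ | ⟨rfl, rfl⟩ : (p = 1 ∧ q = 1) ∨ (p = 2 ∧ q = 2) := by omega
  · exact RR.inj (by rw [ht, h2]; simp)
  · have h3 : RR.α t = (2 : ℤ) • RR.α k := by rw [ht, h2, smul_add]
    have h4 := le_two k t
    rw [h3, map_smul, RR.cor_self] at h4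
    simp at h4

theorem finR_self (a k : Rt) : finR a k.1 = k := Fin.ext (finR_val a k.2)

section
include hK

theorem der1_of {r s : Rt} {a b : ℕ} (h : der1 r s a b = true) : CC.DerC K r s := by
  simp only [der1, Bool.and_eq_true, decide_eq_true_eq] at h
  obtain ⟨⟨⟨⟨ha, hb⟩, h1⟩, h2⟩, h3⟩ := h
  have h4 := a2_of (a := ⟨a, ha⟩) (b := ⟨b, hb⟩) h1
  obtain ⟨e, he, he'⟩ := h4.2.2
  exact derC_of_one h4.ne.1 h4.ne.2 he ((TT_eq _ _).trans he') (cm_of hK h2) (cm_of hK h3)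

theorem der2_of {r s : Rt} {a b a' b' : ℕ} (h : der2 r s a b a' b' = true) : CC.DerC K r s := by
  simp only [der2, Bool.and_eq_true, decide_eq_true_eq] at h
  obtain ⟨⟨⟨⟨⟨⟨ha, hb⟩, h1⟩, h2⟩, h3⟩, h4⟩, h5⟩ := h
  have n1 : (⟨b, hb⟩ : Rt) ≠ ⟨a, ha⟩ := fun e => h1 (congrArg Fin.val e)
  have n2 : (⟨b, hb⟩ : Rt) ≠ RR.neg ⟨a, ha⟩ := fun e => h2 ((congrArg Fin.val e).trans (neg_eq _))
  have ht := terms_eq ⟨a, ha⟩ ⟨b, hb⟩
  split at h5
  · rename_i c d e
    have hc := (mem_commTerms ha hb (c := c) (by rw [TT_eq, e]; simp)).1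
    have hd := (mem_commTerms ha hb (c := d) (by rw [TT_eq, e]; simp)).1
    dsimp only at ht
    rw [e] at ht
    simp only [Bool.or_eq_true, Bool.and_eq_true, decide_eq_true_eq] at h5
    rcases h5 with ⟨⟨⟨e1, e2⟩, e3⟩, e4⟩ | ⟨⟨⟨e1, e2⟩, e3⟩, e4⟩
    · have := CD.DerC.comm (C := CC) (K := K) (r := r) _ _ n1 n2 [] [(finR ⟨a, ha⟩ d.1, d.2)]
        (finR ⟨a, ha⟩ c.1, c.2) ht (by rw [cast_odd hK e2]; exact one_ne_zero) e3 (by simp)
        (fun x hx => by
          rw [List.mem_singleton.1 hx]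
          exact der1_of hK (a := a') (b := b') (by rwa [finR_val _ hd])) (cm_of hK h3) (cm_of hK h4)
      rwa [e1, finR_self] at this
    · have := CD.DerC.comm (C := CC) (K := K) (r := r) _ _ n1 n2 [(finR ⟨a, ha⟩ c.1, c.2)] []
        (finR ⟨a, ha⟩ d.1, d.2) ht (by rw [cast_odd hK e2]; exact one_ne_zero) e3
        (fun x hx => by
          rw [List.mem_singleton.1 hx]
          exact der1_of hK (a := a') (b := b') (by rwa [finR_val _ hc])) (by simp)
        (cm_of hK h3) (cm_of hK h4)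
      rwa [e1, finR_self] at this
  · exact absurd h5 (by simp)

variable {G : Type*} [Group G] {S : StSys CC K G}

theorem x_inv (r : Rt) : (S.x r 1)⁻¹ = S.x r 1 := by rw [← S.x_neg, neg_one_eq hK]

theorem xcomm {r s : Rt} (h1 : s ≠ r) (h2 : s ≠ RR.neg r) :
    ⁅S.x s 1, S.x r 1⁆ = ((TT r s).map fun c => S.x (finR r c.1) (c.2.1 : K)).prod := by
  have h := S.comm r s h1 h2 1 1
  rw [terms_eq, List.map_map] at h
  have e : ⁅S.x s 1, S.x r 1⁆ = (S.x r 1 * S.x s 1)⁻¹ * (S.x s 1 * S.x r 1) := by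
    rw [commutatorElement_def, mul_inv_rev, x_inv hK, x_inv hK]; group
  rw [e, h, inv_mul_cancel_left]
  simp only [neg_one_eq hK, one_pow, mul_one]
  rfl

theorem A2.xcomm {a b k : Rt} (h : A2 a b k) : ⁅S.x b 1, S.x a 1⁆ = S.x k 1 := by
  obtain ⟨e, he, he'⟩ := h.2.2
  rw [F4U.xcomm hK h.ne.1 h.ne.2, he']
  simp only [List.map_cons, List.map_nil, List.prod_cons, List.prod_nil, mul_one, finR_self]
  rw [cast_odd hK (by rcases he with rfl | rfl <;> rfl)]

theorem A2.U_le {a b k : Rt} (h : A2 a b k) : S.U k ≤ ⁅S.U a, S.U b⁆ := S.U_le.2 fun t => by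
  rcases hK t with rfl | rfl
  · rw [S.x_zero]; exact one_mem _
  · rw [← h.xcomm hK, commutator_comm]
    exact commutator_mem_commutator (S.x_mem_U _ _) (S.x_mem_U _ _)

variable (hM : S.NM) {E : Type*} [Group E] {π : E →* G} (hs : Function.Surjective π)
  (hc : π.ker ≤ center E)
include hs hc

theorem lc {r s : Rt} (h : cm2 r s = true) : RGD.LC (StSys.rgd (chev_nc S) hM) π r s := by
  have := lcAll r.2 s.2
  simp only [lcAt, h, Bool.or_eq_true, decide_eq_true_eq, Bool.not_true, Bool.false_eq_true,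
    or_false] at this
  rcases this with (e | e) | e
  · rw [Fin.ext e]; exact StSys.lc_self_of_prime _ hM hs hc (hK' hK) r
  · exact StSys.lc_of_derC _ hM hs hc (der1_of hK e)
  · exact StSys.lc_of_derC _ hM hs hc (der2_of hK e)

theorem isLift {r : Rt} {a b : ℕ} (h : vcAt r a b = true) :
    RGD.IsLift (StSys.rgd (chev_nc S) hM) π (RGD.Vc (StSys.rgd (chev_nc S) hM) π r) r := by
  simp only [vcAt, Bool.and_eq_true, decide_eq_true_eq, allLt_iff] at h
  obtain ⟨⟨⟨⟨⟨ha, hb⟩, h1⟩, h2⟩, h3⟩, h4⟩ := h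
  set X := StSys.rgd (chev_nc S) hM
  have h5 := a2_of (a := ⟨a, ha⟩) (b := ⟨b, hb⟩) h1
  obtain ⟨g, hg⟩ := hs (S.x ⟨a, ha⟩ 1)
  obtain ⟨g', hg'⟩ := hs (S.x ⟨b, hb⟩ 1)
  obtain ⟨k1, k2⟩ := RGD.cm_le_zpowers (X := X) hc h5.dec (lc hK hM hs hc h2) (lc hK hM hs hc h3)
    (a := g) (b := g') (n := 2) (hg ▸ StSys.U_eq_zpowers (hK' hK) _ one_ne_zero)
    (hg' ▸ StSys.U_eq_zpowers (hK' hK) _ one_ne_zero)
    (by rw [hg, StSys.x_pow_nat]; simp [two_eq hK])
  refine RGD.isLift_of_zpowers Nat.prime_two (iSup₂_le fun q hq => le_trans ?_ k1) k2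
    ((h5.U_le hK).trans (le_trans ?_ (map_mono (le_iSup₂_of_le _ h5.dec le_rfl)))) (RGD.U_ne_bot _)
  · obtain ⟨x, y⟩ := q
    have h6 := h4 x x.2 y y.2
    have h7 : (allLt 4 fun j => decide (fastF4.al r j = fastF4.al x j + fastF4.al y j)) = true :=
      allLt_iff.2 fun j hj => decide_eq_true (congrFun (RS.add_of_mem_dec hq) ⟨j, hj⟩)
    simp only [h7, Bool.not_true, Bool.false_or, Bool.or_eq_true, Bool.and_eq_true,
      decide_eq_true_eq, List.any_eq_true, anyLt_iff, allLt_iff] at h6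
    rcases h6 with (((e | ⟨c, c1, c2⟩) | ⟨e1, e2⟩) | ⟨e1, e2⟩) | ⟨c, c0, ⟨c1, c2⟩, c3⟩
    · refine commutator_le.2 fun u hu v hv => ?_
      rw [commutatorElement_eq_one_iff_mul_comm.2 (lc hK hM hs hc e u v hu hv)]
      exact one_mem _
    · have c3 : finR x c.1 ∈ RR.itv x y :=
        CC.mem_itv (c := (finR x c.1, c.2)) (by rw [terms_eq]; exact List.mem_map_of_mem c1)
      rw [hq.2.2] at c3
      exact absurd ((finR_val x (mem_commTerms x.2 y.2 (TT_eq _ _ ▸ c1)).1).symm.trans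
        (congrArg Fin.val c3)) c2
    · obtain rfl : x = ⟨a, ha⟩ := Fin.ext e1
      obtain rfl : y = ⟨b, hb⟩ := Fin.ext e2
      exact le_rfl
    · obtain rfl : x = ⟨b, hb⟩ := Fin.ext e1
      obtain rfl : y = ⟨a, ha⟩ := Fin.ext e2
      exact (commutator_comm _ _).le
    · have := RGD.cm_eq_of_lc (X := X) hs h5.dec (c := ⟨c, c0⟩) (lc hK hM hs hc c1)
        (lc hK hM hs hc (by rw [neg_eq]; exact c2))
      have e1 : RR.rrefl ⟨c, c0⟩ • (⟨a, ha⟩ : Rt) = x := RR.inj (by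
        rw [RS.α_rrefl, cor_eq]; funext j; exact ((c3 j j.2).1).symm)
      have e2 : RR.rrefl ⟨c, c0⟩ • (⟨b, hb⟩ : Rt) = y := RR.inj (by
        rw [RS.α_rrefl, cor_eq]; funext j; exact ((c3 j j.2).2).symm)
      dsimp only at this
      rwa [e1, e2] at this
  · rw [map_commutator, map_comap_eq_self_of_surjective hs, map_comap_eq_self_of_surjective hs]
    exact le_rfl

/-- the canonical lifts -/
noncomputable def LL : RGD.Lift (StSys.rgd (chev_nc S) hM) π :=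
  RGD.Lift.mk' hs hc _ RGD.eqv_Vc RGD.Vc_le fun i =>
    isLift hK hM hs hc (by rw [simple_eq]; exact allLt_iff.1 vcChk i i.2)

theorem cm_apW (w : List ℕ) (hw : ∀ i ∈ w, i < 4) {r s : Rt} (h : (LL hK hM hs hc).CM r s) :
    ∃ r' s' : Rt, r'.1 = apW w r ∧ s'.1 = apW w s ∧ (LL hK hM hs hc).CM r' s' := by
  induction w with
  | nil => exact ⟨r, s, rfl, rfl, h⟩
  | cons i w ih =>
    obtain ⟨r', s', e1, e2, h'⟩ := ih fun j hj => hw j (List.mem_cons_of_mem _ hj)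
    have hi : i < chevF4.rank := hw i List.mem_cons_self
    have := h'.smul (RR.s ⟨i, hi⟩)
    rw [RS.s_smul, RS.s_smul] at this
    exact ⟨_, _, by rw [sref_eq, e1]; rfl, by rw [sref_eq, e2]; rfl, this⟩

theorem cm_all (h : (LL hK hM hs hc).CM (rt 0) (rt 29)) (r s : Rt) (h1 : s ≠ r)
    (h2 : s ≠ RR.neg r) : (LL hK hM hs hc).CM r s := by
  refine RGD.Lift.cm_of_ok (fun i s _ b => RGD.Lift.CM.ok ?_) h1 h2
  have := allLt_iff.1 (allLt_iff.1 cmChk i i.2) s s.2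
  rw [← simple_eq] at this
  simp only [cmAt, Bool.or_eq_true, Bool.and_eq_true, decide_eq_true_eq, List.any_eq_true,
    anyLt_iff, List.all_eq_true] at this
  rcases this with ((e | e) | ⟨k, hk, e⟩) | ⟨w, -, hw, e⟩
  · exact absurd (Fin.ext (e.trans (neg_eq _).symm)) b
  · exact RGD.Lift.cm_of_lc (lc hK hM hs hc e)
  · exact RGD.Lift.cm_of_dec _ (a2_of (k := ⟨k, hk⟩) e).dec le_rfl
  · obtain ⟨r', s', e1, e2, h'⟩ := cm_apW hK hM hs hc w hw h
    rcases e with ⟨e3, e4⟩ | ⟨e3, e4⟩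
    · rwa [Fin.ext (e1.trans e3), Fin.ext (e2.trans e4)] at h'
    · rw [Fin.ext (e1.trans e3), Fin.ext (e2.trans e4)] at h'
      exact h'.symm

end

/-- the distinguished element of the kernel -/
def dd {E : Type*} [Group E] (l : Rt → E) : E :=
  (⁅l (rt 14), l (rt 7)⁆ * ⁅l (rt 32), l (rt 1)⁆)⁻¹ * ⁅l (rt 29), l (rt 0)⁆

theorem map_dd {E E' : Type*} [Group E] [Group E'] (f : E →* E') (l : Rt → E) :
    f (dd l) = dd fun r => f (l r) := by
  simp only [dd, map_mul, map_inv, map_commutatorElement]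

theorem dd_mem {E : Type*} [Group E] (l : Rt → E) : dd l ∈ commutator E :=
  mul_mem (inv_mem (mul_mem (commutator_mem_commutator (mem_top _) (mem_top _))
    (commutator_mem_commutator (mem_top _) (mem_top _))))
    (commutator_mem_commutator (mem_top _) (mem_top _))

theorem small : A2 (rt 7) (rt 14) (rt 3) ∧ A2 (rt 1) (rt 32) (rt 6) ∧
    TT 0 29 = [(3, 1, 1, 1), (6, 1, 1, 2)] ∧ cm2 3 0 = true ∧ cm2 6 0 = true ∧ cm2 3 6 = true := by
  have := smallChk
  simp only [Bool.and_eq_true, decide_eq_true_eq] at this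
  exact ⟨a2_of this.1.1.1.1.1.1.1, a2_of this.1.1.1.1.1.1.2, this.1.1.1.1.1.2, this.1.1.2,
    this.1.2, this.2⟩

theorem ne029 : rt 29 ≠ rt 0 ∧ rt 29 ≠ RR.neg (rt 0) :=
  ⟨by decide, fun e => absurd ((congrArg Fin.val e).trans (neg_eq _)) (by decide)⟩

section
include hK
variable {G : Type*} [Group G] {S : StSys CC K G}

theorem dd_x : dd (fun r => S.x r 1) = 1 := by
  rw [dd, small.1.xcomm hK, small.2.1.xcomm hK, xcomm hK ne029.1 ne029.2, small.2.2.1]
  simp only [List.map_cons, List.map_nil, List.prod_cons, List.prod_nil, mul_one, Int.cast_one]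
  exact inv_mul_cancel _

variable (hM : S.NM) {E : Type*} [Group E] {π : E →* G} (hs : Function.Surjective π)
  (hc : π.ker ≤ center E) {l : Rt → E} (hl : ∀ r, π (l r) = S.x r 1)
include hl

theorem dd_ker : dd l ∈ π.ker := by
  rw [MonoidHom.mem_ker, map_dd, funext hl, dd_x hK]

include hs hc

theorem v_mem {a b k : Rt} (h : A2 a b k) : ⁅l b, l a⁆ ∈ (LL hK hM hs hc).V k := by
  refine (le_iSup₂_of_le (f := fun p (_ : p ∈ RR.Dec k) =>
    ⁅((StSys.rgd (chev_nc S) hM).U p.1).comap π, ((StSys.rgd (chev_nc S) hM).U p.2).comap π⁆)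
    _ (RGD.swap_mem_dec h.dec) le_rfl) (commutator_mem_commutator ?_ ?_)
  · rw [mem_comap, hl]; exact S.x_mem_U _ _
  · rw [mem_comap, hl]; exact S.x_mem_U _ _

include hM in
theorem dd_sq : dd l ^ 2 = 1 := by
  have hd := hc (dd_ker hK hl)
  have m1 := v_mem hK hM hs hc hl small.1
  have m2 := v_mem hK hM hs hc hl small.2.1
  have u1 := (LL hK hM hs hc).map_mem _ _ m1
  have u2 := (LL hK hM hs hc).map_mem _ _ m2
  have u0 : π (l (rt 0)) ∈ S.U (rt 0) := hl _ ▸ S.x_mem_U _ _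
  have sq' : ∀ {k : Rt} {v : E}, v ∈ (LL hK hM hs hc).V k → v * v = 1 := fun {k v} hv => by
    refine (LL hK hM hs hc).inj k _ (mul_mem hv hv) ?_
    obtain ⟨t, ht⟩ := S.mem_U.1 ((LL hK hM hs hc).map_mem _ _ hv)
    rw [map_mul, ← ht, ← S.add, ← two_mul, two_eq hK, zero_mul, S.x_zero]
  have c1 : Commute _ _ := lc hK hM hs hc (r := rt 3) (s := rt 0) small.2.2.2.1 _ _ u1 u0
  have c2 : Commute _ _ := lc hK hM hs hc (r := rt 6) (s := rt 0) small.2.2.2.2.1 _ _ u2 u0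
  have c3 : Commute _ _ := lc hK hM hs hc (r := rt 3) (s := rt 6) small.2.2.2.2.2 _ _ u1 u2
  have s1 := sq' m1
  have s2 := sq' m2
  have e : ⁅l (rt 29), l (rt 0)⁆ = ⁅l (rt 14), l (rt 7)⁆ * ⁅l (rt 32), l (rt 1)⁆ * dd l := by
    rw [dd, mul_inv_cancel_left]
  have hb : l (rt 0) * l (rt 0) ∈ center E := hc (by
    rw [MonoidHom.mem_ker, map_mul, hl, ← S.add, ← two_mul, two_eq hK, zero_mul, S.x_zero])
  generalize ⁅l (rt 14), l (rt 7)⁆ = v1 at *
  generalize ⁅l (rt 32), l (rt 1)⁆ = v2 at *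
  generalize dd l = d at *
  generalize l (rt 0) = b at *
  generalize l (rt 29) = a at *
  have c4 : Commute d b := central_comm hd b
  have c5 : Commute ⁅a, b⁆ b := e ▸ (c1.mul_left c2).mul_left c4
  have e2 : ⁅a, b⁆ * ⁅a, b⁆ = 1 := by
    calc ⁅a, b⁆ * ⁅a, b⁆ = ⁅a, b⁆ * (b * ⁅a, b⁆ * b⁻¹) := by rw [← c5.eq, mul_inv_cancel_right]
      _ = a * (b * b) * a⁻¹ * (b * b)⁻¹ := by simp only [commutatorElement_def]; group
      _ = 1 := by rw [conj_central hb, mul_inv_cancel]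
  have c6 : Commute (v1 * v2) d := (central_comm hd _).symm
  rwa [e, ← sq, c6.mul_pow, c3.mul_pow, sq v1, sq v2, s1, s2, one_mul, one_mul] at e2

include hM in
theorem exists_lift (h : dd l = 1) : ∃ S' : StSys CC K E, S'.Hom S π := by
  refine (StSys.exists_lift_of_cm _ hM (LL hK hM hs hc) (cm_all hK hM hs hc ?_)).imp fun _ h => h.1
  refine RGD.Lift.CM.symm fun a ha b hb => ?_
  obtain ⟨t, ht⟩ := S.mem_U.1 ((LL hK hM hs hc).map_mem _ _ ha)
  obtain ⟨u, hu⟩ := S.mem_U.1 ((LL hK hM hs hc).map_mem _ _ hb)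
  rcases hK t with rfl | rfl
  · rw [(LL hK hM hs hc).inj _ a ha (by rw [← ht, S.x_zero])]; simp
  rcases hK u with rfl | rfl
  · rw [(LL hK hM hs hc).inj _ b hb (by rw [← hu, S.x_zero])]; simp
  rw [cm_eq_of_map_eq hc (ht.symm.trans (hl _).symm) (hu.symm.trans (hl _).symm),
    ← commutatorElement_def, ← inv_mul_eq_one.1 h, RR.itv_comm]
  have ht := terms_eq (rt 0) (rt 29)
  rw [small.2.2.1] at ht
  exact mul_mem ((LL hK hM hs hc).V_le_VS (CC.mem_itv (c := (rt 3, 1, 1, 1)) (by rw [ht]; simp [finR]; decide))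
      (v_mem hK hM hs hc hl small.1))
    ((LL hK hM hs hc).V_le_VS (CC.mem_itv (c := (rt 6, 1, 1, 2)) (by rw [ht]; simp [finR]; decide))
      (v_mem hK hM hs hc hl small.2.1))

end

end Cfsg.Agent.H17.F4U
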