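import Mathlib
import Cfsg.Agent.H17.Simp2

/-! Linear groups in characteristic `p`: tools for the simplicity of their `p`-fusion systems. -/

set_option autoImplicit false

open Cfsg Module Submodule
open Cfsg.FusionSystem hiding inv_mem
open scoped commutatorElement

namespace Cfsg.Agent.H17

variable {G : Type*} [Group G] {F : Type*} [Field F] {V : Type*} [AddCommGroup V] [Module F V]
  {ρ : G →* End F V} {S P Q : Subgroup G} {p : ℕ} {g t : G} {X : Set G} {W W' U U' : Submodule F V} {e v x : V}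

theorem rho_mul (ρ : G →* End F V) (g h : G) (x : V) : ρ (g * h) x = ρ g (ρ h x) := by rw [map_mul]; rfl

theorem rho_inv (ρ : G →* End F V) (g : G) (x : V) : ρ g⁻¹ (ρ g x) = x := by rw [← rho_mul]; simp

theorem rho_inv' (ρ : G →* End F V) (g : G) (x : V) : ρ g (ρ g⁻¹ x) = x := by rw [← rho_mul]; simp

theorem rho_ne (h : x ≠ 0) : ρ g x ≠ 0 := fun h0 => h (by rw [← rho_inv ρ g x, h0, map_zero])

/-- The stabiliser of a subspace. -/
def Stb (ρ : G →* End F V) (W : Submodule F V) : Subgroup G where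
  carrier := {g | ∀ x, x ∈ W ↔ ρ g x ∈ W}
  mul_mem' {a b} ha hb x := by rw [rho_mul, ← ha, ← hb]
  one_mem' x := by simp
  inv_mem' {a} ha x := by rw [ha (ρ a⁻¹ x), rho_inv']

/-- The stabiliser of a vector. -/
def Fx (ρ : G →* End F V) (v : V) : Subgroup G where
  carrier := {g | ρ g v = v}
  mul_mem' {a b} ha hb := show _ = _ by rw [rho_mul, hb, ha]
  one_mem' := by simp
  inv_mem' {a} ha := show _ = _ by conv_lhs => rw [← ha, rho_inv]

/-- The pointwise stabiliser of a subspace. -/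
def Pw (ρ : G →* End F V) (U : Submodule F V) : Subgroup G where
  carrier := {g | ∀ u ∈ U, ρ g u = u}
  mul_mem' {a b} ha hb u hu := by rw [rho_mul, hb u hu, ha u hu]
  one_mem' := by simp
  inv_mem' {a} ha u hu := by conv_lhs => rw [← ha u hu, rho_inv]

/-- The elements that act trivially on `W`, `W' / W` and `V / W'`. -/
def Rad (ρ : G →* End F V) (W W' : Submodule F V) : Subgroup G where
  carrier := {g | (∀ x ∈ W, ρ g x = x) ∧ (∀ x ∈ W', ρ g x - x ∈ W) ∧ ∀ x, ρ g x - x ∈ W'}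
  mul_mem' {a b} ha hb := ⟨fun x hx => by rw [rho_mul, hb.1 x hx, ha.1 x hx], fun x hx => by
    rw [rho_mul, ← sub_add_sub_cancel _ (ρ b x)]
    exact W.add_mem (ha.2.1 _ (by simpa using W'.add_mem (hb.2.2 x) hx)) (hb.2.1 x hx),
    fun x => by simpa [rho_mul] using W'.add_mem (ha.2.2 (ρ b x)) (hb.2.2 x)⟩
  one_mem' := by simp
  inv_mem' {a} ha := ⟨fun x hx => by conv_lhs => rw [← ha.1 x hx, rho_inv], fun x hx => by
    simpa [rho_inv'] using W.neg_mem (ha.2.1 (ρ a⁻¹ x) (by simpa [rho_inv'] using W'.sub_mem hx (ha.2.2 (ρ a⁻¹ x)))),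
    fun x => by simpa [rho_inv'] using W'.neg_mem (ha.2.2 (ρ a⁻¹ x))⟩

theorem mem_Stb_of [Finite G] (h : ∀ x ∈ W, ρ g x ∈ W) : g ∈ Stb ρ W := fun x => ⟨h x, fun hx => by
  have : ∀ n, ∀ x ∈ W, ρ (g ^ n) x ∈ W := fun n => by
    induction n with
    | zero => simp
    | succ n ih => exact fun x hx => by rw [pow_succ, rho_mul]; exact ih _ (h x hx)
  have := this (orderOf g - 1) _ hx
  rwa [← rho_mul, ← pow_succ, Nat.sub_add_cancel (orderOf_pos g), pow_orderOf_eq_one, map_one] at this⟩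

theorem Stb_le_normalizer_Rad : Stb ρ W ⊓ Stb ρ W' ≤ Subgroup.normalizer (Rad ρ W W' : Set G) :=
  le_normalizer_of_conj_mem fun g hg y hy => by
    have key : ∀ x, ρ (g * y * g⁻¹) x - x = ρ g (ρ y (ρ g⁻¹ x) - ρ g⁻¹ x) := fun x => by
      rw [map_sub, rho_inv', rho_mul, rho_mul]
    obtain ⟨h1, h2⟩ := Subgroup.mem_inf.1 hg
    refine ⟨fun x hx => ?_, fun x hx => ?_, fun x => ?_⟩
    · rw [rho_mul, rho_mul, hy.1 _ ((inv_mem h1 x).1 hx), rho_inv']
    · exact key x ▸ (h1 _).1 (hy.2.1 _ ((inv_mem h2 x).1 hx))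
    · exact key x ▸ (h2 _).1 (hy.2.2 _)

theorem mem_Stb_span (h : ∃ a : F, ρ g v = a • v) (h' : ∃ a : F, ρ g⁻¹ v = a • v) : g ∈ Stb ρ (span F {v}) := by
  have : ∀ g : G, (∃ a : F, ρ g v = a • v) → ∀ x ∈ span F {v}, ρ g x ∈ span F {v} := fun g ⟨a, h⟩ x hx => by
    obtain ⟨b, rfl⟩ := mem_span_singleton.1 hx
    exact mem_span_singleton.2 ⟨b * a, by rw [map_smul, h, mul_smul]⟩
  exact fun x => ⟨this g h x, fun hx => by simpa [rho_inv] using this _ h' _ hx⟩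

theorem Fx_le_Stb : Fx ρ v ≤ Stb ρ (span F {v}) := fun _ hg =>
  mem_Stb_span ⟨1, by rw [hg, one_smul]⟩ ⟨1, by rw [inv_mem hg, one_smul]⟩

theorem mem_normalizer_Fx {a : F} (h : ρ g v = a • v) (ha : a ≠ 0) :
    g ∈ Subgroup.normalizer (Fx ρ v : Set G) := Subgroup.mem_normalizer_iff.2 fun y => by
  have h' : ρ g⁻¹ v = a⁻¹ • v := by rw [eq_inv_smul_iff₀ ha, ← map_smul, ← h, rho_inv]
  show ρ y v = v ↔ ρ (g * y * g⁻¹) v = v
  rw [rho_mul, rho_mul, h', map_smul, map_smul, inv_smul_eq_iff₀ ha, ← h]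
  exact ⟨fun e => by rw [e], fun e => by simpa [rho_inv] using congrArg (ρ g⁻¹) e⟩

variable [Fact p.Prime] [CharP F p]

theorem isPGroup_Rad (hρ : Function.Injective ρ) : IsPGroup p (Rad ρ W W') := isPGroup_of_pEl fun g hg => by
  refine ⟨2, hρ ?_⟩
  rcases subsingleton_or_nontrivial V with h | h
  · exact Subsingleton.elim _ _
  haveI : CharP (End F V) p := charP_of_injective_algebraMap (FaithfulSMul.algebraMap_injective F _) p
  have h3 : (ρ g - 1) ^ 3 = 0 := LinearMap.ext fun x => by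
    simpa [pow_succ', sub_eq_zero] using hg.1 _ (hg.2.1 _ (hg.2.2 x))
  have := pow_eq_zero_of_le (n := p ^ 2) (le_trans (by norm_num) (Nat.pow_le_pow_left (Fact.out : p.Prime).two_le 2)) h3
  rwa [sub_pow_char_pow_of_commute _ _ (Commute.one_right _), one_pow, sub_eq_zero, ← map_pow, ← map_one ρ] at this

theorem PEl.eq_one_of_smul (h : PEl p g) {a : F} (ha : ρ g v = a • v) (hv : v ≠ 0) : a = 1 := by
  obtain ⟨k, hk⟩ := h
  have : ∀ n, ρ (g ^ n) v = a ^ n • v := fun n => by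
    induction n with
    | zero => simp
    | succ n ih => rw [pow_succ, rho_mul, ha, map_smul, ih, pow_succ', mul_smul]
  have := this (p ^ k)
  rw [hk, map_one, End.one_apply] at this
  have h1 : (a - 1) ^ p ^ k = 0 := by
    rw [sub_pow_char_pow, one_pow, ← smul_eq_zero_iff_left hv, sub_smul, ← this, one_smul, sub_self]
  exact sub_eq_zero.1 (pow_eq_zero_iff (pow_ne_zero _ (Fact.out : p.Prime).ne_zero) |>.1 h1)

theorem exists_fix_vec [Finite V] (hP : IsPGroup p P) (h : P ≤ Stb ρ U) (h0 : U ≠ ⊥) :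
    ∃ x ∈ U, x ≠ 0 ∧ ∀ g ∈ P, ρ g x = x := by
  letI : MulAction P U :=
    { smul := fun g x => ⟨ρ g x, (h g.2 _).1 x.2⟩
      one_smul := fun x => Subtype.ext (by show ρ 1 x = x; simp)
      mul_smul := fun a b x => Subtype.ext (rho_mul ρ a b x) }
  obtain ⟨y, hy, hy0⟩ := (Submodule.ne_bot_iff U).1 h0
  obtain ⟨x, h1, h2⟩ := hP.exists_fixed_point_of_prime_dvd_card_of_fixed_point U (a := 0) (by
    rw [← addOrderOf_eq_prime (x := (⟨y, hy⟩ : U)) (p := p) (by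
      rw [← Nat.cast_smul_eq_nsmul F, CharP.cast_eq_zero, zero_smul]) (fun h => hy0 (congrArg Subtype.val h))]
    exact addOrderOf_dvd_natCard _) fun g => Subtype.ext (map_zero (ρ g))
  exact ⟨x, x.2, fun h => h2 (Subtype.ext h.symm), fun g hg => congrArg Subtype.val (h1 ⟨g, hg⟩)⟩

theorem exists_fix_mod [Finite V] (hP : IsPGroup p P) (h : P ≤ Stb ρ U) (h' : P ≤ Stb ρ U') (h0 : ¬ U' ≤ U) :
    ∃ x ∈ U', x ∉ U ∧ ∀ g ∈ P, ρ g x - x ∈ U := by
  haveI : Finite (V ⧸ U) := Finite.of_surjective _ U.mkQ_surjective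
  obtain ⟨_, ⟨x, hx, rfl⟩, h1, h2⟩ := exists_fix_vec (p := p) (P := ⊤) (U := U'.map U.mkQ)
    (ρ := Representation.quotient (ρ.comp P.subtype) U fun g x hx => (h g.2 x).1 hx)
    (hP.of_equiv Subgroup.topEquiv.symm) (fun g _ y => ⟨by
      rintro ⟨x, hx, rfl⟩
      exact ⟨_, (h' g.2 x).1 hx, rfl⟩, fun ⟨x, hx, e⟩ => ⟨ρ g⁻¹ x, (h' (inv_mem g.2) x).1 hx, by
      rw [← rho_inv (Representation.quotient (ρ.comp P.subtype) U fun g x hx => (h g.2 x).1 hx) g y, ← e]; rfl⟩⟩) (fun h => h0 (by rwa [← LinearMap.le_ker_iff_map, ker_mkQ] at h))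
  exact ⟨x, hx, fun h => h1 ((Quotient.mk_eq_zero U).2 h), fun g hg => (Submodule.Quotient.eq U).1 (h2 ⟨g, hg⟩ trivial)⟩

omit [CharP F p] in
/-- Induction on the fixed space. -/
theorem PCl.all_of_step [FiniteDimensional F V] [Finite G] (hX : PCl p X)
    (h : ∀ g, PEl p g → g ≠ 1 → ∃ t ∈ X, ∃ P : Subgroup G, IsPGroup p P ∧ t ∈ P ∧ g ∈ P ∧
      (∀ x, ρ g x = x → ρ t x = x) ∧ ∃ f, ρ g f ≠ f ∧ ρ t f = ρ g f) (hg : PEl p g) : g ∈ X := by
  generalize hU : LinearMap.eqLocus (ρ g) LinearMap.id = U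
  induction U using WellFoundedGT.induction generalizing g with | ind U ih => ?_
  by_cases h1 : g = 1
  · exact h1 ▸ hX.one
  obtain ⟨t, k1, P, k2, k3, k4, k5, f, k6, k7⟩ := h g hg h1
  have k8 := mul_mem (inv_mem k3) k4
  simpa using hX.mul P k2 t k3 _ k8 k1 (ih _ (hU ▸ lt_of_le_of_ne (fun x hx => show ρ _ x = x by
    rw [rho_mul, show ρ g x = x from hx, inv_mem (show t ∈ Fx ρ x from k5 x hx)]) fun e => k6
      (e.ge (show ρ _ f = f by rw [rho_mul, ← k7, rho_inv]))) (pEl_of_mem k2 k8) rfl)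

omit [CharP F p] in
theorem le_sylow_of_normalizer [Finite G] (hS : H18.SylIn p S ⊤) (hQ : IsPGroup p Q)
    (hN : S ≤ Subgroup.normalizer (Q : Set G)) : Q ≤ S :=
  (hS.mono hN le_top).le_of_normal Subgroup.le_normalizer hQ fun _ hg _ hx => conj_mem_of_mem_normalizer hg hx

/-- The normaliser of a Sylow subgroup lies in every normal subsystem. -/
theorem NFam.le_of_lin [Finite G] {A : Subgroup G → Subgroup G} (hA : NFam p A) (hS : H18.SylIn p S ⊤)
    (hρ : Function.Injective ρ) (he : e ≠ 0) (h1 : S ≤ Fx ρ e) (h1' : Fx ρ e ≤ Stb ρ U)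
    (hc1 : PCent p (Rad ρ (span F {e}) U)) (hf : ∀ x, (∀ g ∈ Rad ρ (span F {e}) U, ρ g x = x) → x ∈ span F {e})
    (hg : Fx ρ e ≤ Subgroup.closure {x | x ∈ Fx ρ e ∧ PEl p x}) (h2 : S ≤ Stb ρ W ⊓ Stb ρ W')
    (hc2 : PCent p (Rad ρ W W'))
    (hm : ∀ a : F, a ≠ 0 → ∃ m ∈ Subgroup.closure {x | x ∈ Stb ρ W ⊓ Stb ρ W' ∧ PEl p x}, ρ m e = a • e) :
    Subgroup.normalizer (S : Set G) ≤ A S := fun g hN => by
  have k1 := (le_inf Fx_le_Stb h1').trans Stb_le_normalizer_Rad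
  have k2 := le_sylow_of_normalizer hS (isPGroup_Rad hρ) (h1.trans k1)
  have k3 := h2.trans Stb_le_normalizer_Rad
  obtain ⟨a, ha⟩ := mem_span_singleton.1 (hf (ρ g e) fun s hs => by
    rw [← rho_inv' ρ g (ρ s _), ← rho_mul, ← rho_mul, ← rho_mul, mul_assoc, mul_assoc, ← mul_assoc g⁻¹, rho_mul,
      h1 (conj_mem_of_mem_normalizer' hN (k2 hs))])
  have a0 : a ≠ 0 := fun h => rho_ne he (by rw [← ha, h, zero_smul])
  obtain ⟨m, k4, k5⟩ := hm a a0
  obtain ⟨k, k6, k7⟩ := hA.exists_frat hS (le_sylow_of_normalizer hS (isPGroup_Rad hρ) k3) hc2 k3 h1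
    ((Subgroup.closure_le _).2 (fun x hx => hA.pel _ x (Stb_le_normalizer_Rad hx.1) hx.2) k4) (mem_normalizer_Fx k5 a0)
  simpa only [mul_inv_cancel_left] using mul_mem k7 (hA.le_of_gen hS.isP k2 hc1 k1 hg (g := (k * m)⁻¹ * g) (show _ = _ by
    rw [rho_mul, ← ha, ← k6, ← map_smul, ← k5, ← rho_mul ρ k, rho_inv, k6]) (mul_mem (inv_mem (hA.le _ k7)) hN))

end Cfsg.Agent.H17
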