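import Mathlib
import Cfsg.Agent.H17.LinP
import Cfsg.Agent.H10.Transv

/-! The fusion system of `PSLₙ(q)` in the defining characteristic. -/

set_option autoImplicit false

open Cfsg Module Submodule
open Cfsg.FusionSystem hiding inv_mem
open scoped commutatorElement

namespace Cfsg.Agent.H17

variable {G : Type*} [Group G] {F : Type*} [Field F] {V : Type*} [AddCommGroup V] [Module F V]
  {ρ : G →* End F V} {S P Q : Subgroup G} {p : ℕ} {g t : G} {X : Set G} {W W' U U' : Submodule F V} {e v w x : V}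
  {φ : Dual F V}

theorem exists_dual_one (h : x ∉ U) : ∃ φ : Dual F V, φ x = 1 ∧ ∀ u ∈ U, φ u = 0 := by
  obtain ⟨f, h1, h2⟩ := Submodule.exists_le_ker_of_notMem h
  exact ⟨(f x)⁻¹ • f, by simp [h1], fun u hu => by simp [show f u = 0 from h2 hu]⟩

theorem mem_sup_span (U : Submodule F V) : x ∈ U ⊔ span F {v} ↔ ∃ a : F, x - a • v ∈ U := by
  simp only [Submodule.mem_sup, mem_span_singleton]
  exact ⟨by rintro ⟨u, hu, _, ⟨a, rfl⟩, rfl⟩; exact ⟨a, by simpa⟩, fun ⟨a, h⟩ => ⟨_, h, _, ⟨a, rfl⟩, by simp⟩⟩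

/-- `g` is the transvection `x ↦ x + φ x • v`. -/
def IsT (ρ : G →* End F V) (g : G) (v : V) (φ : Dual F V) : Prop := φ v = 0 ∧ ∀ x, ρ g x = x + φ x • v

/-- `ρ` is an isomorphism onto the special linear group. -/
structure IsSL (ρ : G →* End F V) : Prop where
  inj : Function.Injective ρ
  det : ∀ g, LinearMap.det (ρ g) = 1
  tv : ∀ (v : V) (φ : Dual F V), φ v = 0 → ∃ g, IsT ρ g v φ
  conj : ∀ g v φ g' v' φ', IsT ρ g v φ → IsT ρ g' v' φ' → g ≠ 1 → g' ≠ 1 → IsConj g g'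

theorem IsT.mem_Rad (h : IsT ρ g v φ) (hv : v ∈ W) (hW : ∀ u ∈ W, φ u = 0) : g ∈ Rad ρ W W :=
  ⟨fun x hx => by simp [h.2, hW x hx], fun x _ => by simpa [h.2] using W.smul_mem _ hv,
    fun x => by simpa [h.2] using W.smul_mem _ hv⟩

theorem IsT.mem_Rad' (h : IsT ρ g v φ) : g ∈ Rad ρ (span F {v}) (span F {v}) :=
  h.mem_Rad (mem_span_singleton_self v) fun u hu => by
    obtain ⟨a, rfl⟩ := mem_span_singleton.1 hu
    simp [h.1]

theorem exists_isT_of_mem (h : g ∈ Rad ρ (span F {v}) (span F {v})) (hv : v ≠ 0) : ∃ φ, IsT ρ g v φ := by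
  obtain ⟨ψ, h1, -⟩ := exists_dual_one (U := (⊥ : Submodule F V)) hv
  refine ⟨ψ.comp (ρ g - 1), by simp [h.1 v (mem_span_singleton_self v)], fun x => ?_⟩
  obtain ⟨a, ha⟩ := mem_span_singleton.1 (h.2.2 x)
  have : ψ.comp (ρ g - 1) x = a := by
    rw [LinearMap.comp_apply, LinearMap.sub_apply, End.one_apply, ← ha, map_smul, h1, smul_eq_mul, mul_one]
  rw [this, ha]; simp

theorem IsSL.move (h : IsSL ρ) (h1 : w ∉ U ⊔ span F {x - w}) :
    ∃ t φ, IsT ρ t (x - w) φ ∧ (∀ u ∈ U, φ u = 0) ∧ ρ t w = x := by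
  obtain ⟨φ, k1, k2⟩ := exists_dual_one h1
  obtain ⟨t, ht⟩ := h.tv _ φ (k2 _ (mem_sup_right (mem_span_singleton_self _)))
  exact ⟨t, φ, ht, fun u hu => k2 u (mem_sup_left hu), by simp [ht.2, k1]⟩

theorem IsSL.move' (h : IsSL ρ) (h1 : w ∉ U) (h2 : x ∉ U ⊔ span F {w}) :
    ∃ t φ, IsT ρ t (x - w) φ ∧ (∀ u ∈ U, φ u = 0) ∧ ρ t w = x := by
  refine h.move fun h3 => ?_
  obtain ⟨a, ha⟩ := (mem_sup_span U).1 h3
  by_cases h0 : a = 0
  · exact h1 (by simpa [h0] using ha)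
  · refine h2 ((mem_sup_span U).2 ⟨1 + a⁻¹, ?_⟩)
    convert U.smul_mem (-a⁻¹) ha using 1
    match_scalars <;> (field_simp; try ring)

theorem IsT.mem_Pw (h : IsT ρ g v φ) (hU : ∀ u ∈ U, φ u = 0) : g ∈ Pw ρ U := fun u hu => by simp [h.2, hU u hu]

theorem IsSL.gen [FiniteDimensional F V] (h : IsSL ρ) {K : Subgroup G}
    (hK : ∀ t v φ, IsT ρ t v φ → (∀ u ∈ U, φ u = 0) → t ∈ K) (hg : g ∈ Pw ρ U) : g ∈ K := by
  induction U using WellFoundedGT.induction generalizing g with | ind U ih => ?_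
  rcases eq_top_or_lt_top U with rfl | hU
  · exact (h.inj (LinearMap.ext fun x => by simp [hg x trivial]) : g = 1) ▸ K.one_mem
  obtain ⟨w, -, hw⟩ := SetLike.exists_of_lt hU
  have hw' : ρ g w ∉ U := fun k => hw (by rwa [← rho_inv ρ g w, inv_mem hg _ k])
  have mv : ∀ a b, a ∉ U → b ∉ U ⊔ span F {a} → ∃ t ∈ K ⊓ Pw ρ U, ρ t a = b := fun a b k1 k2 => by
    obtain ⟨t, φ, k3, k4, k5⟩ := h.move' k1 k2
    exact ⟨t, ⟨hK _ _ _ k3 k4, k3.mem_Pw k4⟩, k5⟩
  obtain ⟨t, k1, k2⟩ : ∃ t ∈ K ⊓ Pw ρ U, ρ t w = ρ g w := by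
    by_cases k : ρ g w ∈ U ⊔ span F {w}
    swap
    · exact mv _ _ hw k
    rcases eq_top_or_lt_top (U ⊔ span F {w}) with k3 | k3
    · obtain ⟨φ, k4, k5⟩ := exists_dual_one hw
      have k6 : ∀ x, ρ g x = x + φ x • (ρ g w - w) := fun x => by
        obtain ⟨a, ha⟩ := (mem_sup_span U).1 (k3.ge (mem_top (x := x)))
        have e1 := hg _ ha
        have e2 := k5 _ ha
        rw [map_sub, map_smul, k4, smul_eq_mul, mul_one, sub_eq_zero] at e2
        rw [map_sub, map_smul, sub_eq_iff_eq_add] at e1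
        rw [e1, e2]; module
      have k7 := h.det g
      rw [show ρ g = LinearMap.transvection φ (ρ g w - w) from LinearMap.ext k6, LinearMap.transvection.det] at k7
      exact ⟨g, ⟨hK _ _ φ ⟨by simpa using k7, k6⟩ k5, hg⟩, rfl⟩
    · obtain ⟨y, -, hy⟩ := SetLike.exists_of_lt k3
      obtain ⟨a, k4, k5⟩ := mv _ _ hw hy
      obtain ⟨b, k6, k7⟩ := mv _ y hw' fun k' => hy ((sup_le le_sup_left ((span_singleton_le_iff_mem _ _).2 k) :
        U ⊔ span F {ρ g w} ≤ U ⊔ span F {w}) k')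
      exact ⟨b⁻¹ * a, mul_mem (inv_mem k6) k4, by rw [rho_mul, k5, ← k7, rho_inv]⟩
  have := ih (U ⊔ span F {w}) (lt_of_le_of_ne le_sup_left fun e => hw (e ▸ mem_sup_right (mem_span_singleton_self w)))
    (g := t⁻¹ * g) (fun t v φ k1 k2 => hK t v φ k1 fun u hu => k2 u (mem_sup_left hu)) fun u hu => by
      obtain ⟨a, ha⟩ := (mem_sup_span U).1 hu
      have := mul_mem (inv_mem (Subgroup.mem_inf.1 k1).2) hg _ ha
      rwa [map_sub, map_smul, rho_mul ρ _ _ w, ← k2, rho_inv, sub_left_inj] at this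
  simpa using mul_mem k1.1 this

variable [Fact p.Prime] [CharP F p]

theorem IsT.pEl (h : IsT ρ g v φ) (hρ : Function.Injective ρ) : PEl p g := pEl_of_mem (isPGroup_Rad hρ) h.mem_Rad'

theorem IsSL.pCent (h : IsSL ρ) (h0 : W ≠ ⊥) (h1 : W ≠ ⊤) : PCent p (Rad ρ W W) := fun g hg hc => by
  have key : ∀ v ∈ W, ∀ φ : Dual F V, (∀ u ∈ W, φ u = 0) → ∀ y, φ y • ρ g v = φ (ρ g y) • v := fun v hv φ hφ y => by
    obtain ⟨t, ht⟩ := h.tv v φ (hφ v hv)
    have := congrArg (ρ · y) (hc t (ht.mem_Rad hv hφ))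
    simpa [rho_mul, ht.2] using this.symm
  obtain ⟨y, -, hy⟩ := SetLike.exists_of_lt h1.lt_top
  obtain ⟨φ, k1, k2⟩ := exists_dual_one hy
  have k3 : ∀ v ∈ W, ρ g v = v := fun v hv => by
    by_cases h : v = 0
    · simp [h]
    have := key v hv φ k2 y
    rw [k1, one_smul] at this
    rw [this, hg.eq_one_of_smul this h, one_smul]
  have k4 : ∀ x, ρ g x - x ∈ W := fun x => by
    by_contra k
    obtain ⟨ψ, k5, k6⟩ := exists_dual_one k
    obtain ⟨v, hv, hv0⟩ := (Submodule.ne_bot_iff W).1 h0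
    have := key v hv ψ k6 x
    rw [k3 v hv, (smul_left_injective F hv0).eq_iff] at this
    simp [this] at k5
  exact ⟨k3, fun x _ => k4 x, k4⟩

theorem IsSL.simple [Finite G] [Finite V] [FiniteDimensional F V] (h : IsSL ρ) (h3 : 3 ≤ finrank F V)
    (hS : H18.SylIn p S ⊤) : (groupFusionSystem S).IsSimple p := by
  have top : ∀ P : Subgroup G, P ≤ Stb ρ ⊤ := fun _ _ _ _ => by simp
  have nt : ∀ a b : V, span F {a} ⊔ span F {b} ≠ ⊤ := fun a b k => by
    have := (finrank_add_le_finrank_add_finrank (span F {a}) (span F {b})).trans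
      (add_le_add (finrank_span_le_card ({a} : Set V)) (finrank_span_le_card ({b} : Set V)))
    rw [k, finrank_top] at this
    simp at this
    omega
  have nt' : ∀ a : V, span F {a} ≠ ⊤ := fun a k => nt a a (by simp [k])
  obtain ⟨e, -, he, k1⟩ := exists_fix_vec hS.isP (top S) fun k => nt' 0 (by simp [k])
  have k0 : span F {e} ≠ ⊥ := by simpa
  have k2 := le_sylow_of_normalizer hS (isPGroup_Rad (W := span F {e}) (W' := span F {e}) h.inj)
    ((le_inf (le_trans k1 Fx_le_Stb) (le_trans k1 Fx_le_Stb)).trans Stb_le_normalizer_Rad)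
  have hf : ∀ x, (∀ g ∈ Rad ρ (span F {e}) (span F {e}), ρ g x = x) → x ∈ span F {e} := fun x hx => by
    by_contra k
    obtain ⟨φ, k3, k4⟩ := exists_dual_one k
    obtain ⟨t, ht⟩ := h.tv e φ (k4 e (mem_span_singleton_self e))
    simpa [ht.2, k3, he] using hx t ht.mem_Rad'
  refine simple_of_crit hS (fun k => nt' e (eq_top_iff.2 fun x _ => hf x fun g hg => by
    rw [Subgroup.mem_bot.1 (k.le (k2 hg)), map_one, End.one_apply])) (fun X hX z z1 z2 z3 z4 z5 x hx => ?_) fun A hA => ?_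
  · obtain ⟨φ, hz⟩ := exists_isT_of_mem (h.pCent k0 (nt' e) z (pEl_of_pow z3) (Subgroup.centralizer_le k2 z5)) he
    refine hX.all_of_step (ρ := ρ) (fun g hg g1 => ?_) (pEl_of_mem hS.isP hx)
    obtain ⟨w, -, w1, w2⟩ := exists_fix_mod (U := LinearMap.eqLocus (ρ g) LinearMap.id) hg.zpowers
      (Subgroup.zpowers_le.2 (mem_Stb_of fun x hx => congrArg (ρ g) hx)) (top _)
      fun k => g1 (h.inj (LinearMap.ext fun x => by simpa using k (mem_top (x := x))))
    have w3 := w2 g (Subgroup.mem_zpowers g)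
    obtain ⟨ψ, k3, k4⟩ := exists_dual_one w1
    obtain ⟨t, ht⟩ := h.tv _ ψ (k4 _ w3)
    have k5 : ρ t w = ρ g w := by simp [ht.2, k3]
    exact ⟨t, hX.of_isConj z1 (h.conj _ _ _ _ _ _ hz ht z2 fun e => w1 (by simpa [e] using k5.symm)), _,
      isPGroup_sup_zpowers (isPGroup_Rad h.inj) hg (Stb_le_normalizer_Rad ⟨Fx_le_Stb w3, Fx_le_Stb w3⟩),
      Subgroup.mem_sup_left ht.mem_Rad', Subgroup.mem_sup_right (Subgroup.mem_zpowers g),
      fun x hx => ht.mem_Pw k4 x hx, w, w1, k5⟩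
  · obtain ⟨f, -, f1, f2⟩ := exists_fix_mod hS.isP (le_trans k1 Fx_le_Stb) (top S) fun k => nt' e (top_le_iff.1 k)
    have st : ∀ g, ρ g e ∈ span F {e} ⊔ span F {f} → ρ g f ∈ span F {e} ⊔ span F {f} →
        g ∈ Stb ρ (span F {e} ⊔ span F {f}) := fun g k3 k4 => mem_Stb_of fun x hx =>
      (sup_le ((span_singleton_le_iff_mem _ _).2 k3) ((span_singleton_le_iff_mem _ _).2 k4) :
        _ ≤ (span F {e} ⊔ span F {f}).comap (ρ g)) hx
    have me : e ∈ span F {e} ⊔ span F {f} := mem_sup_left (mem_span_singleton_self e)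
    have mf : f ∈ span F {e} ⊔ span F {f} := mem_sup_right (mem_span_singleton_self f)
    have hs : S ≤ Stb ρ (span F {e} ⊔ span F {f}) := fun s hs => st s (by rwa [k1 s hs])
      (by simpa using add_mem (mem_sup_left (f2 s hs)) mf)
    refine hA.le_of_lin hS h.inj he k1 Fx_le_Stb (h.pCent k0 (nt' e)) hf (fun g hg => h.gen (U := span F {e})
      (fun t v φ k3 k4 => Subgroup.subset_closure ⟨k3.mem_Pw k4 e (mem_span_singleton_self e), k3.pEl h.inj⟩)
      fun u hu => ?_) (le_inf hs hs) (h.pCent (fun k => k0 (le_bot_iff.1 (k ▸ le_sup_left))) (nt e f)) fun a ha => ?_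
    · obtain ⟨a, rfl⟩ := mem_span_singleton.1 hu
      rw [map_smul, hg]
    · have mv : ∀ b : F, b ≠ 0 → ∃ t ∈ Subgroup.closure {x | x ∈ Stb ρ (span F {e} ⊔ span F {f}) ⊓
          Stb ρ (span F {e} ⊔ span F {f}) ∧ PEl p x}, ρ t (b • e) = f := fun b hb => by
        obtain ⟨t, φ, k3, -, k5⟩ := h.move' (U := ⊥) (w := b • e) (x := f) (by simp [hb, he])
          (by rwa [bot_sup_eq, span_singleton_smul_eq hb.isUnit])
        have k6 := sub_mem mf (smul_mem _ b me)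
        have := st t (k3.2 e ▸ add_mem me (smul_mem _ _ k6)) (k3.2 f ▸ add_mem mf (smul_mem _ _ k6))
        exact ⟨t, Subgroup.subset_closure ⟨⟨this, this⟩, k3.pEl h.inj⟩, k5⟩
      obtain ⟨s, k3, k4⟩ := mv 1 one_ne_zero
      obtain ⟨t, k5, k6⟩ := mv a ha
      exact ⟨t⁻¹ * s, mul_mem (inv_mem k5) k3, by rw [rho_mul, ← one_smul F e, k4, ← k6, rho_inv, one_smul]⟩

open Matrix in
theorem isSL_matrix {ι : Type*} [Fintype ι] [DecidableEq ι] (h3 : 3 ≤ Fintype.card ι) :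
    IsSL ((Matrix.toLinAlgEquiv' (R := F) (n := ι)).toMonoidHom.comp
      ⟨⟨fun g : SpecialLinearGroup ι F => g.1, rfl⟩, fun _ _ => rfl⟩) := by
  have key : ∀ (v : ι → F) (φ : Dual F (ι → F)), (fun i => φ (Pi.single i 1)) ⬝ᵥ v = φ v := fun v φ => by
    rw [LinearMap.pi_apply_eq_sum_univ, dotProduct]
    exact Finset.sum_congr rfl fun i _ => by
      rw [smul_eq_mul, mul_comm]; congr 2; ext j; simp [Pi.single_apply, eq_comm]
  have inj : ∀ g h : SpecialLinearGroup ι F, (∀ x, g.1 *ᵥ x = h.1 *ᵥ x) → g = h := fun g h k =>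
    Subtype.ext (Matrix.toLin'.injective (LinearMap.ext k))
  refine ⟨fun g h k => inj g h (LinearMap.congr_fun k), fun g => (LinearMap.det_toLin' g.1).trans g.2,
    fun v φ h => ⟨H10.trv v _ ((key v φ).trans h), h, fun x => ?_⟩, fun g v φ g' v' φ' k1 k2 k3 k4 =>
      _root_.isConj_iff.2 (H10.exists_conj_trv h3 ⟨v, _, (key v φ).trans k1.1, inj _ _ fun x => ?_⟩
        ⟨v', _, (key v' φ').trans k2.1, inj _ _ fun x => ?_⟩ k3 k4)⟩
  · exact (H10.trv_mulVec _ _ ((key v φ).trans h) x).trans (by rw [key])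
  · rw [H10.trv_mulVec, key]; exact k1.2 x
  · rw [H10.trv_mulVec, key]; exact k2.2 x

omit [CharP F p] in
theorem simple_quot' [Finite G] (N : Subgroup G) [N.Normal] (hN : ¬ p ∣ Nat.card N)
    (h : ∀ S : Subgroup G, H18.SylIn p S ⊤ → (groupFusionSystem S).IsSimple p) (S' : Sylow p (G ⧸ N)) :
    (groupFusionSystem (S' : Subgroup (G ⧸ N))).IsSimple p := by
  obtain ⟨Q⟩ : Nonempty (Sylow p G) := inferInstance
  exact simple_quot _ (fun x hx h => h.eq_one_of_pow ((Fact.out : p.Prime).coprime_iff_not_dvd.2 hN).symm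
    (congrArg Subtype.val (pow_card_eq_one' (x := (⟨x, hx⟩ : N))))) (H18.sylIn_top Q) (h _ (H18.sylIn_top Q))
    (H18.sylIn_top S')

end Cfsg.Agent.H17
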