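import Mathlib
import Cfsg.Agent.H17.LinSL
import Cfsg.Agent.H11.Perp

/-! Groups of isometries of alternating and hermitian forms that contain the Eichler transformations. -/

set_option autoImplicit false

open Cfsg Module Submodule
open Cfsg.FusionSystem hiding inv_mem
open scoped commutatorElement

namespace Cfsg.Agent.H17

open H11 (perp mem_perp)

variable {G : Type*} [Group G] {F : Type*} [Field F] {V : Type*} [AddCommGroup V] [Module F V] {σ : F →+* F}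
  {ρ : G →* End F V} {S P Q : Subgroup G} {p : ℕ} {g g' t : G} {X : Set G} {W W' U U' : Submodule F V}
  {e u v v' w w' x : V} {ε c c' d : F} {B : V →ₛₗ[σ] V →ₗ[F] F}

/-- `g` is an Eichler transformation. -/
structure IsE (ε : F) (B : V →ₛₗ[σ] V →ₗ[F] F) (ρ : G →* End F V) (g : G) (u w : V) (c : F) : Prop where
  uu : B u u = 0
  uw : B u w = 0
  tr : ε * c + σ c = B w w
  eq : ∀ x, ρ g x = x + B w x • u - (ε * B u x) • w - (c * B u x) • u

/-- A group of isometries of an `ε`-hermitian form that contains all Eichler transformations. -/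
structure IsEH (ε : F) (B : V →ₛₗ[σ] V →ₗ[F] F) (ρ : G →* End F V) : Prop where
  invol : ∀ a, σ (σ a) = a
  symm : ∀ x y, B y x = ε * σ (B x y)
  eps : ε = 1 ∨ ε = -1
  sep : B.SeparatingLeft
  inj : Function.Injective ρ
  isom : ∀ g x y, B (ρ g x) (ρ g y) = B x y
  tr : ∀ w, ∃ c, ε * c + σ c = B w w
  eich : ∀ u w c, B u u = 0 → B u w = 0 → ε * c + σ c = B w w → ∃ g, IsE ε B ρ g u w c
  tz : ∃ d, d ≠ 0 ∧ ε * d + σ d = 0

namespace IsEH

theorem ee (h : IsEH ε B ρ) : ε * ε = 1 := by rcases h.eps with h | h <;> simp [h]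

theorem se (h : IsEH ε B ρ) : σ ε = ε := by rcases h.eps with h | h <;> simp [h]

theorem e0 (h : IsEH ε B ρ) : ε ≠ 0 := left_ne_zero_of_mul_eq_one h.ee

theorem form (h : IsEH ε B ρ) : H11.IsForm ε 1 (AddMonoidHom.id F + (AddMonoidHom.mulLeft ε).comp σ.toAddMonoidHom) B
    (fun x => B x x) where
  invol := h.invol
  symm := h.symm
  add x y := by simp [h.symm x y]; ring
  smul c x := by simp; ring
  diag x := by simp
  tv x := by
    obtain ⟨c, hc⟩ := h.tr x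
    exact ⟨σ c, by simp [h.invol, ← hc, add_comm]⟩

theorem refl (h : IsEH ε B ρ) (h1 : B v w = 0) : B w v = 0 := h.form.refl h1

theorem tv (h : IsEH ε B ρ) (hu : B u u = 0) (hd : ε * d + σ d = 0) : ∃ g, IsE ε B ρ g u 0 d :=
  h.eich _ _ _ hu (by simp) (by simpa using hd)

theorem eq_of (h : IsEH ε B ρ) (h1 : IsE ε B ρ g u w c) (h2 : IsE ε B ρ g' u w c) : g = g' :=
  h.inj (LinearMap.ext fun x => (h1.eq x).trans (h2.eq x).symm)

theorem isom' (h : IsEH ε B ρ) (g : G) (x y : V) : B x (ρ g y) = B (ρ g⁻¹ x) y := by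
  rw [← h.isom g (ρ g⁻¹ x), rho_inv']

theorem Stb_le (h : IsEH ε B ρ) : Stb ρ W ≤ Stb ρ (perp B W) := fun g hg x =>
  ⟨fun hx y hy => by rw [h.isom', hx _ ((inv_mem hg y).1 hy)], fun hx y hy => by rw [← h.isom g, hx _ ((hg y).1 hy)]⟩

theorem Stb_le_normalizer (h : IsEH ε B ρ) : Stb ρ W ≤ Subgroup.normalizer (Rad ρ W (perp B W) : Set G) :=
  (le_inf le_rfl h.Stb_le).trans Stb_le_normalizer_Rad

theorem mem_Rad (h : IsEH ε B ρ) (h1 : IsE ε B ρ g u w c) (hW : W ≤ perp B W) (hu : u ∈ W) (hw : w ∈ perp B W) :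
    g ∈ Rad ρ W (perp B W) := by
  refine ⟨fun x hx => by simp [h1.eq, h.refl (hw x hx), hW hx u hu], fun x hx => ?_, fun x => ?_⟩
  · simpa [h1.eq, hx u hu] using W.smul_mem _ hu
  · rw [h1.eq, show ∀ a b c : V, x + a - b - c - x = a - b - c from fun _ _ _ => by abel]
    exact sub_mem (sub_mem (smul_mem _ _ (hW hu)) (smul_mem _ _ hw)) (smul_mem _ _ (hW hu))

theorem _root_.Cfsg.Agent.H17.mem_perp_one : x ∈ perp B (span F {u}) ↔ B u x = 0 := by
  simp [H11.mem_perp_span]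

theorem _root_.Cfsg.Agent.H17.span_le_perp (hu : B u u = 0) : span F {u} ≤ perp B (span F {u}) :=
  (span_singleton_le_iff_mem _ _).2 (mem_perp_one.2 hu)

theorem mem_Rad' (h : IsEH ε B ρ) (h1 : IsE ε B ρ g u w c) : g ∈ Rad ρ (span F {u}) (perp B (span F {u})) :=
  h.mem_Rad h1 (span_le_perp h1.uu) (mem_span_singleton_self u) (mem_perp_one.2 h1.uw)

theorem sup_le_perp (h : IsEH ε B ρ) (hW : W ≤ perp B W) (hx : x ∈ perp B W) (h0 : B x x = 0) :
    W ⊔ span F {x} ≤ perp B (W ⊔ span F {x}) := by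
  rw [H11.perp_sup]
  exact sup_le (le_inf hW fun y hy => mem_perp_one.2 (h.refl (hx y hy)))
    ((span_singleton_le_iff_mem _ _).2 ⟨hx, mem_perp_one.2 h0⟩)

theorem conj (h : IsEH ε B ρ) (h1 : IsE ε B ρ g u w c) (t : G) : IsE ε B ρ (t * g * t⁻¹) (ρ t u) (ρ t w) c :=
  ⟨by rw [h.isom, h1.uu], by rw [h.isom, h1.uw], by rw [h.isom, h1.tr], fun x => by
    rw [rho_mul, rho_mul, h1.eq, ← h.isom t w, ← h.isom t u]
    simp [rho_inv']⟩

theorem mul (h : IsEH ε B ρ) (h1 : IsE ε B ρ g u w c) (h2 : IsE ε B ρ g' u w' c') :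
    IsE ε B ρ (g * g') u (w + w') (c + c' + ε * B w w') :=
  ⟨h1.uu, by simp [h1.uw, h2.uw], by
    simp only [map_add, map_mul, LinearMap.add_apply, ← h1.tr, ← h2.tr, h.symm w w', h.se]
    linear_combination B w w' * h.ee, fun x => by
    rw [rho_mul, h1.eq, h2.eq]
    simp only [map_add, map_sub, map_smul, LinearMap.add_apply, h1.uu, h2.uw, h.refl h1.uw, smul_eq_mul]
    module⟩

theorem move (h : IsEH ε B ρ) (hu : B u u = 0) (h1 : B v v = B v' v') (h2 : B u v = B u v') (h0 : B u v ≠ 0) :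
    ∃ g w c, IsE ε B ρ g u w c ∧ ρ g v = v' ∧ ∀ x, B v x = B v' x → B w x = 0 := by
  have k0 : σ (B u v) ≠ 0 := by simpa using h0
  obtain ⟨g, hg⟩ := h.eich u ((ε / B u v) • (v - v')) (ε * (B v v - B v' v) / (B u v * σ (B u v))) hu
    (by simp [h2]) (by
      have k1 := h.symm v v
      simp only [map_smulₛₗ, map_sub, map_mul, map_div₀, h.invol, h.se, LinearMap.smul_apply, LinearMap.sub_apply,
        smul_eq_mul, RingHom.id_apply, ← h1, h.symm v' v]
      field_simp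
      linear_combination (-B v v + ε * σ (B v' v)) * h.ee - k1)
  refine ⟨g, _, _, hg, ?_, fun x hx => by simp [hx]⟩
  rw [hg.eq]
  simp only [map_smulₛₗ, map_sub, map_div₀, h.se, LinearMap.smul_apply, LinearMap.sub_apply, smul_eq_mul]
  match_scalars <;> field_simp
  · linear_combination -h.ee
  · ring
  · linear_combination h.ee

theorem exists_perp (h : IsEH ε B ρ) [FiniteDimensional F V] (hx : x ∉ W) (a : F) :
    ∃ w ∈ perp B W, B w x = a := by
  obtain ⟨y, h1, h2⟩ := h.form.exists_perp_not h.sep hx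
  exact ⟨σ (ε * a) • y, smul_mem _ _ h1, by
    rw [map_smulₛₗ, LinearMap.smul_apply, h.symm x y, h2, h.invol, map_one, smul_eq_mul]
    linear_combination a * h.ee⟩

theorem exists_one (h : IsEH ε B ρ) (hu : u ≠ 0) : ∃ y, B u y = 1 := h.form.exists_right_eq_one h.sep hu

theorem exists_isE (h : IsEH ε B ρ) (hu : B u u = 0) (h0 : u ≠ 0)
    (hg : g ∈ Rad ρ (span F {u}) (perp B (span F {u}))) : ∃ w c, IsE ε B ρ g u w c := by
  obtain ⟨f, hf⟩ := h.exists_one h0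
  have k0 := hg.1 u (mem_span_singleton_self u)
  obtain ⟨t, w, c, k1, k2, -⟩ := h.move (v := f) (v' := ρ g f) hu (h.isom ..).symm
    (by rw [← h.isom g, k0]) (by simp [hf])
  have k3 := mul_mem (inv_mem (h.mem_Rad' k1)) hg
  have k4 : ρ (t⁻¹ * g) f = f := by rw [rho_mul, ← k2, rho_inv]
  have : t⁻¹ * g = 1 := h.inj (LinearMap.ext fun x => by
    obtain ⟨a, ha⟩ := mem_span_singleton.1 (k3.2.1 (x - B u x • f) (mem_perp_one.2 (by simp [hf])))
    have k5 := h.isom (t⁻¹ * g) (x - B u x • f) f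
    rw [k4, ← sub_eq_zero, ← LinearMap.sub_apply, ← map_sub, ← ha, map_smulₛₗ, LinearMap.smul_apply, hf] at k5
    rw [show a = 0 by simpa using k5, zero_smul, map_sub, map_smul, k4, eq_comm, sub_eq_zero, sub_left_inj] at ha
    simpa using ha)
  exact ⟨w, c, inv_mul_eq_one.1 this ▸ k1⟩

theorem fix (h : IsEH ε B ρ) [FiniteDimensional F V] (hu : B u u = 0) (h0 : u ≠ 0)
    (hx : ∀ g ∈ Rad ρ (span F {u}) (perp B (span F {u})), ρ g x = x) : x ∈ span F {u} := by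
  obtain ⟨d, d0, hd⟩ := h.tz
  obtain ⟨t, ht⟩ := h.tv hu hd
  have k1 : B u x = 0 := by simpa [ht.eq, d0, h0] using hx t (h.mem_Rad' ht)
  by_contra k
  obtain ⟨w, k2, k3⟩ := h.exists_perp k 1
  obtain ⟨c, hc⟩ := h.tr w
  obtain ⟨g, hg⟩ := h.eich u w c hu (mem_perp_one.1 k2) hc
  simpa [hg.eq, k1, k3, h0] using hx g (h.mem_Rad' hg)

variable [Fact p.Prime] [CharP F p]

theorem pEl (h : IsEH ε B ρ) (h1 : IsE ε B ρ g u w c) : PEl p g := pEl_of_mem (isPGroup_Rad h.inj) (h.mem_Rad' h1)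

theorem pCent (h : IsEH ε B ρ) (hW : W ≤ perp B W) (h0 : W ≠ ⊥) : PCent p (Rad ρ W (perp B W)) := fun g hg hc => by
  have key : ∀ u ∈ W, ∀ w ∈ perp B W, ∀ c, ε * c + σ c = B w w → ∀ x,
      x + B (ρ g w) x • ρ g u - (ε * B (ρ g u) x) • ρ g w - (c * B (ρ g u) x) • ρ g u =
        x + B w x • u - (ε * B u x) • w - (c * B u x) • u := fun u hu w hw c k x => by
    obtain ⟨t, ht⟩ := h.eich u w c (hW hu u hu) (hw u hu) k
    rw [← ht.eq, ← (h.conj ht g).eq, ← hc t (h.mem_Rad ht hW hu hw), mul_inv_cancel_right]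
  have k1 : ∀ u ∈ W, ρ g u = u := fun u hu => by
    by_cases u0 : u = 0
    · simp [u0]
    obtain ⟨d, d0, hd⟩ := h.tz
    obtain ⟨y, hy⟩ := h.exists_one (rho_ne (ρ := ρ) (g := g) u0)
    have := key u hu 0 (zero_mem _) d (by simpa using hd) y
    simp only [map_zero, LinearMap.zero_apply, zero_smul, add_zero, smul_zero, sub_zero, sub_right_inj, hy, mul_smul,
      one_smul, (smul_right_injective V d0).eq_iff] at this
    rw [this, hg.eq_one_of_smul this u0, one_smul]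
  refine ⟨k1, fun w hw => ?_, fun x u hu => by rw [map_sub, ← h.isom g u x, k1 u hu, sub_self]⟩
  obtain ⟨u, hu, u0⟩ := (Submodule.ne_bot_iff W).1 h0
  obtain ⟨c, k2⟩ := h.tr w
  obtain ⟨y, hy⟩ := h.exists_one u0
  have := key u hu w hw c k2 y
  rw [k1 u hu, hy] at this
  rw [← W.smul_mem_iff h.e0, show ε • (ρ g w - w) = (B (ρ g w) y - B w y) • u by linear_combination (norm := module) -this]
  exact smul_mem _ _ hu

theorem exists_iso_fix [Finite V] (h : IsEH ε B ρ) (hP : IsPGroup p P) (hW : W ≤ perp B W) (h1 : P ≤ Stb ρ W)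
    (h2 : ∃ x ∈ perp B W, x ∉ W ∧ B x x = 0) :
    ∃ x ∈ perp B W, x ∉ W ∧ B x x = 0 ∧ ∀ g ∈ P, ρ g x - x ∈ W := by
  set Y := W ⊔ span F {y | ∃ g ∈ P, ∃ x ∈ perp B W, y = ρ g x - x}
  by_cases hY : Y ≤ W
  · obtain ⟨x, k1, k2, k3⟩ := h2
    exact ⟨x, k1, k2, k3, fun g hg => hY (mem_sup_right (subset_span ⟨g, hg, x, k1, rfl⟩))⟩
  have k0 : ∀ g ∈ P, Y ≤ Y.comap (ρ g) := fun g hg => sup_le (fun x hx => mem_sup_left ((h1 hg x).1 hx))
    (span_le.2 (by
      rintro _ ⟨s, hs, x, hx, rfl⟩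
      exact mem_sup_right (subset_span ⟨g * s * g⁻¹, mul_mem (mul_mem hg hs) (inv_mem hg), ρ g x,
        (h.Stb_le (h1 hg) x).1 hx, by simp only [rho_mul, rho_inv, map_sub]⟩)))
  obtain ⟨x, k1, k2, k3⟩ := exists_fix_mod hP h1 (U' := Y)
    (fun g hg y => ⟨fun hy => k0 g hg hy, fun hy => rho_inv ρ g y ▸ k0 _ (inv_mem hg) hy⟩) hY
  have k4 : Y ≤ perp B W := sup_le hW (span_le.2 (by
    rintro _ ⟨s, hs, x, hx, rfl⟩
    exact sub_mem ((h.Stb_le (h1 hs) x).1 hx) hx))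
  refine ⟨x, k4 k1, k2, (sup_le (fun y hy => h.refl (k4 k1 y hy)) (span_le.2 ?_) : Y ≤ LinearMap.ker (B x)) k1, k3⟩
  rintro _ ⟨s, hs, y, hy, rfl⟩
  simpa [h.isom', sub_eq_zero] using hy _ (k3 _ (inv_mem hs))

/-- A closed set that contains the transvections contains the Eichler transformations. -/
theorem mem_of_tv [FiniteDimensional F V] (h : IsEH ε B ρ) (hX : PCl p X)
    (hi : ∀ u, B u u = 0 → u ≠ 0 → ∃ x, B u x = 0 ∧ x ∉ span F {u} ∧ B x x = 0)
    (hT : ∀ t u d, IsE ε B ρ t u 0 d → t ∈ X) (hg : IsE ε B ρ g u w c) : g ∈ X := by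
  by_cases u0 : u = 0
  · subst u0
    exact (h.inj (LinearMap.ext fun x => by simp [hg.eq]) : g = 1) ▸ hX.one
  have iso : ∀ w, B w w = 0 → ∀ c g, IsE ε B ρ g u w c → g ∈ X := fun w hw c g hg => by
    obtain ⟨d, d0, hd⟩ := h.tz
    have k0 : σ d = -(ε * d) := eq_neg_of_add_eq_zero_right hd
    have k1 : σ (ε / d) = -d⁻¹ := by
      rw [map_div₀, h.se, k0]
      have := h.e0
      field_simp
    have hW := h.sup_le_perp (span_le_perp hg.uu) (mem_perp_one.2 hg.uw) hw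
    have mu : u ∈ span F {u} ⊔ span F {w} := mem_sup_left (mem_span_singleton_self u)
    have mw : w ∈ span F {u} ⊔ span F {w} := mem_sup_right (mem_span_singleton_self w)
    have mx := add_mem mu (smul_mem _ (ε / d) mw)
    obtain ⟨a, ha⟩ := h.tv (hW mx _ mx) hd
    obtain ⟨b, hb⟩ := h.tv hw (d := ε / d) (by rw [k1]; field_simp; linear_combination h.ee)
    obtain ⟨t, ht⟩ := h.tv hg.uu (d := c - d) (by rw [map_sub]; linear_combination hg.tr + hw - hd)
    have hp := isPGroup_Rad (p := p) (W := span F {u} ⊔ span F {w}) (W' := perp B (span F {u} ⊔ span F {w})) h.inj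
    have ma := h.mem_Rad ha hW mx (zero_mem _)
    have mb := h.mem_Rad hb hW mw (zero_mem _)
    rw [show g = a * b * t from h.inj (LinearMap.ext fun x => by
      simp only [rho_mul, ha.eq, hb.eq, ht.eq, hg.eq, map_zero, LinearMap.zero_apply, zero_smul, smul_zero, add_zero,
        sub_zero, map_add, map_sub, map_smulₛₗ, LinearMap.add_apply, LinearMap.smul_apply, hg.uu, hg.uw, hw,
        h.refl hg.uw, k1, RingHom.id_apply, smul_eq_mul]
      match_scalars <;> field_simp <;> ring)]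
    exact hX.mul _ hp _ (mul_mem ma mb) _ (h.mem_Rad ht hW mu (zero_mem _))
      (hX.mul _ hp _ ma _ mb (hT _ _ _ ha) (hT _ _ _ hb)) (hT _ _ _ ht)
  have add : ∀ w w', B u w = 0 → (∀ c g, IsE ε B ρ g u w c → g ∈ X) → (∀ c g, IsE ε B ρ g u w' c → g ∈ X) →
      ∀ c g, IsE ε B ρ g u (w + w') c → g ∈ X := fun w w' k1 k2 k3 c g hg => by
    obtain ⟨c', hc⟩ := h.tr w
    obtain ⟨a, ha⟩ := h.eich u w c' hg.uu k1 hc
    obtain ⟨b, hb⟩ := h.eich u w' (c - c' - ε * B w w') hg.uu (by simpa [k1] using hg.uw) (by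
      have := hg.tr
      simp only [map_add, map_sub, map_mul, LinearMap.add_apply, h.symm w w', h.se] at this ⊢
      linear_combination this - hc - B w w' * h.ee)
    rw [h.eq_of hg (by convert h.mul ha hb using 1; ring)]
    exact hX.mul _ (isPGroup_Rad h.inj) _ (h.mem_Rad' ha) _ (h.mem_Rad' hb) (k2 _ _ ha) (k3 _ _ hb)
  obtain ⟨x, k1, k2, k3⟩ := hi u hg.uu u0
  have np : ∀ w, B u w = 0 → B x w ≠ 0 → ∀ c g, IsE ε B ρ g u w c → g ∈ X := fun w k4 k5 => by
    obtain ⟨a, ha⟩ := h.form.exists_add_smul_singular k3 k5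
    simpa using add _ (-(a • x)) (by simp [k4, k1]) (iso _ ha) (iso _ (by simp [k3]))
  by_cases k4 : B x w = 0
  · obtain ⟨y, k5, k6⟩ := h.form.exists_perp_not h.sep k2
    have k7 := k5 u (mem_span_singleton_self u)
    exact add (w + y) (-y) (by simp [hg.uw, k7]) (np _ (by simp [hg.uw, k7]) (by simp [k4, k6]))
      (np _ (by simp [k7]) (by simp [k6])) c g (by simpa using hg)
  · exact np w hg.uw k4 c g hg

theorem simple [Finite G] [Finite V] [FiniteDimensional F V] (h : IsEH ε B ρ) (h0 : ∃ x, x ≠ 0 ∧ B x x = 0)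
    (hi : ∀ u, B u u = 0 → u ≠ 0 → ∃ x, B u x = 0 ∧ x ∉ span F {u} ∧ B x x = 0)
    (h3 : ∀ e, B e e = 0 → e ≠ 0 → Fx ρ e ≤ Subgroup.closure {x | x ∈ Fx ρ e ∧ PEl p x})
    (hT : ∀ X : Set G, PCl p X → ∀ g ∈ X, g ≠ 1 → ∀ e w c, IsE ε B ρ g e w c →
      ∀ t u d, IsE ε B ρ t u 0 d → t ∈ X)
    (hS : H18.SylIn p S ⊤) : (groupFusionSystem S).IsSimple p := by
  obtain ⟨e, -, he, ee, k1⟩ := h.exists_iso_fix hS.isP (W := ⊥) bot_le (fun g _ => mem_Stb_of (by simp))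
    (h0.imp fun x hx => ⟨by simp [mem_perp], hx⟩)
  simp only [mem_bot, sub_eq_zero] at he k1
  have k0 : span F {e} ≠ ⊥ := by simpa
  have k2 := le_sylow_of_normalizer hS (isPGroup_Rad h.inj) ((le_trans k1 Fx_le_Stb).trans h.Stb_le_normalizer)
  obtain ⟨f, f0, f1, ff, f2⟩ := h.exists_iso_fix hS.isP (span_le_perp ee) (le_trans k1 Fx_le_Stb)
    ((hi e ee he).imp fun x hx => ⟨mem_perp_one.2 hx.1, hx.2⟩)
  refine simple_of_crit hS (fun k => f1 (h.fix ee he fun g hg => by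
    rw [Subgroup.mem_bot.1 (k.le (k2 hg)), map_one, End.one_apply])) (fun X hX z z1 z2 z3 z4 z5 x hx => ?_) fun A hA => ?_
  · obtain ⟨w, c, hz⟩ := h.exists_isE ee he
      (h.pCent (span_le_perp ee) k0 z (pEl_of_pow z3) (Subgroup.centralizer_le k2 z5))
    refine hX.all_of_step (ρ := ρ) (fun g hg g1 => ?_) (pEl_of_mem hS.isP hx)
    obtain ⟨_, ⟨y, rfl⟩, u0, k3⟩ := exists_fix_vec (ρ := ρ) (U := LinearMap.range (ρ g - 1)) hg.zpowers
      (Subgroup.zpowers_le.2 (mem_Stb_of (by rintro _ ⟨y, rfl⟩; exact ⟨ρ g y, by simp⟩)))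
      fun k => g1 (h.inj (by rwa [LinearMap.range_eq_bot, sub_eq_zero, ← map_one ρ] at k))
    have k4 := k3 g (Subgroup.mem_zpowers g)
    have k5 : ∀ x, ρ g x = x → B ((ρ g - 1) y) x = 0 := fun x hx => by
      simp only [LinearMap.sub_apply, End.one_apply, map_sub]
      rw [← h.isom g y x, hx, sub_self]
    obtain ⟨v, hv⟩ := h.exists_one u0
    obtain ⟨t, w', c', k6, k7, k8⟩ := h.move (v := v) (v' := ρ g v) (k5 _ k4) (h.isom ..).symm
      (by rw [← h.isom g, k4]) (by simp only [hv]; simp)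
    exact ⟨t, h.mem_of_tv hX hi (hT X hX z z1 z2 _ _ _ hz) k6, _, isPGroup_sup_zpowers (isPGroup_Rad h.inj) hg
      (h.Stb_le_normalizer (Fx_le_Stb k4)), Subgroup.mem_sup_left (h.mem_Rad' k6),
      Subgroup.mem_sup_right (Subgroup.mem_zpowers g), fun x hx => by
        rw [k6.eq, k5 x hx, k8 x (by rw [← h.isom g, hx])]; simp, v, fun k => zero_ne_one ((k5 v k).symm.trans hv), k7⟩
  · have hW := h.sup_le_perp (span_le_perp ee) f0 ff
    have me : e ∈ span F {e} ⊔ span F {f} := mem_sup_left (mem_span_singleton_self e)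
    have mf : f ∈ span F {e} ⊔ span F {f} := mem_sup_right (mem_span_singleton_self f)
    have hs : S ≤ Stb ρ (span F {e} ⊔ span F {f}) := fun s hs => mem_Stb_of fun x hx =>
      (sup_le ((span_singleton_le_iff_mem e _).2 (mem_comap.2 (by rwa [k1 s hs]))) ((span_singleton_le_iff_mem f _).2
        (mem_comap.2 (by simpa using add_mem (mem_sup_left (f2 s hs)) mf))) :
        _ ≤ (span F {e} ⊔ span F {f}).comap (ρ s)) hx
    refine hA.le_of_lin hS h.inj he k1 (Fx_le_Stb.trans h.Stb_le) (h.pCent (span_le_perp ee) k0)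
      (fun x => h.fix ee he) (h3 e ee he) (le_inf hs (hs.trans h.Stb_le))
      (h.pCent hW fun k => k0 (le_bot_iff.1 (k ▸ le_sup_left))) fun a ha => ?_
    have mv : ∀ b : F, b ≠ 0 → ∃ t ∈ Subgroup.closure {x | x ∈ Stb ρ (span F {e} ⊔ span F {f}) ⊓
        Stb ρ (perp B (span F {e} ⊔ span F {f})) ∧ PEl p x}, ρ t (b • e) = f := fun b hb => by
      have k6 := sub_mem mf (smul_mem _ b me)
      obtain ⟨w, k3, k4⟩ := h.exists_perp (W := span F {f - b • e}) (x := b • e) (fun k => by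
        obtain ⟨a, ha⟩ := mem_span_singleton.1 k
        have a0 : a ≠ 0 := fun k => he (by simpa [k, hb] using ha.symm)
        exact f1 (mem_span_singleton.2 ⟨b + b / a, by
          rw [← inv_smul_smul₀ a0 f, ← sub_add_cancel f (b • e), smul_add, ha]
          match_scalars; field_simp; ring⟩)) 1
      obtain ⟨c, hc⟩ := h.tr w
      obtain ⟨t, ht⟩ := h.eich _ w c (hW k6 _ k6) (mem_perp_one.1 k3) hc
      have : t ∈ Stb ρ (span F {e} ⊔ span F {f}) := mem_Stb_of fun x hx => by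
        simpa [ht.eq, hW hx _ k6, -map_sub] using add_mem hx (smul_mem _ _ k6)
      exact ⟨t, Subgroup.subset_closure ⟨⟨this, h.Stb_le this⟩, h.pEl ht⟩, by
        rw [ht.eq, k4, hW (smul_mem _ b me) _ k6]; simp⟩
    obtain ⟨s, k3, k4⟩ := mv 1 one_ne_zero
    obtain ⟨t, k5, k6⟩ := mv a ha
    exact ⟨t⁻¹ * s, mul_mem (inv_mem k5) k3, by rw [rho_mul, ← one_smul F e, k4, ← k6, rho_inv, one_smul]⟩

omit [Fact p.Prime] [CharP F p] in
theorem tv_of_smul (h : IsEH ε B ρ) {a : F} (hg : IsE ε B ρ g u (a • u) c) : IsE ε B ρ g u 0 (c + ε * a - σ a) :=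
  ⟨hg.uu, by simp, by
    have := hg.tr
    simp only [map_smulₛₗ, LinearMap.smul_apply, hg.uu, smul_zero, map_add, map_sub, map_mul, h.invol, h.se,
      map_zero] at this ⊢
    linear_combination this + a * h.ee, fun x => by
    simp only [hg.eq, map_smulₛₗ, LinearMap.smul_apply, map_zero, LinearMap.zero_apply, smul_eq_mul]
    module⟩

theorem tv_all (h : IsEH ε B ρ) (hX : PCl p X)
    (h1 : ∀ u v, B u u = 0 → u ≠ 0 → B v v = 0 → v ≠ 0 → ∃ g, ρ g u = v)
    (h2 : ∀ c d, c ≠ 0 → ε * c + σ c = 0 → ε * d + σ d = 0 → ∃ a b, d = σ a * a * c - σ b * b * c)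
    (hg : IsE ε B ρ g e 0 c) (hgX : g ∈ X) (g1 : g ≠ 1) (ht : IsE ε B ρ t u 0 d) : t ∈ X := by
  have one : ∀ g e c, IsE ε B ρ g e 0 c → e = 0 ∨ c = 0 → g = 1 := fun g e c hg k =>
    h.inj (LinearMap.ext fun x => by rcases k with k | k <;> simp [hg.eq, k])
  have k1 : ε * c + σ c = 0 := by simpa using hg.tr
  have key : ∀ a : F, ∃ s ∈ X, IsE ε B ρ s u 0 (σ a * a * c) := fun a => by
    obtain ⟨s, hs⟩ := h.tv (u := a • u) (by simp [ht.uu]) k1
    refine ⟨s, ?_, ht.uu, by simp, by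
      simp only [map_mul, h.invol, map_zero]; linear_combination σ a * a * k1, fun x => by
      simp [hs.eq, smul_smul, mul_comm, mul_left_comm, mul_assoc]⟩
    by_cases k : a • u = 0
    · exact one _ _ _ hs (.inl k) ▸ hX.one
    · obtain ⟨y, hy⟩ := h1 e _ hg.uu (fun k => g1 (one _ _ _ hg (.inl k))) hs.uu k
      exact h.eq_of (by simpa [hy] using h.conj hg y) hs ▸ hX.conj y g hgX
  obtain ⟨a, b, rfl⟩ := h2 c d (fun k => g1 (one _ _ _ hg (.inr k))) k1 (by simpa using ht.tr)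
  obtain ⟨s, s1, s2⟩ := key a
  obtain ⟨r, r1, r2⟩ := key b
  rw [show t = s * r⁻¹ from eq_mul_inv_of_mul_eq (h.eq_of (by simpa using h.mul ht r2) s2)]
  exact hX.mul _ (isPGroup_Rad h.inj) _ (h.mem_Rad' s2) _ (inv_mem (h.mem_Rad' r2)) s1 (hX.inv _ r1)

theorem exists_tv [FiniteDimensional F V] (h : IsEH ε B ρ) (hX : PCl p X) {γ : F} (hγ : σ γ ≠ ε * γ)
    (hg : IsE ε B ρ g e w c) (hgX : g ∈ X) (g1 : g ≠ 1) : ∃ t ∈ X, t ≠ 1 ∧ ∃ d, IsE ε B ρ t e 0 d := by
  by_cases k : w ∈ span F {e}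
  · obtain ⟨a, rfl⟩ := mem_span_singleton.1 k
    exact ⟨g, hgX, g1, _, h.tv_of_smul hg⟩
  have e0 : e ≠ 0 := fun k => g1 (h.inj (LinearMap.ext fun x => by simp [hg.eq, k]))
  obtain ⟨v, k1, k2⟩ := h.exists_perp k γ
  obtain ⟨c', hc⟩ := h.tr v
  obtain ⟨s, hs⟩ := h.eich e v c' hg.uu (mem_perp_one.1 k1) hc
  obtain ⟨t, ht⟩ := h.tv hg.uu (d := σ γ - ε * γ) (by
    simp only [map_sub, map_mul, h.invol, h.se]; linear_combination -γ * h.ee)
  have k3 : s * g * t = g * s := h.eq_of (h.mul (h.mul hs hg) ht) (by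
    convert h.mul hg hs using 1
    · abel
    · simp only [map_zero, h.symm v w, k2]; linear_combination -σ γ * h.ee)
  refine ⟨t, ?_, fun k => ?_, _, ht⟩
  · rw [show t = g⁻¹ * (s⁻¹ * g * s⁻¹⁻¹) by rw [inv_inv, mul_assoc, ← k3]; group]
    exact hX.mul _ (isPGroup_Rad h.inj) _ (inv_mem (h.mem_Rad' hg)) _ (mul_mem (mul_mem (inv_mem (h.mem_Rad' hs))
      (h.mem_Rad' hg)) (inv_mem (inv_mem (h.mem_Rad' hs)))) (hX.inv _ hgX) (hX.conj _ _ hgX)
  · obtain ⟨y, hy⟩ := h.exists_one e0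
    simpa [k, hy, e0, sub_eq_zero, hγ] using (ht.eq y).symm

end IsEH

end Cfsg.Agent.H17
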