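import Mathlib
import Cfsg.Agent.H17.LinH
import Cfsg.Agent.H11.UBridge
import Cfsg.Agent.H10.Sp

/-! The fusion systems of the unitary and symplectic groups in the defining characteristic. -/

set_option autoImplicit false

open Cfsg Module Submodule
open Cfsg.FusionSystem hiding inv_mem
open scoped commutatorElement

namespace Cfsg.Agent.H17

open H11

variable {F : Type*} [Field F] {V : Type*} [AddCommGroup V] [Module F V] {σ : F →+* F} {p : ℕ}

/-- The natural representation of a group of linear automorphisms. -/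
def natRep (H : Subgroup (V ≃ₗ[F] V)) : H →* End F V :=
  LinearEquiv.automorphismGroup.toLinearMapMonoidHom.comp H.subtype

theorem natRep_inj (H : Subgroup (V ≃ₗ[F] V)) : Function.Injective (natRep H) :=
  fun _ _ h => Subtype.ext (LinearEquiv.toLinearMap_injective h)

section unitary

variable {B : V →ₛₗ[σ] V →ₗ[F] F} [FiniteDimensional F V]

theorem isE_su (h : IsHerm B) {u w : V} {c : F} (hu : B u u = 0) (huw : B u w = 0) (hc : c + σ c = B w w) :
    IsE 1 B ((natRep _).comp (SIsom B).subtype) ⟨h.eich hu huw hc, h.eich_mem_sisom hu huw hc⟩ u w c :=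
  ⟨hu, huw, by simpa using hc, fun x => (h.eich_apply hu huw hc x).trans (by rw [one_mul])⟩

theorem isEH_su (h : IsHerm B) (hB : B.SeparatingLeft) : IsEH 1 B ((natRep _).comp (SIsom B).subtype) where
  invol := h.invol
  symm x y := by rw [one_mul, h.symm]
  eps := .inl rfl
  sep := hB
  inj := (natRep_inj _).comp (SIsom B).subtype_injective
  isom g := g.1.2.1
  tr w := by simpa using exists_trace_eq h.ne h.invol (h.symm w w)
  eich u w c k1 k2 k3 := ⟨_, isE_su h k1 k2 (by simpa using k3)⟩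
  tz := by simpa using exists_trace_zero h.ne h.invol

theorem simple_su [Finite F] [Fact p.Prime] [CharP F p] (h : IsHerm B) (hB : B.SeparatingLeft)
    (hn : 4 ≤ finrank F V) {S : Subgroup (SIsom B)} (hS : H18.SylIn p S ⊤) : (groupFusionSystem S).IsSimple p := by
  haveI : Finite V := Module.finite_of_finite F
  haveI : Finite (V ≃ₗ[F] V) := Finite.of_injective _ DFunLike.coe_injective
  have hE := isEH_su h hB
  refine hE.simple (h.exists_isotropic hB (by omega)) (fun u hu u0 => ?_) (fun e ee e0 g hg => ?_)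
    (fun X hX g g1 g2 e w c hg t u d ht => ?_) hS
  · obtain ⟨f, hf, huf⟩ := h.form.exists_partner hB hu u0
    have := h.form.finrank_hperp hB hu hf huf
    obtain ⟨x, x0, hx⟩ := (h.pull (hperp B u f).subtype).exists_isotropic
      (h.form.separatingLeft_hperp hB hu hf huf) (by omega)
    refine ⟨x, (mem_hperp.1 x.2).1, fun k => x0 (Subtype.ext ?_), hx⟩
    obtain ⟨a, ha⟩ := mem_span_singleton.1 k
    have := (mem_hperp.1 x.2).2
    rw [← ha, map_smul, h.flip_one huf, smul_eq_mul, mul_one] at this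
    simp [← ha, this]
  · obtain ⟨f, hf, hef⟩ := h.form.exists_partner hB ee e0
    obtain ⟨t, w, c, k1, k2, -⟩ := hE.move (v := f) (v' := _) ee (hE.isom g ..).symm
      (by rw [← hE.isom g, hg]) (by simp [hef])
    have k3 : t ∈ Fx _ e := (hE.mem_Rad' k1).1 e (mem_span_singleton_self e)
    rw [← mul_inv_cancel_left t g]
    refine mul_mem (Subgroup.subset_closure ⟨k3, hE.pEl k1⟩) ?_
    have hW := (h.form.hypSys_unit ee hf hef).nondegOn h.form
    obtain ⟨g', hg'⟩ := IsHerm.exists_orthSum_of_fix h.form hB hW (t⁻¹ * g).1 fun x hx => by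
      refine (span_le.mpr ?_ : _ ≤ LinearMap.eqLocus (((natRep _).comp (SIsom B).subtype) (t⁻¹ * g)) LinearMap.id) hx
      rintro _ ⟨_ | _, rfl⟩
      · exact mul_mem (inv_mem k3) hg
      · exact (rho_mul ..).trans (by rw [Sum.elim_inr, ← k2, rho_inv]; rfl)
    have h5 := (t⁻¹ * g).2
    rw [hg', MonoidHom.mem_ker, det_orthSumHom, map_one, one_mul] at h5
    have h6 := ((h.pull (hperp B e f).subtype).eichSub_eq (h.form.separatingLeft_hperp hB ee hf hef)).ge h5
    obtain ⟨y, k4, k5⟩ := (h.pull (hperp B e f).subtype).eichSub_le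
      (H := ((Subgroup.closure {x | x ∈ Fx ((natRep _).comp (SIsom B).subtype) e ∧ PEl p x}).map
        (SIsom B).subtype).comap ((orthSumHom (h.form.isOrthSum_of_isCompl (h.form.isCompl_perp hB hW)
        fun _ hx _ hy => hy _ hx)).comp (MonoidHom.inr _ _))) (fun v w c a1 a2 a3 => ⟨_, Subgroup.subset_closure
          ⟨((isE_su h (u := v) (w := w) a1 a2 a3).eq e).trans (by
            simp [h.refl (mem_hperp.1 v.2).1, h.refl (mem_hperp.1 w.2).1]), hE.pEl (isE_su h a1 a2 a3)⟩,
          ((IsHerm.orthSumHom_eich (h.form.isOrthSum_of_isCompl (h.form.isCompl_perp hB hW)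
            fun _ hx _ hy => hy _ hx) h (h.pull (hperp B e f).subtype) a1 a2 a3).trans
              (h.eich_congr (u' := v) (w' := w) _ _ _ a1 a2 a3 (by simp) (by simp) rfl)).symm⟩) h6
    exact (Subtype.ext (k5.trans hg'.symm) : y = t⁻¹ * g) ▸ k4
  · obtain ⟨γ, hγ⟩ := exists_ne_conj h.ne
    obtain ⟨s, s1, s2, d', hs⟩ := hE.exists_tv hX (γ := γ) (by simpa using hγ) hg g1 g2
    refine hE.tv_all hX (fun u v k1 k2 k3 k4 => ?_) (fun c d k1 k2 k3 => ?_) hs s1 s2 ht
    · obtain ⟨m, m1, a, a0, m2⟩ := h.exists_eichSub_point hB k1 k2 k3 k4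
      obtain ⟨f, hf, hvf⟩ := h.form.exists_partner hB k3 k4
      obtain ⟨n, n1, n2⟩ := h.exists_eichSub_smul hB k3 hf hvf (inv_ne_zero a0) (.inl (by omega))
      exact ⟨⟨n * m, (h.eichSub_eq hB).le (mul_mem n1 m1)⟩, show n.1 (m.1 u) = v by
        rw [m2, map_smul, n2, smul_inv_smul₀ a0]⟩
    · obtain ⟨a, ha⟩ := h.exists_norm (a := d / c) (by
        rw [map_div₀, eq_neg_of_add_eq_zero_right k2, eq_neg_of_add_eq_zero_right k3]; simp)
      exact ⟨a, 0, by simp [ha, k1]⟩

end unitary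

section symplectic

variable {B : LinearMap.BilinForm F V} [FiniteDimensional F V]

theorem isEH_sp (hA : B.IsAlt) (hB : B.Nondegenerate) :
    IsEH (σ := RingHom.id F) (-1) B (natRep (H10.isomGroup B)) where
  invol _ := rfl
  symm x y := by simpa using (hA.neg_eq x y).symm
  eps := .inr rfl
  sep := hB.1
  inj := natRep_inj _
  isom g := g.2
  tr w := ⟨0, by simp [hA.self_eq_zero]⟩
  eich u w c k1 k2 k3 := ⟨H10.tv hA (u + w) (-1) * H10.tv hA w 1 * H10.tv hA u (c + 1), k1, k2, k3, fun x => by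
    show (H10.tv hA (u + w) (-1)).1 ((H10.tv hA w 1).1 ((H10.tv hA u (c + 1)).1 x)) = _
    have k4 : B w u = 0 := by rw [← hA.neg_eq, k2, neg_zero]
    simp only [H10.tv_apply, map_add, map_smul, LinearMap.add_apply, LinearMap.smul_apply, hA.self_eq_zero, k2, k4,
      ← hA.neg_eq u x, ← hA.neg_eq w x, smul_eq_mul]
    module⟩
  tz := ⟨1, by simp⟩

theorem simple_sp [Finite F] [Fact p.Prime] [CharP F p] (hA : B.IsAlt) (hB : B.Nondegenerate)
    (hn : 4 ≤ finrank F V) (hq : 5 ≤ finrank F V ∨ 3 ≤ Nat.card F) {S : Subgroup (H10.isomGroup B)}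
    (hS : H18.SylIn p S ⊤) : (groupFusionSystem S).IsSimple p := by
  haveI : Finite V := Module.finite_of_finite F
  haveI : Finite (V ≃ₗ[F] V) := Finite.of_injective _ DFunLike.coe_injective
  have hE := isEH_sp hA hB
  have dim : ∀ W : Submodule F V, 2 * finrank F W < finrank F V → ∃ x ∈ perp B W, x ∉ W := fun W k => by
    by_contra k1
    have := Submodule.finrank_mono (show perp B W ≤ W from fun x hx => by_contra fun k2 => k1 ⟨x, hx, k2⟩)
    have := hE.form.finrank_perp hE.sep W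
    omega
  have tv : ∀ a c, IsE (σ := RingHom.id F) (-1) B (natRep _) (H10.tv hA a c) a 0 c := fun a c =>
    ⟨hA.self_eq_zero a, by simp, by simp, fun x => (H10.tv_apply hA a c x).trans (by
      rw [← hA.neg_eq a x]; simp [sub_eq_add_neg])⟩
  refine hE.simple ((dim ⊥ (by simp; omega)).imp fun x hx => ⟨hx.2, hA.self_eq_zero x⟩) (fun u _ u0 =>
    (dim _ (by rw [finrank_span_singleton u0]; omega)).imp fun x hx => ⟨mem_perp_one.1 hx.1, hx.2, hA.self_eq_zero x⟩)
    (fun e ee e0 g hg => H10.mem_of_tv_mem hB hA (span F {e}) (Subgroup.closure {x | x ∈ Fx (natRep _) e ∧ PEl p x})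
      (fun a ha c => Subgroup.subset_closure ⟨(H10.tv_apply hA a c e).trans (by simp [show B e a = 0 from ha e (mem_span_singleton_self e)]),
        hE.pEl (tv a c)⟩) g fun u hu => ?_) (fun X hX g g1 g2 e w c hg t u d ht => ?_) hS
  · obtain ⟨a, rfl⟩ := mem_span_singleton.1 hu
    exact (map_smul _ _ _).trans (congrArg _ hg)
  obtain ⟨s, s1, s2, d', hs⟩ : ∃ t ∈ X, t ≠ 1 ∧ ∃ d, IsE (σ := RingHom.id F) (-1) B (natRep _) t e 0 d := by
    by_cases k : w ∈ span F {e}
    · obtain ⟨a, rfl⟩ := mem_span_singleton.1 k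
      exact ⟨g, g1, g2, _, hE.tv_of_smul hg⟩
    have e0 : e ≠ 0 := fun k => g2 (hE.inj (LinearMap.ext fun x => by simp [hg.eq, k]))
    have li : ∀ v, v ∉ span F {e} → LinearIndependent F ![e, v] := fun v hv =>
      (LinearIndependent.pair_iff' e0).2 fun a ha => hv (mem_span_singleton.2 ⟨a, ha⟩)
    have key : ∀ v, B e v = 0 → v ∉ span F {e} → ∃ s ∈ X, IsE (σ := RingHom.id F) (-1) B (natRep _) s e v c :=
      fun v k1 k2 => by
        obtain ⟨y, k3, k4⟩ := H10.exists_isom_pair hB hA (li w k) (li v k2) (k1.trans hg.uw.symm)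
        exact ⟨_, hX.conj y g g1, k3 ▸ k4 ▸ hE.conj hg y⟩
    obtain ⟨v, k1, k2, k3, k4⟩ : ∃ v, B e v = 0 ∧ v ∉ span F {e} ∧ w + v ∉ span F {e} ∧ B w v ≠ c := by
      by_cases k5 : ∃ b : F, b ≠ 0 ∧ b ≠ c
      · obtain ⟨b, b0, bc⟩ := k5
        obtain ⟨v, k1, k2⟩ := hE.exists_perp k (-b)
        have k3 : ∀ x ∈ span F {e}, B w x = 0 := fun x hx => hE.refl (hE.refl (mem_perp_one.2 hg.uw x hx) |> hE.refl)
        have k4 : B w v = b := by rw [← hA.neg_eq, k2, neg_neg]
        exact ⟨v, mem_perp_one.1 k1, fun k => b0 (k4 ▸ k3 v k), fun k => b0 (by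
          simpa [hA.self_eq_zero, k4] using k3 _ k), k4 ▸ bc⟩
      · have c0 : c ≠ 0 := fun k => k5 ⟨1, one_ne_zero, k ▸ one_ne_zero⟩
        have := (finrank_add_le_finrank_add_finrank (span F {e}) (span F {w})).trans
          (add_le_add (finrank_span_le_card ({e} : Set V)) (finrank_span_le_card ({w} : Set V)))
        obtain ⟨v, k1, k2⟩ := dim (span F {e} ⊔ span F {w}) (by
          rcases hq with hq | hq
          · simp at this; omega
          · refine absurd hq (not_le.2 (Nat.lt_succ_of_le ?_))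
            rw [← Set.ncard_univ, ← Set.ncard_pair c0.symm]
            exact Set.ncard_le_ncard fun b _ => by_contra fun k => k5 ⟨b, not_or.1 k⟩)
        have mw : w ∈ span F {e} ⊔ span F {w} := mem_sup_right (mem_span_singleton_self w)
        exact ⟨v, k1 e (mem_sup_left (mem_span_singleton_self e)), fun k => k2 (mem_sup_left k),
          fun k => k2 (by simpa using sub_mem (mem_sup_left k) mw), k1 w mw ▸ c0.symm⟩
    obtain ⟨a, a1, a2⟩ := key v k1 k2
    obtain ⟨b, b1, b2⟩ := key _ (by simp [hg.uw, k1]) k3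
    have k5 : b * H10.tv hA e (c - B w v) = g * a := hE.eq_of (hE.mul b2 (tv _ _)) (by
      convert hE.mul hg a2 using 1 <;> simp; ring)
    refine ⟨_, ?_, fun k => ?_, _, tv e (c - B w v)⟩
    · have hp := isPGroup_Rad (p := p) (W := span F {e}) (W' := perp B (span F {e})) hE.inj
      rw [eq_inv_mul_of_mul_eq k5]
      exact hX.mul _ hp _ (inv_mem (hE.mem_Rad' b2)) _ (mul_mem (hE.mem_Rad' hg) (hE.mem_Rad' a2)) (hX.inv _ b1)
        (hX.mul _ hp _ (hE.mem_Rad' hg) _ (hE.mem_Rad' a2) g1 a1)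
    · obtain ⟨y, hy⟩ := hE.exists_one e0
      simpa [k, hy, e0, sub_eq_zero, k4.symm] using ((tv e (c - B w v)).eq y).symm
  refine hE.tv_all hX (fun u v _ k2 _ k4 => H10.exists_isom_apply_eq hB hA k2 k4) (fun c d k1 _ _ => ?_) hs s1 s2 ht
  by_cases h2 : (2 : F) = 0
  · obtain ⟨a, ha⟩ := FiniteField.isSquare_of_char_two (ringChar_eq_two_of h2) (d / c)
    exact ⟨a, 0, by simp [← ha, k1]⟩
  · exact ⟨(d / c + 1) / 2, (d / c - 1) / 2, by simp only [RingHom.id_apply]; field_simp; ring⟩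

end symplectic

end Cfsg.Agent.H17
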