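import Mathlib
import Cfsg.Agent.L1.Inv

/-!
Subgroups of small index in the large Mathieu groups.
-/

set_option autoImplicit false

namespace Cfsg.Agent.H17.MIdx

open H14 MulAction
open scoped Pointwise

section General

variable {G : Type*} [Group G]

/-- a conjugate subgroup -/
def cj (g : G) (H : Subgroup G) : Subgroup G := H.comap (MulAut.conj g).toMonoidHom

theorem mem_cj {g x : G} {H : Subgroup G} : x ∈ cj g H ↔ g * x * g⁻¹ ∈ H := Iff.rfl

theorem card_cj (g : G) (H : Subgroup G) : Nat.card (cj g H) = Nat.card H :=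
  Nat.card_congr ((MulAut.conj g).toEquiv.subtypeEquiv fun _ => Iff.rfl)

theorem cj_cj (g k : G) (H : Subgroup G) : cj k (cj g H) = cj (g * k) H := by
  ext; simp [mem_cj, mul_assoc]

theorem cj_stab {X : Type*} [MulAction G X] (g : G) (x : X) : cj g (stabilizer G (g • x)) = stabilizer G x := by
  ext; simp [mem_cj, mul_smul]

theorem cj_mono (g : G) {H K : Subgroup G} (h : H ≤ K) : cj g H ≤ cj g K := fun _ hx => h hx

theorem cj_inf (g : G) (H K : Subgroup G) : cj g (H ⊓ K) = cj g H ⊓ cj g K := rfl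

theorem cj_inj (g : G) {H K : Subgroup G} (h : cj g H = cj g K) : H = K :=
  Subgroup.comap_injective (MulAut.conj g).surjective h

theorem sylow_le [Finite G] {p n m : ℕ} (hp : p.Prime) {K P H : Subgroup G} (hP : P ≤ K) (hH : H ≤ K)
    (c : Nat.card P = p ^ n) (hm : m * p ^ n = Nat.card K) (hi : ¬ p ∣ m) (e : p ^ n ∣ Nat.card H) :
    ∃ k ∈ K, P ≤ cj k H := by
  haveI := Fact.mk hp
  obtain ⟨Q, hQ⟩ := Sylow.exists_subgroup_card_pow_prime p e
  obtain ⟨k, hk, h⟩ := exists_conj_mem_of_pgroup hp ((Subgroup.map_subtype_le Q).trans hH) hP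
    (IsPGroup.of_card c) (n := m) (by rw [Subgroup.card_subtype, hQ, hm]) hi
  exact ⟨k, hk, fun x hx => Subgroup.map_subtype_le Q (h x hx)⟩

theorem fix_of_pow {X : Type*} [MulAction G X] {u : G} {x : X} {k : ℕ} (h : u ^ k • x = x)
    (c : k.Coprime (orderOf u)) : u • x = x :=
  (Subgroup.zpowers_le (H := stabilizer G x)).2 h (mem_zpowers_pow_iff.2 c)

end General

/-- the union of some parts -/
def un (qs : List (ℕ × ℕ)) : ℕ := qs.foldr (fun p m => p.2 ||| m) 0

theorem testBit_un {qs : List (ℕ × ℕ)} {i : ℕ} : (un qs).testBit i = true ↔ ∃ p ∈ qs, p.2.testBit i = true := by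
  induction qs with
  | nil => simp [un]
  | cons q qs ih =>
    rw [show un (q :: qs) = q.2 ||| un qs from rfl, Nat.testBit_or, Bool.or_eq_true, ih]
    simp

theorem orb_cases {gs : List ℕ} (ps : List (ℕ × ℕ)) (hg : ∀ T ∈ gs, A24.ok T)
    (h : (∀ p ∈ ps, p.1 < 24 ∧ orbRun A24.h (gs.map A24.fn) 25 p.1 (fun S _ => Nat.beq S p.2) = true) ∧
      ∀ i < 24, ∃ p ∈ ps, p.2.testBit i = true) {H : Subgroup M24} (hH : ∀ T ∈ gs, A24.el T ∈ H)
    (x : GolayPt) : ∃ m ∈ ps.sublists.map un, orbit H x = gC.set m ∧ x ∈ gC.set m ∧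
      H ≤ stabilizer M24 (gC.set m) ∧ pop24 m ∣ Nat.card H := by
  classical
  have key : orbit H x = gC.set (un (ps.filter fun p => gC.pt p.1 ∈ orbit H x)) := by
    have k : ∀ p ∈ ps, ∀ y, p.2.testBit (gC.idx y) = true → (y ∈ orbit H x ↔ gC.pt p.1 ∈ orbit H x) :=
      fun p hp y hy => by
        have := (A24.toModel.mem_orbit_iff hg (h.1 p hp).1 (h.1 p hp).2 (gC.idx_lt y)).2 hy
        obtain ⟨g, hg, e⟩ := mem_orbit_sub.1 this
        rw [← gC.pt_idx y, ← show g • gC.pt p.1 = gC.pt (gC.idx y) from e]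
        let g' : H := ⟨g, A24.toModel.gen_le.2 hH hg⟩
        exact ⟨fun h => inv_smul_smul g (gC.pt p.1) ▸ mapsTo_smul_orbit g'⁻¹ x h, fun h => mapsTo_smul_orbit g' x h⟩
    ext y
    rw [Finset.mem_coe, gC.mem_set, testBit_un]
    refine ⟨fun hy => ?_, fun ⟨p, hp, hy⟩ => ?_⟩
    · obtain ⟨p, hp, e⟩ := h.2 _ (gC.idx_lt y)
      exact ⟨p, List.mem_filter.2 ⟨hp, decide_eq_true ((k p hp y e).1 hy)⟩, e⟩
    · exact (k p (List.mem_filter.1 hp).1 y hy).2 (of_decide_eq_true (List.mem_filter.1 hp).2)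
  have hm : un (ps.filter fun p => gC.pt p.1 ∈ orbit H x) ∈ ps.sublists.map un :=
    List.mem_map_of_mem (List.mem_sublists.2 List.filter_sublist)
  generalize un _ = m at key hm
  refine ⟨m, hm, key, Finset.mem_coe.1 (key ▸ mem_orbit_self x), fun g hg => Finset.coe_injective ?_, ?_⟩
  · rw [Finset.coe_smul_finset, ← key]
    exact smul_orbit (⟨g, hg⟩ : H) x
  · rw [card_eq_orbit_mul_inf H x, key, Set.ncard_coe_finset, card_gset]
    exact dvd_mul_right _ _

theorem not_top {H : Subgroup M24} (hH : H ≤ S23.K) {x : GolayPt} (hx : x ≠ none) {m : ℕ}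
    (h : orbit H x = gC.set m) : ¬ m.testBit 23 = true := fun e => by
  obtain ⟨g, hg, e⟩ := mem_orbit_sub.1 (h.ge ((gC.pt_mem_set (i := 23) (by decide)).2 e))
  exact hx (MulAction.injective g (e.trans (show g • none = none from hH hg).symm))

theorem stab_or (a b : ℕ) :
    stabilizer M24 (gC.set a) ⊓ stabilizer M24 (gC.set b) ≤ stabilizer M24 (gC.set (a ||| b)) := fun g hg => by
  rw [mem_stabilizer_iff, gC.set_or, Finset.smul_finset_union, hg.1, hg.2]

theorem stab_pt {i : ℕ} (hi : i < 24) : stabilizer M24 (gC.set (2 ^ i)) = stabilizer M24 (gC.pt i) := by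
  ext g
  rw [gC.set_two_pow hi, mem_stabilizer_iff, mem_stabilizer_iff, Finset.smul_finset_singleton,
    Finset.singleton_inj]

/-- the set or its complement determines the octad -/
def Oc (s : Finset GolayPt) : Prop := s ⊆ o0 ∧ 5 ≤ s.card ∨ sᶜ ⊆ o0 ∧ 5 ≤ sᶜ.card

instance (s : Finset GolayPt) : Decidable (Oc s) := by unfold Oc; infer_instance

theorem Oc.le {s : Finset GolayPt} (h : Oc s) : stabilizer M24 s ≤ stabilizer M24 o0 := fun g hg => by
  have k : ∀ t : Finset GolayPt, g • t = t → t ⊆ o0 ∧ 5 ≤ t.card → g • o0 = o0 := fun t e ht =>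
    octad_eq_of_five ((m24_smul_octads g).2 o0_mem) o0_mem (ht.2.trans (Finset.card_le_card
      (Finset.subset_inter (e ▸ Finset.smul_finset_subset_smul_finset ht.1) ht.1)))
  exact h.elim (k s hg) (k sᶜ (by rw [smul_finset_compl, hg]))

theorem duad_le {s : Finset GolayPt} (h : symmDiff s (gC.set 0x800001) ∈ GCode) :
    stabilizer M24 s ≤ stabilizer M24 (gC.set 0x800001) := fun g hg => by
  have h1 := (m24_smul_gcode g).2 h
  rw [smul_symmDiff', show g • s = s from hg, symmDiff_comm] at h1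
  have h2 := symmDiff_mem_gcode h1 h
  rw [symmDiff_assoc, symmDiff_symmDiff_cancel_left] at h2
  have h3 := gcode_card h2
  have h4 : (symmDiff (g • gC.set 0x800001) (gC.set 0x800001)).card ≤ 4 :=
    (Finset.card_le_card symmDiff_le_sup).trans ((Finset.card_union_le _ _).trans (by
      rw [Finset.card_smul_finset, card_gset]; decide +kernel))
  exact symmDiff_eq_bot.1 (Finset.card_eq_zero.1 (by omega))

/-- a Sylow 2-subgroup of the point stabiliser -/
noncomputable def P23 : CSub A24 :=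
  P2.stab A24.toModel A24.compat_self 23 25
    [(1, [0xba4f0aadcab0e8c9348834e2f28440]), (3,
    [0xbad33511c8ac64d818f67d06c28820, 0xbc0d43a0b678c8b629329d62d70820]), (4,
    [0xbd17661a2a23933ac1a7448af18820, 0xbc92655a2c3b9706cea47d0a818820,
    0xba1474922b3398d85676a3cb218820, 0xba91094e346b9e63d8955b0a918820])]
    128 (by decide : 23 < 24) (by decide +kernel)

/-- overgroups of the Sylow 2-subgroup in the point stabiliser -/
theorem m23 {K : Subgroup M24} (h1 : P23.K ≤ K) (h2 : K ≤ S23.K)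
    (hc : ∀ p ∈ [11, 17, 19, 23], ¬ p ∣ Nat.card K) : K ≤ stabilizer M24 o0 ∨
      K ≤ stabilizer M24 (gC.set 7) ∨ K ≤ stabilizer M24 (gC.set 6) ∧ 7 ∣ Nat.card K := by
  have oc := orb_cases [(23, 0x800000), (0, 1), (1, 6), (3, 0x24028), (4, 0x7dbfd0)] P23.gens_ok
    (by decide +kernel) (P23.le_iff.1 h1)
  have dc : ∀ m ∈ [(23, 0x800000), (0, 1), (1, 6), (3, 0x24028), (4, 0x7dbfd0)].sublists.map un,
      ¬ m.testBit 23 = true → Oc (gC.set m) ∨ (∃ p ∈ [11, 17, 19, 23], p ∣ pop24 m) ∨ m = 7 ∨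
        (some 1 ∈ gC.set m → m = 6) ∧ (some 0 ∈ gC.set m → m = 1 ∨ 7 ∣ pop24 m) := by decide +kernel
  obtain ⟨m, hm, a1, a2, a3, a4⟩ := oc (some 1)
  obtain ⟨n, hn, b1, b2, b3, b4⟩ := oc (some 0)
  rcases dc m hm (not_top h2 (by simp) a1) with h | ⟨p, hp, h⟩ | rfl | ⟨h, -⟩
  · exact .inl (a3.trans h.le)
  · exact absurd (h.trans a4) (hc p hp)
  · exact .inr (.inl a3)
  obtain rfl := h a2
  rcases dc n hn (not_top h2 (by simp) b1) with h | ⟨p, hp, h⟩ | rfl | ⟨-, h⟩
  · exact .inl (b3.trans h.le)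
  · exact absurd (h.trans b4) (hc p hp)
  · exact .inr (.inl b3)
  rcases h b2 with rfl | h
  · exact .inr (.inl ((le_inf b3 a3).trans (stab_or 1 6)))
  · exact .inr (.inr ⟨a3, h.trans b4⟩)

theorem card_two {o : Finset GolayPt} (ho : o ∈ octads) (h : o ≠ o0) :
    Nat.card ↥(stabilizer M24 o0 ⊓ stabilizer M24 o) ≤ 10752 := by
  refine card_inf_stabilizer_le _ _ (n := 30) ?_ (by norm_num) SO.card_eq.le
  obtain ⟨v, hv, e⟩ := invDec_SO_octads.val o ho
  have c := invDec_SO_octads.count v hv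
  have : v.2 ≤ (orbit (stabilizer M24 o0) o).ncard := c ▸ Set.ncard_le_ncard (fun y hy =>
    mem_orbit_sub.2 (invDec_SO_octads.conj o ho y hy.1 (e.trans hy.2.symm))) (Set.toFinite _)
  simp only [List.mem_cons, List.not_mem_nil, or_false] at hv
  rcases hv with rfl | rfl | rfl | rfl
  · exact absurd (octad_eq_of_five o0_mem ho (by omega)).symm h
  all_goals omega

theorem fix2 {u : M24} (h : orderOf u = 7) (hu : u ∈ stabilizer M24 (gC.set 6)) :
    u • (some 1 : GolayPt) = some 1 := by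
  have k : ∀ x ∈ gC.set 6, u • x ∈ gC.set 6 := fun x hx => hu ▸ Finset.smul_mem_smul_finset hx
  rw [show gC.set 6 = {some 1, some 2} by decide +kernel] at k
  simp only [Finset.mem_insert, Finset.mem_singleton, forall_eq_or_imp, forall_eq] at k
  refine k.1.resolve_right fun e => ?_
  have e2 := k.2.resolve_right fun e' => absurd (MulAction.injective u (e.trans e'.symm)) (by decide)
  have := fix_of_pow (u := u) (x := (some 1 : GolayPt)) (k := 2) (by rw [sq, mul_smul, e, e2])
    (by rw [h]; decide)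
  exact absurd (this.symm.trans e) (by decide)

/-- overgroups of the Sylow 2-subgroup -/
theorem m24 {H : Subgroup M24} (h1 : P2.K ≤ H) (hc : ∀ p ∈ [11, 17, 19, 23], ¬ p ∣ Nat.card H)
    (hl : 64512 < Nat.card H) : H ≤ stabilizer M24 o0 ∨ H ≤ stabilizer M24 X0 := by
  have oc : ∀ {N : Subgroup M24}, P2.K ≤ N → N ≤ stabilizer M24 o0 ∨
      Nat.card N = 24 * Nat.card ↥(N ⊓ S23.K) := fun {N} hN => by
    obtain ⟨m, hm, a1, a2, a3, -⟩ := orb_cases [(23, 0x82402f), (4, 0x7dbfd0)] P2.gens_ok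
      (by decide +kernel) (P2.le_iff.1 hN) none
    obtain rfl | rfl : m = 0x82402f ∨ m = 0xffffff := by clear a1 a3; revert m; decide +kernel
    · exact .inl a3
    · rw [card_eq_orbit_mul_inf N (none : GolayPt), a1, Set.ncard_coe_finset, card_gset]
      exact .inr (congrArg (· * _) (by decide +kernel))
  by_contra! hn
  have c1 := (oc h1).resolve_left hn.1
  have p1 : P2.K ≤ stabilizer M24 o0 := SO.le_of_test P2 (by decide +kernel)
  have key : ¬ H ⊓ S23.K ≤ stabilizer M24 o0 := fun hK => by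
    obtain ⟨h, hh, ho⟩ := SetLike.not_le_iff_exists.1 hn.1
    have e1 := card_eq_orbit_mul_inf H o0
    have e2 := card_eq_orbit_mul_inf (H ⊓ stabilizer M24 o0) (none : GolayPt)
    have e3 := card_eq_orbit_mul_inf (H ⊓ stabilizer M24 o0) (h • o0)
    have l1 : 8 ≤ (orbit ↥(H ⊓ stabilizer M24 o0) (none : GolayPt)).ncard :=
      (P2.orbit_ncard A24.toModel A24.compat_self (fuel := 25) (c := 23) (n := 8) (by decide : 23 < 24)
        (by decide +kernel)).ge.trans (Set.ncard_le_ncard (orbit_subset_of_le (le_inf h1 p1) _))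
    have l2 : Nat.card ↥(H ⊓ S23.K) ≤ Nat.card ↥(H ⊓ stabilizer M24 o0 ⊓ stabilizer M24 (none : GolayPt)) :=
      Subgroup.card_le_of_le (le_inf (le_inf inf_le_left hK) inf_le_right)
    have l3 : Nat.card ↥(H ⊓ stabilizer M24 o0 ⊓ stabilizer M24 (h • o0)) ≤ 10752 :=
      (Subgroup.card_le_of_le (inf_le_inf_right _ inf_le_right)).trans
        (card_two ((m24_smul_octads h).2 o0_mem) ho)
    have l4 : (orbit ↥(H ⊓ stabilizer M24 o0) (h • o0)).ncard < (orbit H o0).ncard := by
      refine Set.ncard_lt_ncard ⟨?_, fun hs => ?_⟩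
      · rintro _ ⟨k, rfl⟩
        exact mem_orbit_sub.2 ⟨k * h, mul_mem k.2.1 hh, mul_smul _ _ _⟩
      · obtain ⟨k, hk, e⟩ := mem_orbit_sub.1 (hs (mem_orbit_self o0))
        exact ho (MulAction.injective k (e.trans (show k • o0 = o0 from hk.2).symm))
    have l5 := Nat.mul_le_mul l1 l2
    have l6 : (orbit H o0).ncard ≤ 3 := by
      by_contra! l
      have := Nat.mul_le_mul_right (Nat.card ↥(H ⊓ stabilizer M24 o0)) l
      omega
    have l7 := Nat.mul_le_mul (show _ ≤ 2 from Nat.le_of_lt_succ (l4.trans_le l6)) l3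
    have := Nat.mul_le_mul l6 (e3.trans_le l7)
    omega
  rcases m23 (K := H ⊓ S23.K) (inf_le_inf_right _ h1) inf_le_right (fun p hp h =>
    hc p hp (h.trans (Subgroup.card_dvd_of_le inf_le_left))) with h | h | ⟨h, h7⟩
  · exact key h
  · have h2 : H ⊓ S23.K ≤ stabilizer M24 X0 := fun g hg => by
      have : g • gC.set 0x800007 = gC.set 0x800007 :=
        stab_or 7 (2 ^ 23) ⟨h hg, (stab_pt (by norm_num)).ge hg.2⟩
      rw [mem_stabilizer_iff, X0, show 0xda1 = syn 0x800007 by decide +kernel, sx_syn (by norm_num),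
        smul_sextetOf, this]
    rcases oc (N := H ⊓ stabilizer M24 X0) (le_inf h1 inf_le_right) with h3 | h3
    · exact key ((le_inf inf_le_left h2).trans h3)
    · have := Subgroup.card_le_of_le (show H ⊓ S23.K ≤ H ⊓ stabilizer M24 X0 ⊓ S23.K from
        le_inf (le_inf inf_le_left h2) inf_le_right)
      exact hn.2 (inf_eq_left.1 (Subgroup.eq_of_le_of_card_ge inf_le_left (by omega)))
  · haveI : Fact (Nat.Prime 7) := ⟨by norm_num⟩
    obtain ⟨⟨u, hu⟩, o⟩ := exists_prime_orderOf_dvd_card' 7 h7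
    rw [Subgroup.orderOf_mk] at o
    have ok : A24.ok 0xc18f94cad4c4953d1465a07675c02 := A24_ok (by decide +kernel)
    have hs := h1 ((P2.test_iff _ ok).1 (by decide +kernel))
    have s1 : _ • (none : GolayPt) = (some 1 : GolayPt) := A24_smul_pt ok (i := 23) (by norm_num)
    have s2 : _ • (some 1 : GolayPt) = (some 0 : GolayPt) := A24_smul_pt ok (i := 1) (by norm_num)
    generalize A24.el 0xc18f94cad4c4953d1465a07675c02 = s at hs s1 s2
    have f1 := fix2 o (h hu)
    have f0 := fix2 (u := s⁻¹ * u * s) (by rw [← o, ← orderOf_conj' s]; group) (h ⟨H.mul_mem (H.mul_mem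
      (H.inv_mem hs) hu.1) hs, show _ • none = none by rw [mul_smul, mul_smul, s1, f1, ← s1, inv_smul_smul]⟩)
    rw [mul_smul, mul_smul, s2, inv_smul_eq_iff, s2] at f0
    have f2 : u • (some 2 : GolayPt) = some 2 := by
      have k : u • some 2 ∈ gC.set 6 := h hu ▸ Finset.smul_mem_smul_finset (by decide +kernel)
      rw [show gC.set 6 = {some 1, some 2} by decide +kernel, Finset.mem_insert, Finset.mem_singleton] at k
      exact k.resolve_left fun e => absurd (MulAction.injective u (e.trans f1.symm)) (by decide)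
    have := Subgroup.orderOf_dvd_natCard S20.K (show u ∈ S20.K from ⟨⟨⟨hu.2, f0⟩, f1⟩, f2⟩)
    rw [o, S20.card_eq] at this
    exact absurd this (by decide)

end Cfsg.Agent.H17.MIdx
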