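import Mathlib
import Cfsg.Agent.H17.MIdx

/-!
Subgroups of the large Mathieu groups of order divisible by eleven.
-/

set_option autoImplicit false

namespace Cfsg.Agent.H17.MIdx

open H14 MulAction
open scoped Pointwise

/-- an element of order eleven -/
def a11 : ℕ := 0xbb2ce2bd283406d95141a90475c660
/-- its powers -/
def AL : List ℕ := [0xbdab49ca307b9ac5a928398a418820, 0xbb2ce2bd283406d95141a90475c660,
    0xbb59011941221637ba93b1e35924a0, 0xb8da8892933864b341c5655367a840,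
    0xbac6149dc5acdf2222026d94c35220, 0xbc97355602b14cf385111b28d23920,
    0xbbe45a591160886acc295b5c33c140, 0xb99e2730296c4e4b166a90e0baa280,
    0xb90d18366a1a6a7608b47ad12b05c0, 0xb9c8940cb45aad56c44e3482f64e00,
    0xbd4ea0ac4e951961a63023e6669500]
/-- transversals of the stabiliser of three points -/
def e21 : List (ℕ × List ℕ) :=
  [(2, [0xbdab49ca307b9ac5a928398a418820, 0xbcda534169789d1a10f51a99692020,
    0xba0b59412d3b06f74c4bb522a21820, 0xb9c8259a0d7c5c5925561ceac45020,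
    0xbbd2c95486535d44167138ecb14020, 0xb912d90965629069d1d51c2cf89c20,
    0xbada391146a89c53d9888ce904bc20, 0xbadf11a9b2351102a493ad8e273020,
    0xba613ab94c92c8313da5a22c63c420, 0xb96a3945ec6d26b3a0d6238504a820,
    0xb9887855058ba8c1a96f68a724d820, 0xbca9313483b3205ab90b53e2732420,
    0xbc5342c14f60e64b1dc25d51233420, 0xb8885a38e86a9903552f98e32b2c20,
    0xbd8c77a853a0d322359582e282b820, 0xbc143a9ccd9c4457ae887493661020,
    0xb990c7a45253a8dace0b3923619420, 0xb8a437ba075a8c8b12896c4b564c20,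
    0xbceae62244141666c4aa7d93438c20, 0xba8d6144b21a5c8831f499d646d420,
    0xbad5474d22b4111694cfa906c3c820]),
    (3, [0xbdab49ca307b9ac5a928398a418820, 0xbc1ca8ce447a1a63a6951959658820,
    0xba5b220e6f59a8572191b40eaa8820, 0xbd5d62bd1322ceaa41a988d8690820,
    0xb9932516076367172d037d2d520820, 0xbd509635d3a0cf0229f692ca688820,
    0xbd2475ba09311e58d663431aab0820, 0xbb0e5341e87256db0e24acd52a0820,
    0xbcca81d9e7652b06c9648b92650820, 0xbc1c72ca8d32acb4566c88d2478820,
    0xbb5e3a22b689e12595cc4a8c498820, 0xbd4648a973b20ef4b6142ba4660820,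
    0xb95a8b1d435d2359b246811ee48820, 0xb924763c70ac6caa4cc95a0ad70820,
    0xbae291b4cc54d1683e84716b238820, 0xbc6aa35a4ea30b06bd2499d6340820,
    0xb96b29d08e5c0697a18a39ad168820, 0xba4e59ac8f1da92645c8355aa80820,
    0xba1507c66c69e43758854d2ab30820, 0xbbd16955c924547341b35b07428820]),
    (5, [0xbdab49ca307b9ac5a928398a418820, 0xba0d6aa4b26c56a792143cdcc18820, 0xb9944a31d5694e85c2d27a63318820]),
    (4, [0xbdab49ca307b9ac5a928398a418820, 0xb926faa22da3a0b6255231cb618820,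
    0xba91094e346b9e63d8955b0a918820, 0xbc92655a2c3b9706cea47d0a818820,
    0xba64d4562f83a87312d362caa18820, 0xbcc8cb2a265b8f47c9096c0b518820,
    0xb9e086be3593a6952d94b10a618820, 0xb99b28523343aaa4b16f258a718820,
    0xba1474922b3398d85676a3cb218820, 0xbd17661a2a23933ac1a7448af18820,
    0xbb1f3a4232ab916218ed4a8ab18820, 0xbc0ea332364b892451ebaccad18820,
    0xbae957b6289ba44b1cd0524ac18820, 0xbb4c93ae2453ac893e8c9d4b018820,
    0xbd6cb22627638cfa224a834b318820, 0xbbd8459e29b39559b606920b418820])]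

theorem ok_a : A24.ok a11 := A24_ok (by decide +kernel)

theorem AL_spec : ∀ s ∈ AL, A24.ok s ∧ A24.el s ∈ Subgroup.zpowers (A24.el a11) := fun s hs => by
  obtain ⟨i, -, rfl⟩ : ∃ i < 11, s = A24.pow a11 i := by revert s; decide +kernel
  exact ⟨(A24.pow_spec ok_a i).1, (A24.pow_spec ok_a i).2 ▸ Subgroup.npow_mem_zpowers _ i⟩

theorem card_a : Nat.card (Subgroup.zpowers (A24.el a11)) = 11 ^ 1 := by
  rw [Nat.card_zpowers, A24.orderOf_prime ok_a (p := 11) (by norm_num) (by decide +kernel)]; rfl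

theorem a_mem : Subgroup.zpowers (A24.el a11) ≤ S22.K :=
  Subgroup.zpowers_le.2 ((S22.test_iff _ ok_a).1 (by decide +kernel))

/-- a cycle of length seven -/
noncomputable def t1 (T : ℕ) : Bool := anyL AL fun s =>
  band (Nat.beq (iter (fun c => get 5 s (get 5 T c)) 7 2) 2) (bnot (Nat.beq (get 5 s (get 5 T 2)) 2))

/-- a cycle of length seven in a longer word -/
noncomputable def t2 (T : ℕ) : Bool := bor (t1 T) (force (A24.mul T (A24.mul a11 T)) fun U =>
  anyL AL fun s => force (A24.mul T (A24.mul s U)) t1)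

theorem t1_spec {H : Subgroup M24} (ha : A24.el a11 ∈ H) {T : ℕ} (ok : A24.ok T) (hT : A24.el T ∈ H)
    (h : t1 T = true) : 7 ∣ Nat.card H := by
  obtain ⟨s, hs, h⟩ := anyL_iff.1 h
  obtain ⟨s1, s2⟩ := AL_spec s hs
  rw [band_iff, bnot_iff, nbeq_iff, nbeq_iff] at h
  have k : ∀ c, A24.V c → A24.V (get 5 s (get 5 T c)) ∧
      (A24.el s * A24.el T) • A24.dec c = A24.dec (get 5 s (get 5 T c)) := fun c hc =>
    ⟨A24.fn_V _ _ s1 (A24.fn_V _ _ ok hc), by
      rw [mul_smul, A24.act _ _ ok hc, A24.act _ _ s1 (A24.fn_V _ _ ok hc)]; rfl⟩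
  have v : A24.V 2 := (by decide : 2 < 24)
  have e := (A24.iter_spec k v 7).2
  rw [h.1] at e
  refine dvd_trans ?_ (Subgroup.orderOf_dvd_natCard H (mul_mem (Subgroup.zpowers_le.2 ha s2) hT))
  by_contra c
  exact h.2 ((A24.h_iff _ _ (k 2 v).1 v).2 ((k 2 v).2.symm.trans
    (fix_of_pow e ((Nat.Prime.coprime_iff_not_dvd (by norm_num)).2 c))))

theorem t2_spec {H : Subgroup M24} (ha : A24.el a11 ∈ H) {T : ℕ} (ok : A24.ok T) (hT : A24.el T ∈ H)
    (h : t2 T = true) : 7 ∣ Nat.card H := by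
  refine (bor_iff.1 h).elim (t1_spec ha ok hT) fun h => ?_
  rw [force_eq] at h
  obtain ⟨s, hs, h⟩ := anyL_iff.1 h
  obtain ⟨s1, s2⟩ := AL_spec s hs
  have o1 := A24.ok_mul _ _ ok_a ok
  have o2 := A24.ok_mul _ _ ok o1
  have o3 := A24.ok_mul _ _ s1 o2
  refine t1_spec ha (A24.ok_mul _ _ ok o3) ?_ ((force_eq _ _).symm.trans h)
  rw [A24.el_mul _ _ ok o3, A24.el_mul _ _ s1 o2, A24.el_mul _ _ ok o1, A24.el_mul _ _ ok_a ok]
  exact mul_mem hT (mul_mem (Subgroup.zpowers_le.2 ha s2) (mul_mem hT (mul_mem ha hT)))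

theorem cnt21 : sumProd A24.mul e21 (fun T => Bool.rec 0 1 (bnot (t2 T))) A24.one = 68 := by
  decide +kernel

theorem m22 {H : Subgroup M24} (ha : A24.el a11 ∈ H) (h : H ≤ S22.K) (h7 : ¬ 7 ∣ Nat.card H) :
    Nat.card H ≤ 1632 := by
  have c := S21.ncard_el (lv := e21) (by decide +kernel) (p := fun T => bnot (t2 T))
    (Q := fun g => ∀ T, A24.ok T → A24.el T = g → ¬ t2 T = true) fun T ok =>
      ⟨fun h U oU e => A24.el_inj _ _ oU ok e ▸ bnot_iff.1 h, fun h => bnot_iff.2 (h T ok rfl)⟩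
  rw [cnt21] at c
  rw [card_eq_orbit_mul_inf H (some 1 : GolayPt)]
  refine Nat.mul_le_mul (show _ ≤ 24 from (Set.ncard_le_card _).trans_eq
    (Nat.card_eq_fintype_card.trans card_golayPt)) (show _ ≤ 68 from ?_)
  rw [← c, ← SetLike.coe_sort_coe, Nat.card_coe_set_eq]
  exact Set.ncard_le_ncard fun g hg => ⟨⟨h hg.1, hg.2⟩, fun T ok e t => h7 (t2_spec ha ok (e ▸ hg.1) t)⟩

theorem no_trans {H : Subgroup M24} (tr : ∀ y, y ∈ orbit H (none : GolayPt)) (hK : H ⊓ S23.K ≤ S22.K)
    (h7 : 7 ∣ Nat.card ↥(H ⊓ S23.K)) (h11 : 11 ∣ Nat.card ↥(H ⊓ S23.K)) : False := by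
  have ok : A24.ok 0xbad89b14c492a82740f17d5b340c20 := A24_ok (by decide +kernel)
  obtain ⟨k, hk, hu⟩ := sylow_le (p := 7) (n := 1) (m := 63360) (by norm_num) (Subgroup.zpowers_le.2
    ((S22.test_iff _ ok).1 (by decide +kernel))) hK (by
      rw [Nat.card_zpowers, A24.orderOf_prime ok (p := 7) (by norm_num) (by decide +kernel)]; rfl)
    S22.card_eq.symm (by norm_num) h7
  have fx : ∀ y : GolayPt, A24.el 0xbad89b14c492a82740f17d5b340c20 • y = y ↔
      y = none ∨ y = some 0 ∨ y = some 1 := fun y => by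
    rw [← gC.pt_idx y, A24_smul_pt ok (gC.idx_lt y)]
    revert y
    decide +kernel
  replace hu := hu (Subgroup.mem_zpowers _)
  generalize A24.el 0xbad89b14c492a82740f17d5b340c20 = u at hu fx
  have k1 : k • (none : GolayPt) = none := hk.1
  have k0 : k • (some 0 : GolayPt) = some 0 := hk.2
  have e0 : H ⊓ S23.K = H ⊓ stabilizer M24 (some 0 : GolayPt) := by
    refine Subgroup.eq_of_le_of_card_ge (le_inf inf_le_left fun g hg => (hK hg).2) ?_
    have a := card_eq_orbit_mul_inf H (none : GolayPt)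
    rw [card_eq_orbit_mul_inf H (some 0 : GolayPt), orbit_eq_iff.2 (tr (some 0))] at a
    exact (Nat.eq_of_mul_eq_mul_left ((Set.ncard_pos (Set.toFinite _)).2 ⟨_, tr none⟩) a).le
  obtain ⟨h, hh, e⟩ := mem_orbit_sub.1 (tr (k • some 1))
  have w : (k * u * k⁻¹) • h • (some 0 : GolayPt) = h • some 0 := by
    have : (h⁻¹ * (k * u * k⁻¹) * h) • (some 0 : GolayPt) = some 0 := (hK (⟨H.mul_mem (H.mul_mem (H.inv_mem hh) hu.1) hh, show _ • none = none by
      rw [mul_smul, mul_smul, e, mul_smul, mul_smul, inv_smul_smul, (fx _).2 (by simp), ← e,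
        inv_smul_smul]⟩ : h⁻¹ * (k * u * k⁻¹) * h ∈ H ⊓ S23.K)).2
    rwa [mul_smul, mul_smul, inv_smul_eq_iff] at this
  rw [mul_smul, mul_smul, ← eq_inv_smul_iff, fx, inv_smul_eq_iff, inv_smul_eq_iff, inv_smul_eq_iff, k1, k0,
    ← e, ← or_assoc] at w
  replace w := w.resolve_right fun e => absurd (MulAction.injective h e) (by decide)
  have le : cj k (H ⊓ S23.K) ≤ S21.K := fun g hg => by
    have a := hK hg
    have b : h⁻¹ * (k * g * k⁻¹) * h ∈ H ⊓ S23.K := e0.ge ⟨H.mul_mem (H.mul_mem (H.inv_mem hh) hg.1) hh,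
      show _ • some 0 = some 0 by
        rw [mul_smul, mul_smul, inv_smul_eq_iff]
        rcases w with w | w <;> rw [w]
        exacts [a.1, a.2]⟩
    refine ⟨(cj_stab k _).le (k1.symm ▸ a.1 :) |> fun x => ⟨x, (cj_stab k _).le (k0.symm ▸ a.2 :)⟩,
      (cj_stab k _).le ?_⟩
    have : (h⁻¹ * (k * g * k⁻¹) * h) • (none : GolayPt) = none := b.2
    rwa [mul_smul, mul_smul, inv_smul_eq_iff, e] at this
  have := h11.trans ((card_cj k _).symm.dvd.trans (Subgroup.card_dvd_of_le le))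
  rw [S21.card_eq] at this
  exact absurd this (by decide)

theorem card_dod {d : Finset GolayPt} (hd : d ∈ dodecads) : Nat.card (stabilizer M24 d) = 95040 := by
  obtain ⟨g, rfl⟩ := m24_dodecad d0_mem hd
  rw [← card_cj g, cj_stab]
  exact SD.card_eq

theorem m276 {H : Subgroup M24} (ha : A24.el a11 ∈ H) (hc : Nat.card H = 887040) :
    H ≤ stabilizer M24 (gC.set 0x800001) := by
  have oc := fun {N : Subgroup M24} (hN : A24.el a11 ∈ N) => orb_cases (gs := [a11])
    [(23, 0x800000), (0, 1), (1, 0x1b4726), (3, 0x64b8d8)] (by simp [ok_a]) (by decide +kernel)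
    (H := N) (by simpa using hN)
  have dc : ∀ m ∈ [(23, 0x800000), (0, 1), (1, 0x1b4726), (3, 0x64b8d8)].sublists.map un,
      none ∈ gC.set m ∨ some 0 ∈ gC.set m → isCW (m ^^^ 0x800001) = true ∨ isDod m = true ∨
        (∃ p ∈ [13, 23], p ∣ pop24 m) ∨ m = 2 ^ 23 ∨ m = 2 ^ 0 ∨ m = 2 ^ 24 - 1 := by decide +kernel
  have du : ∀ m, isCW (m ^^^ 0x800001) = true →
      stabilizer M24 (gC.set m) ≤ stabilizer M24 (gC.set 0x800001) := fun m h =>
    duad_le (gC.set_xor _ _ ▸ (isCW_iff.1 h).set_mem)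
  obtain ⟨m, hm, a1, a2, a3, a4⟩ := oc ha none
  rcases dc m hm (.inl a2) with h | h | ⟨p, hp, h⟩ | rfl | rfl | rfl
  · exact a3.trans (du m h)
  · have := Subgroup.card_le_of_le a3
    rw [card_dod (isDod_iff.1 h).2] at this
    omega
  · exact absurd (hc ▸ h.trans a4) (by clear h; revert p; decide)
  · have := Subgroup.card_dvd_of_le (a3.trans (stab_pt (by norm_num)).le)
    exact absurd (hc ▸ this.trans S23.card_eq.dvd) (by decide)
  · exact absurd a2 (by decide +kernel)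
  have c : Nat.card ↥(H ⊓ S23.K) = 36960 := by
    have := card_eq_orbit_mul_inf H (none : GolayPt)
    rw [a1, Set.ncard_coe_finset, card_gset, show pop24 (2 ^ 24 - 1) = 24 by decide +kernel] at this
    exact Nat.eq_of_mul_eq_mul_left (by norm_num : 0 < 24) (this.symm.trans hc)
  refine (no_trans (fun y => a1.ge (gC.set_ones.ge (Finset.mem_univ y))) ?_ (c ▸ by decide)
    (c ▸ by decide)).elim
  obtain ⟨n, hn, b1, b2, b3, b4⟩ := oc (N := H ⊓ S23.K) ⟨ha, (a_mem (Subgroup.mem_zpowers _)).1⟩ (some 0)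
  rcases dc n hn (.inr b2) with h | h | ⟨p, hp, h⟩ | rfl | rfl | rfl
  · refine fun g hg => ⟨hg.2, ?_⟩
    have k : g • some 0 ∈ gC.set 0x800001 := du n h (b3 hg) ▸ Finset.smul_mem_smul_finset (by decide +kernel)
    rw [show gC.set 0x800001 = {none, some 0} by decide +kernel, Finset.mem_insert, Finset.mem_singleton] at k
    exact k.resolve_left fun e => absurd (MulAction.injective g (e.trans (show g • none = none from hg.2).symm))
      (by decide)
  · have := Subgroup.card_dvd_of_le b3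
    rw [card_dod (isDod_iff.1 h).2, c] at this
    exact absurd this (by decide)
  · exact absurd (c ▸ h.trans b4) (by clear h; revert p; decide)
  · exact absurd b2 (by decide +kernel)
  · exact le_inf inf_le_right (b3.trans (stab_pt (by norm_num)).le)
  · exact absurd (by decide) (not_top inf_le_right (by simp) b1)

end Cfsg.Agent.H17.MIdx
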