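import Mathlib
import Cfsg.Agent.H17.MulD

/-!
The Schur multiplier of `³D₄(q)`, the field with two elements and the torus.
-/

set_option autoImplicit false
set_option linter.unusedSectionVars false
set_option maxRecDepth 100000

namespace Cfsg.Agent.H17

open Subgroup H12 H12.RGD H13 H13.D4 H19.St Cfsg.Lie
open scoped commutatorElement

universe u

namespace TD

variable {K : Type u} [Field K] [Finite K] (S : DD K)

/-- the elements of a class with three roots -/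
noncomputable abbrev y3 (a b c : Fin chevD4.nroots) (t : K) : S.G := o S (x3 S a b c t)

/-- the elements of a class with one root -/
noncomputable abbrev y1 (a : Fin chevD4.nroots) (t : K) : S.G := o S (x a t)

theorem tr_fix (t : K) : S.θ (t + S.θ t + S.θ (S.θ t)) = t + S.θ t + S.θ (S.θ t) := by
  simp only [map_add, S.hθ]; ring

section Two

variable (h2 : (2 : K) = 0) {a b c : Fin chevD4.nroots} {d : Fin chevG2.nroots}
include h2

section Three

variable (h : (Orth a b ∧ Orth a c ∧ Orth b c) ∧ (foldD4.ρ a = b ∧ foldD4.ρ b = c ∧ foldD4.ρ c = a) ∧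
  (rsOf chevG2).Pos d ∧ ∀ r, r ∈ [a, b, c] ↔ foldD4.π r = d)
include h

theorem y3_val (t : K) : (y3 S a b c t).1 = x3 S a b c t := o_val S ((mem3 S h2 h).2 ⟨t, rfl⟩)

theorem y3_iff (g : S.G) : g ∈ (Y S).U d ↔ ∃ t, g = y3 S a b c t :=
  (mem3 S h2 h).trans (exists_congr fun t => by rw [Subtype.ext_iff, y3_val S h2 h]; rfl)

theorem y3_add (s t : K) : y3 S a b c (s + t) = y3 S a b c s * y3 S a b c t :=
  Subtype.ext (by rw [coe_mul, y3_val S h2 h, y3_val S h2 h, y3_val S h2 h, x3_add S h.1])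

end Three

theorem y1_val (h : foldD4.ρ a = a ∧ (rsOf chevG2).Pos d ∧ ∀ r, r ∈ [a] ↔ foldD4.π r = d) {t : K}
    (ht : S.θ t = t) : (y1 S a t).1 = x a t := o_val S ((mem1 S h2 h).2 ⟨t, ht, rfl⟩)

theorem y1_iff (h : foldD4.ρ a = a ∧ (rsOf chevG2).Pos d ∧ ∀ r, r ∈ [a] ↔ foldD4.π r = d) (g : S.G) :
    g ∈ (Y S).U d ↔ ∃ t, S.θ t = t ∧ g = y1 S a t :=
  (mem1 S h2 h).trans (exists_congr fun t => and_congr_right fun ht => by
    rw [Subtype.ext_iff, y1_val S h2 h ht]; rfl)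

theorem lift_two {E : Type u} [Group E] {π : E →* S.G} (H : CX 2 π) [CharP K 2]
    (hF : ∀ t, S.θ t = t → t = 0 ∨ t = 1) (hθ : ∃ c, S.θ c ≠ c)
    (h5 : ∃ a b : K, a ≠ 0 ∧ b ≠ 0 ∧ 1 - a ^ 2 = b ^ 2 ∧ a ^ 2 * (1 - a ^ 2) - 1 ≠ 0) :
    ∃ L : Lift (Y S) π, ∀ r s, s ≠ r → s ≠ (rsOf chevG2).neg r → L.CM r s := by
  classical
  have hX : (Y S).CharP 2 := (twist_charP S.tw (chev_charP 2)).sub _
  have c7 : (Orth (D := chevD4) 18 13 ∧ Orth (D := chevD4) 18 12 ∧ Orth (D := chevD4) 13 12) ∧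
      (foldD4.ρ 18 = 13 ∧ foldD4.ρ 13 = 12 ∧ foldD4.ρ 12 = 18) ∧ (rsOf chevG2).Pos 7 ∧
      ∀ r, r ∈ [18, 13, 12] ↔ foldD4.π r = 7 := by decide +kernel
  have c8 : (Orth (D := chevD4) 19 16 ∧ Orth (D := chevD4) 19 15 ∧ Orth (D := chevD4) 16 15) ∧
      (foldD4.ρ 19 = 16 ∧ foldD4.ρ 16 = 15 ∧ foldD4.ρ 15 = 19) ∧ (rsOf chevG2).Pos 8 ∧
      ∀ r, r ∈ [19, 16, 15] ↔ foldD4.π r = 8 := by decide +kernel
  have c9 : (Orth (D := chevD4) 17 20 ∧ Orth (D := chevD4) 17 21 ∧ Orth (D := chevD4) 20 21) ∧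
      (foldD4.ρ 17 = 20 ∧ foldD4.ρ 20 = 21 ∧ foldD4.ρ 21 = 17) ∧ (rsOf chevG2).Pos 9 ∧
      ∀ r, r ∈ [17, 20, 21] ↔ foldD4.π r = 9 := by decide +kernel
  have c6 : foldD4.ρ 14 = 14 ∧ (rsOf chevG2).Pos 6 ∧ ∀ r, r ∈ [14] ↔ foldD4.π r = 6 := by
    decide +kernel
  have c10 : foldD4.ρ 22 = 22 ∧ (rsOf chevG2).Pos 10 ∧ ∀ r, r ∈ [22] ↔ foldD4.π r = 10 := by
    decide +kernel
  have c11 : foldD4.ρ 23 = 23 ∧ (rsOf chevG2).Pos 11 ∧ ∀ r, r ∈ [23] ↔ foldD4.π r = 11 := by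
    decide +kernel
  have v7 := y3_val S h2 c7
  have v8 := y3_val S h2 c8
  have v9 := y3_val S h2 c9
  have m7 := fun t => (y3_iff S h2 c7 _).2 ⟨t, rfl⟩
  have m8 := fun t => (y3_iff S h2 c8 _).2 ⟨t, rfl⟩
  have m9 := fun t => (y3_iff S h2 c9 _).2 ⟨t, rfl⟩
  have m6 := fun {t} ht => (y1_iff S h2 c6 _).2 ⟨t, ht, rfl⟩
  have m10 := fun {t} ht => (y1_iff S h2 c10 _).2 ⟨t, ht, rfl⟩
  have m11 := fun {t} ht => (y1_iff S h2 c11 _).2 ⟨t, ht, rfl⟩
  have kl := kill_ls S hθ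
  have ls : ∀ r s : Fin chevG2.nroots, (rlen chevG2 r ≠ 1 ∧ rlen chevG2 s = 1) ∧
      (s ≠ r ∧ s ≠ (rsOf chevG2).neg r) ∧ dt r s ≠ 0 ∧ (∀ v, ¬ Iv r s v) → LC (Y S) π r s :=
    fun r s h => H.lc_of_kill (kl r s h.1.1 h.1.2) (comm_of S h.2)
  have l7 := lc7 S H h5
  have l8 : LC (Y S) π 8 8 := lc_smul S H l7 [1] (by decide +kernel)
  have l9 : LC (Y S) π 9 9 := lc_smul S H l7 [0, 1] (by decide +kernel)
  have l11 := lc11 S H
  have l10 : LC (Y S) π 10 10 := lc_smul S H l11 [1] (by decide +kernel)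
  have g89 : ∀ t u, y3 S 19 16 15 t * y3 S 17 20 21 u * (y3 S 19 16 15 t)⁻¹ * (y3 S 17 20 21 u)⁻¹ =
      y1 S 23 (t * u + S.θ (t * u) + S.θ (S.θ (t * u))) := fun t u => Subtype.ext (by
    simp only [coe_mul, coe_inv, v8, v9, y1_val S h2 c11 (tr_fix S _), f89 S h2]; group)
  have tr1 : ∀ s, S.θ s = s → s + S.θ s + S.θ (S.θ s) = s := fun s hs => by
    rw [hs, hs]; linear_combination s * h2
  have l6 : LC (Y S) π 6 11 := H.lc fun u hu v hv => by
    obtain ⟨s, hs, rfl⟩ := (y1_iff S h2 c11 v).1 hv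
    rw [← tr1 s hs, ← one_mul s, ← g89]
    exact H.cm_mem_K (comm_of S (by decide +kernel) _ hu _ (m8 _))
      (comm_of S (by decide +kernel) _ hu _ (m9 _))
  have l10' : LC (Y S) π 10 11 := lc_smul S H l6 [0] (by decide +kernel)
  have k8 : ∀ t u w, y3 S 19 16 15 w ∈ H.K (y3 S 19 16 15 t * y3 S 17 20 21 u *
      (y3 S 19 16 15 t)⁻¹ * (y3 S 17 20 21 u)⁻¹) := fun t u w =>
    g89 t u ▸ H.of_lc (ls 11 8 (by decide +kernel)) (m11 (tr_fix S _)) (m8 w)
  have k9 : ∀ t u w, y3 S 17 20 21 w ∈ H.K (y3 S 19 16 15 t * y3 S 17 20 21 u *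
      (y3 S 19 16 15 t)⁻¹ * (y3 S 17 20 21 u)⁻¹) := fun t u w =>
    g89 t u ▸ H.of_lc (ls 11 9 (by decide +kernel)) (m11 (tr_fix S _)) (m9 w)
  have nrm : ∀ d : Kˣ, S.θ d * S.θ (S.θ d) = (d : K)⁻¹ := fun d =>
    eq_inv_of_mul_eq_one_right ((hF (d * (S.θ d * S.θ (S.θ d))) (by
      simp only [map_mul, S.hθ]; ring)).resolve_left (by simp))
  have cj : ∀ {a b c : Fin chevD4.nroots} (v : ∀ t, (y3 S a b c t).1 = x3 S a b c t) (d : Kˣ)
      {i j : ℤ} (h : ∃ m m' m'', (chevD4.cartan 0 a, chevD4.cartan 1 a, chevD4.cartan 2 a,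
        chevD4.cartan 3 a) = (i, m, j, j) ∧ (chevD4.cartan 0 b, chevD4.cartan 1 b, chevD4.cartan 2 b,
        chevD4.cartan 3 b) = (j, m', i, j) ∧ (chevD4.cartan 0 c, chevD4.cartan 1 c,
        chevD4.cartan 2 c, chevD4.cartan 3 c) = (j, m'', j, i)) (t : K),
      o S (HH chevD4 K (S.hc d 1)) * y3 S a b c t * (o S (HH chevD4 K (S.hc d 1)))⁻¹ =
        y3 S a b c ((d : K) ^ (i - j) • t) := fun v d i j h t => Subtype.ext (by
    rw [coe_mul, coe_mul, coe_inv, ho_val, v, v, x3_conj S d h, mul_assoc (_ ^ i), ← mul_zpow, nrm,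
      zpow_sub₀ d.ne_zero, inv_zpow, div_eq_mul_inv, smul_eq_mul])
  have j7 := fun d => cj v7 d (i := 2) (j := 0) ⟨-1, -1, -1, by decide +kernel⟩
  have j8 := fun d => cj v8 d (i := 1) (j := -1) ⟨1, 1, 1, by decide +kernel⟩
  have j9 := fun d => cj v9 d (i := -1) (j := 1) ⟨0, 0, 0, by decide +kernel⟩
  -- the commutator map on the adjacent short pair
  let f u := H.c (y3 S 19 16 15 1) (y3 S 17 20 21 u)
  have fa : ∀ u w, f (u + w) = f u * f w := fun u w => by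
    simp only [f, y3_add S h2 c9]; exact H.c_mul_of_K _ (k9 _ _ _)
  have f0 : f 0 = 1 := by simpa using fa 0 0
  have fβ : ∀ t u, H.c (y3 S 19 16 15 t) (y3 S 17 20 21 u) = f (t * u) := fun t u => by
    by_cases ht : t = 0
    · have e : y3 S 19 16 15 0 = 1 := by simpa using y3_add S h2 c8 0 0
      rw [ht, e, H.one_c, zero_mul, f0]
    obtain ⟨a, rfl⟩ := (frobeniusEquiv K 2).surjective t
    have a0 : a ≠ 0 := by simpa using ht
    have := CX.conj_c (h := H) (g := y3 S 19 16 15 1) (g' := y3 S 17 20 21 (a ^ 2 * u))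
      (H.T_mem_K hX (ho_mem S (Units.mk0 a a0)) (Subtype.ext (by
        rw [g89, coe_mul, coe_mul, ho_val]
        exact (HH_comm S.tw (r := 11) (fun c hc => Units.ext ((chi S _ _ c (e := (0, 1, 0, 0)) (by
          revert c; decide +kernel)).trans (by simp))) _ (m11 (tr_fix S _))).symm)))
    rw [j8, j9] at this
    simpa [f, frobenius_def, zpow_ofNat, a0] using this
  have f1 : ∀ w, w + S.θ w + S.θ (S.θ w) = 0 → f w = 1 := fun w hw => by
    have e : ∀ t, y3 S 18 13 12 1 * y3 S 19 16 15 t * (y3 S 18 13 12 1)⁻¹ =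
        y3 S 19 16 15 t * y3 S 17 20 21 (S.θ t + S.θ (S.θ t)) * (y1 S 22 (t + S.θ t + S.θ (S.θ t)) *
          y1 S 23 (t * S.θ t + t * S.θ (S.θ t) + S.θ t * S.θ (S.θ t))) := fun t => Subtype.ext (by
      rw [coe_mul, coe_mul, coe_mul, coe_mul, coe_mul, coe_inv, v7, v8, v9, f78 S h2,
        y1_val S h2 c10 (tr_fix S _), y1_val S h2 c11 (by simp only [map_add, map_mul, S.hθ]; ring),
        mul_inv_cancel_right])
    have b : ∀ t, y1 S 23 (t * S.θ t + t * S.θ (S.θ t) + S.θ t * S.θ (S.θ t)) ∈ (Y S).U 11 :=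
      fun t => m11 (by simp only [map_add, map_mul, S.hθ]; ring)
    have k : ∀ {r} {g : S.G}, g ∈ (Y S).U r → LC (Y S) π 10 r → LC (Y S) π 11 r → ∀ t,
        y1 S 22 (t + S.θ t + S.θ (S.θ t)) * y1 S 23 (t * S.θ t + t * S.θ (S.θ t) +
          S.θ t * S.θ (S.θ t)) ∈ H.K g := fun hg a1 a2 t =>
      mul_mem (H.of_lc a1.symm hg (m10 (tr_fix S _))) (H.of_lc a2.symm hg (b t))
    have k8' := fun t => k (m8 t) (ls 10 8 (by decide +kernel)) (ls 11 8 (by decide +kernel))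
    have k9' := fun t => k (m9 t) (ls 10 9 (by decide +kernel)) (ls 11 9 (by decide +kernel))
    have := H.mem_K.1 (CX.K_conj (H.of_lc l8 (m8 1) (m8 w)) (y3 S 18 13 12 1))
    rw [e, e, H.c_mul_K _ (CX.K_symm (mul_mem (mul_mem (CX.K_symm (k8' _ _)) (CX.K_symm (k9' _ _)))
      (CX.K_symm (mul_mem (CX.K_symm (k (m10 (tr_fix S _)) l10 l10'.symm _))
        (CX.K_symm (k (b _) l10' l11 _)))))), H.c_symm, inv_eq_one,
      H.c_mul_K _ (CX.K_symm (mul_mem (CX.K_symm (k8' _ _)) (CX.K_symm (k9' _ _)))), map_one, map_one,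
      one_add_one_eq_two, h2, show y3 S 17 20 21 0 = 1 by simpa using y3_add S h2 c9 0 0, mul_one,
      H.c_symm, inv_eq_one, H.c_mul_of_K _ (k8 _ _ _), H.mem_K.1 (H.of_lc l8 (m8 1) (m8 w)), one_mul,
      show S.θ w + S.θ (S.θ w) = w by linear_combination hw - w * h2] at this
    exact this
  have fz : ∀ w, f w ∈ zpowers (f 1) := fun w => by
    rcases hF _ (tr_fix S w) with e | e
    · rw [f1 w e]; exact one_mem _
    · rw [show w = (w + 1) + 1 by linear_combination -h2, fa, f1 (w + 1) (by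
        simp only [map_add, map_one]; linear_combination e + 2 * h2), one_mul]
      exact mem_zpowers _
  have a89 : ⁅((Y S).U 8).comap π, ((Y S).U 9).comap π⁆ ≤ zpowers (f 1) :=
    commutator_le.2 fun a ha b hb => by
      obtain ⟨t, e⟩ := (y3_iff S h2 c8 _).1 ha
      obtain ⟨u, e'⟩ := (y3_iff S h2 c9 _).1 hb
      rw [commutatorElement_def, ← H.c_eq e e', fβ]; exact fz _
  have a610 : ⁅((Y S).U 6).comap π, ((Y S).U 10).comap π⁆ ≤ zpowers (f 1) :=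
    commutator_le.2 fun a ha b hb => by
      obtain ⟨t, ht, e⟩ := (y1_iff S h2 c6 _).1 ha
      obtain ⟨u, hu, e'⟩ := (y1_iff S h2 c10 _).1 hb
      rw [commutatorElement_def, ← H.c_eq e e']
      rcases hF t ht with rfl | rfl
      · rw [show y1 S 14 0 = 1 from Subtype.ext (by rw [y1_val S h2 c6 ht]; exact StSys.x_zero _ _),
          H.one_c]
        exact one_mem _
      have k : y3 S 17 20 21 1 * y1 S 22 1 ∈ H.K (y3 S 17 20 21 u) := mul_mem
        (H.of_lc l9 (m9 _) (m9 _)) (H.of_lc (ls 10 9 (by decide +kernel)).symm (m9 _) (m10 ht))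
      have e1 : H.c (y3 S 19 16 15 1 * (y3 S 17 20 21 1 * y1 S 22 1)) (y3 S 17 20 21 u) = f u := by
        rw [H.c_symm, H.c_mul_K _ k, ← H.c_symm]
      rw [show y1 S 22 u = y3 S 18 13 12 1 * y3 S 17 20 21 u * (y3 S 18 13 12 1)⁻¹ *
        (y3 S 17 20 21 u)⁻¹ from Subtype.ext (by
          simp only [coe_mul, coe_inv, v7, v9, y1_val S h2 c10 hu, f79 S h2, tr1 u hu]; group),
        H.c_cm (m := y3 S 19 16 15 1 * (y3 S 17 20 21 1 * y1 S 22 1))
          (comm_of S (by decide +kernel) _ (m6 ht) _ (m9 _)) (Subtype.ext (by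
            simp only [coe_mul, coe_inv, v7, v8, v9, y1_val S h2 c10 ht, y1_val S h2 c6 ht, f67 S h2]
            group)) (by
          rw [← H.map_c, e1, H.map_c, g89]
          exact H.of_lc (ls 11 7 (by decide +kernel)) (m11 (tr_fix S _)) (m7 _)), e1]
      exact fz _
  have i11 : IsLift (Y S) π (Vc (Y S) π 11) 11 := by
    refine isLift_of_zpowers Nat.prime_two (y := f 1) (iSup₂_le fun q hq => ?_)
      (by rw [sq, ← fa, one_add_one_eq_two, h2, f0]) (fun g hg => ?_) fun e => ?_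
    · rcases dec11 hq with rfl | rfl | rfl | rfl
      exacts [a89, (commutator_comm _ _).trans_le a89, a610, (commutator_comm _ _).trans_le a610]
    · obtain ⟨s, hs, rfl⟩ := (y1_iff S h2 c11 g).1 hg
      obtain ⟨a, ha⟩ := H.surj (y3 S 19 16 15 1)
      obtain ⟨b, hb⟩ := H.surj (y3 S 17 20 21 s)
      refine ⟨⁅a, b⁆, le_iSup₂_of_le (f := fun (q : _ × _) (_ : q ∈ (rsOf chevG2).Dec 11) =>
        ⁅((Y S).U q.1).comap π, ((Y S).U q.2).comap π⁆) (8, 9) (mem_dec (by decide +kernel)) le_rfl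
        (commutator_mem_commutator (by rw [mem_comap, ha]; exact m8 _)
          (by rw [mem_comap, hb]; exact m9 _)), ?_⟩
      rw [map_commutatorElement, ha, hb, commutatorElement_def, g89, one_mul, tr1 s hs]
    · have := m11 (map_one S.θ)
      rw [e, mem_bot, Subtype.ext_iff, y1_val S h2 c11 (map_one _)] at this
      exact one_ne_zero ((StSys.x_eq_one_iff chevNC chevNM).1 this)
  let L : Lift (Y S) π := Lift.mk' H.surj H.cent _ (eqv_Vt.ite eqv_Vc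
    (P := fun r : Fin chevG2.nroots => rlen chevG2 r = 1) fun i r => by rw [rsOf_sref, rlen_refl i.2 r.2]) (fun r => by
      split_ifs; exacts [Vt_le r, Vc_le r]) fun i => by
    rcases simple_cases i with e | e <;> rw [e]
    · rw [if_pos (by decide +kernel)]
      exact H.isLift_Vt hX l7 (kl 6 7 (by decide +kernel) (by decide +kernel))
    · rw [if_neg (by decide +kernel)]
      have := isLift_smul H.surj H.cent eqv_Vc i11 (wprod (rsOf chevG2).s [0, 1])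
      rwa [wprod_smul, show List.foldr (rsOf chevG2).sref 11 [0, 1] = 6 by decide +kernel] at this
  obtain ⟨a, b, a0, b0, e, h⟩ := h5
  simp only [show (2 : ℤ) - 0 = (2 : ℕ) from rfl, show (1 : ℤ) - -1 = (2 : ℕ) from rfl,
    zpow_natCast] at j7 j8
  refine ⟨L, fun r s => cm_of_ok' (reps (fun r s hr hs => ⟨Lift.ok_of_kill (kl r s hr hs),
    (Lift.ok_of_kill (kl r s hr hs)).symm⟩) (ok_of_five L (y3_add S h2 c7) (y3_add S h2 c8)
      (y3_iff S h2 c7) (y3_iff S h2 c8) h (ho_mem S (Units.mk0 a a0)) (ho_mem S (Units.mk0 b b0))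
      (j7 _) (j8 _) (by rw [e]; exact j7 _) (by rw [e]; exact j8 _))
    (L.cm_of_dec (r := 10) (p := (7, 9)) (mem_dec (by decide +kernel)) (if_neg (by decide +kernel)).ge).ok
    (L.cm_of_dec (r := 11) (p := (6, 10)) (mem_dec (by decide +kernel))
      (if_neg (by decide +kernel)).ge).ok (Lift.cm_of_lc l6).ok)⟩

end Two

theorem mb (hθ : ∃ c, S.θ c ≠ c)
    (h5 : ∃ a b : K, a ≠ 0 ∧ b ≠ 0 ∧ 1 - a ^ 2 = b ^ 2 ∧ a ^ 2 * (1 - a ^ 2) - 1 ≠ 0)
    (h : (∃ c : K, c ≠ 0 ∧ c * S.θ c * S.θ (S.θ c) ≠ 1) ∨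
      (2 : K) = 0 ∧ ∀ t, S.θ t = t → t = 0 ∨ t = 1) : MB S.G 1 := by
  obtain ⟨p, _⟩ := CharP.exists K
  have hp := CharP.char_is_prime K p
  haveI := Fact.mk hp
  have hX : (Y S).CharP p := (twist_charP S.tw (chev_charP p)).sub _
  refine mb_of hp (pt_of_lift hX (sub_grp_eq_top _ S.X_grp.ge) fun E _ _ π H => ?_)
    fun E _ _ π hπ hc => ?_
  · rcases h with ⟨c, c0, c1⟩ | ⟨h2, hF⟩
    · exact lift_big S H hθ h5 c0 c1
    · obtain rfl : p = 2 := (Nat.prime_dvd_prime_iff_eq hp Nat.prime_two).1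
        ((CharP.cast_eq_zero_iff K p 2).1 (by exact_mod_cast h2))
      exact lift_two S h2 H hF hθ h5
  obtain ⟨L, hL, -, h⟩ := exists_lift_prod hX (by rw [sub_US, ← S.G_eq_US, subgroupOf_self]) hπ hc
  have n : ((rsOf chevD4).neg 18 = 5 ∧ (rsOf chevD4).neg 13 = 10 ∧ (rsOf chevD4).neg 12 = 11 ∧
      (rsOf chevD4).neg 14 = 9) ∧ (rsOf chevG2).simple 0 = 7 ∧ (rsOf chevG2).simple 1 = 6 ∧
      (rsOf chevG2).neg 7 = 4 ∧ (rsOf chevG2).neg 6 = 5 := by decide +kernel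
  obtain ⟨r0, e0⟩ := r1_sub (X := S.X) S.tw.rgd_grp.le (i := 0) (rel_three o1 o2 o3 S.θ).1
    (fun _ => by rw [n.2.1]; exact S.mem_U7)
    fun t => by rw [n.2.1, n.2.2.2.1, n.1.1, n.1.2.1, n.1.2.2.1]; exact S.um_mem t
  obtain ⟨r1, e1⟩ := r1_sub (X := S.X) S.tw.rgd_grp.le (i := 1)
    (rel_comp (chevNC.rel 14) (S.θ.eqLocusField (RingHom.id K)).subtype)
    (fun _ => by
      rw [n.2.2.1]
      exact S.mem_U6.trans ⟨fun ⟨t, ht, e⟩ => ⟨⟨t, ht⟩, e⟩, fun ⟨t, e⟩ => ⟨t, t.2, e⟩⟩)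
    fun t => by rw [n.2.2.1, n.2.2.2.2, n.1.2.2.2]; exact S.x9_mem t.2
  obtain ⟨η0, a0, b0, c0⟩ := r0.exists_lift L hL
  obtain ⟨η1, a1, b1, c1⟩ := r1.exists_lift L hL
  refine (card_eq_one.2 (eq_bot_iff.2 fun z hz => ?_)).le
  obtain ⟨f, hf, rfl⟩ := h [1, 0] (by decide) (by decide) z hz
  obtain ⟨s, s0, es⟩ := c0 _ (hf 0)
  obtain ⟨t, t0, et⟩ := c1 _ (hf 1)
  have t0' : (t : K) ≠ 0 := fun e => t0 (Subtype.ext e)
  simp only [List.map_cons, List.map_nil, List.prod_cons, List.prod_nil, mul_one, es, et] at hz ⊢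
  rw [MonoidHom.mem_ker, map_mul, b0, b1, Subtype.ext_iff, coe_mul, e0, e1, (rel_three o1 o2 o3 S.θ).2,
    hh_comp, StSys.hh_eq] at hz
  obtain ⟨h0, h1, -, h3⟩ := mem_ker (mem_ker_of_HH
    ((S.HH_hc (Units.mk0 s s0) (Units.mk0 t t0')).trans hz))
  have h0' : s ^ 2 = 1 := congrArg Units.val h0
  have h3' : S.θ (S.θ s) = s * S.θ s := congrArg Units.val h3
  have h4 : S.θ s = s := by rcases sq_eq_one_iff.1 h0' with h | h <;> simp [h]
  rw [h4, h4, ← sq, h0'] at h3'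
  rw [h3', show t = 1 from Subtype.ext (congrArg Units.val h1), a0, a1, mul_one]
  exact one_mem _

end TD

theorem mb_D4 {K : Type u} [Field K] [Fintype K] {q : ℕ} (hq : IsPrimePow q)
    (hK : Fintype.card K = q ^ 3) : MB (twistedD4 K q) 1 := by
  obtain ⟨S, he, e, hK'⟩ := exists_DD hq hK
  have h2 := hq.two_le
  have hF := card_fixed h2 hK'
  rw [e]
  refine TD.mb S ?_ (exists_five_sq ?_ ?_ ?_) ?_
  · by_contra! h
    rw [Nat.card_congr (Equiv.subtypeUnivEquiv fun t => (he t).symm.trans (h t)), hK'] at hF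
    nlinarith [Nat.pow_le_pow_left h2 2]
  · rw [hK]; exact fun h => by simpa using h.eq_one_of_pow
  · rw [hK]; intro h
    have : q < 2 := lt_of_pow_lt_pow_left₀ 3 (by norm_num) (by omega)
    omega
  · rw [hK]; intro h
    have : q < 3 := lt_of_pow_lt_pow_left₀ 3 (by norm_num) (by omega)
    interval_cases q; omega
  rcases h2.eq_or_lt with rfl | h2
  · have : CharP K 2 := charP_of_card_pow hK
    refine .inr ⟨CharTwo.two_eq_zero, fun t ht => ?_⟩
    rw [he, sq] at ht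
    exact (eq_or_ne t 0).imp_right fun t0 => mul_left_cancel₀ t0 (ht.trans (mul_one t).symm)
  · obtain ⟨c, c0, hc⟩ := exists_pow_ne_one_of_card (K := K) (n := 1 + q + q * q) (by omega)
      ⟨Finset.univ, by rw [Finset.card_univ, hK]; nlinarith [Nat.mul_le_mul h2 h2]⟩
    exact .inl ⟨c, c0, by rwa [he, he, ← pow_mul, ← pow_succ', ← pow_add, add_comm q]⟩

end Cfsg.Agent.H17
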