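import Mathlib
import Cfsg.Agent.H17.MulW
import Cfsg.Agent.H13.E6Str
import Cfsg.Agent.H12.Univ
import Cfsg.Agent.H12.Orders

/-!
The Schur multiplier of `²E₆(q)`.
-/

set_option autoImplicit false
set_option linter.unusedSectionVars false
set_option maxRecDepth 100000

namespace Cfsg.Agent.H17

open Subgroup H12 H12.RGD H13 H13.E6 H19.St Cfsg.Lie
open scoped commutatorElement

universe u

theorem hh_mem_comm {G K : Type*} [Group G] [Field K] {x y : K → G} (h : Rel x y) {H : Subgroup G}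
    (hx : ∀ t, x t ∈ H) (hy : ∀ t, y t ∈ H) {l : K} (l0 : l ≠ 0) (hl : l ^ 2 ≠ 1) (t : K) :
    hh x y t ∈ ⁅H, H⁆ := by
  have k : ∀ M : Subgroup G, (∀ t, x t ∈ M) → (∀ t, y t ∈ M) → ∀ t, hh x y t ∈ M := fun M hx hy t =>
    mul_mem (mul_mem (mul_mem (hx _) (hy _)) (hx _)) (inv_mem (mul_mem (mul_mem (hx _) (hy _)) (hx _)))
  have a := sub_ne_zero.2 hl
  refine k _ (fun t => ?_) (fun t => ?_) t
  · have := commutator_mem_commutator (k H hx hy l) (hx (t / (l ^ 2 - 1)))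
    rwa [commutatorElement_def, h.h_x l0, mul_inv_cancel_right, ← h.x_neg, ← h.x_add,
      show l ^ 2 * (t / (l ^ 2 - 1)) + -(t / (l ^ 2 - 1)) = t by field_simp; ring] at this
  · have := commutator_mem_commutator (k H hx hy l) (hy (-t * l ^ 2 / (l ^ 2 - 1)))
    rwa [commutatorElement_def, h.h_y l0, mul_inv_cancel_right, ← h.y_neg, ← h.y_add,
      show -t * l ^ 2 / (l ^ 2 - 1) / l ^ 2 + -(-t * l ^ 2 / (l ^ 2 - 1)) = t by field_simp; ring] at this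

theorem h_two_mem {D : ChevalleyDatum} [Good D] {K G : Type*} [Field K] [Group G]
    (S : StSys (cdOf D) K G) {a b : Fin D.nroots} (h : Orth a b) (θ : K →+* K) {H : Subgroup G}
    (hx : ∀ t, S.x a t * S.x b (θ t) ∈ H)
    (hy : ∀ t, S.x ((rsOf D).neg a) t * S.x ((rsOf D).neg b) (θ t) ∈ H) {l : K} (l0 : l ≠ 0)
    (hl : l ^ 2 ≠ 1) (t : K) : S.h a t * S.h b (θ t) ∈ ⁅H, H⁆ := by
  have k : ∀ {r s : Fin D.nroots}, (s ≠ r ∧ s ≠ (rsOf D).neg r ∧ D.commTerms r s = []) → ∀ t u,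
      Commute (S.x r t) (S.x s (θ u)) := fun h t u =>
    S.commute_of_terms h.1 h.2.1 (by simp [cdOf, h.2.2]) t _
  have := hh_mem_comm (rel_mul ((chev_nc S).rel a) (rel_comp ((chev_nc S).rel b) θ) (k h.1) (k h.2.1)
    (k h.2.2.1) (k h.2.2.2)) hx hy l0 hl t
  rwa [hh_mul (k h.1) (k h.2.1) (k h.2.2.1) (k h.2.2.2), hh_comp, StSys.hh_eq, StSys.hh_eq] at this

namespace TE

variable {K : Type u} [Field K] [Finite K] (S : ED K)

/-- the root group datum on the group -/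
noncomputable abbrev Y : RGD (rsOf chevF4) S.G := twY S.tw

/-- exponents of a character on a torus element -/
def ee (γ a : Fin chevE6.nroots) : ℤ × ℤ :=
  (∑ i, (rsOf chevE6).α γ i * chevE6.cartan i a, ∑ i, (rsOf chevE6).α γ (foldE6.τ i) * chevE6.cartan i a)

/-- a torus element separating two roots -/
def KO (γ : Fin chevE6.nroots) (r s : Fin chevF4.nroots) : Prop :=
  ∀ a, (foldE6.π a = r → ee γ a = (0, 0)) ∧
    (foldE6.π a = s → ee γ a ∈ [(1, 1), (-1, -1), (1, 0), (0, 1), (-1, 0), (0, -1)])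

instance instDecKO (γ : Fin chevE6.nroots) (r s : Fin chevF4.nroots) : Decidable (KO γ r s) := by
  unfold KO; infer_instance

theorem ko1 : ∀ i s, s ≠ (rsOf chevF4).simple i → s ≠ (rsOf chevF4).neg ((rsOf chevF4).simple i) →
    ∃ γ ∈ [0, 1, 2, 3, 4, 8], KO γ ((rsOf chevF4).simple i) s := by decide +kernel

theorem ko2 : ∀ i, ∃ γ ∈ [8, 9], KO γ 1 ((rsOf chevF4).simple i) := by decide +kernel

theorem kill {t : Kˣ} (ht : (t : K) * S.θ t ≠ 1) {γ : Fin chevE6.nroots} {r s : Fin chevF4.nroots}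
    (h : KO γ r s) : (Y S).Kill r s := by
  let u := Units.map S.θ.toMonoidHom t
  have e : ∀ a : Fin chevE6.nroots, ∏ i : Fin chevE6.rank, (t ^ (rsOf chevE6).α γ i *
      u ^ (rsOf chevE6).α γ (foldE6.τ i)) ^ chevE6.cartan i a = t ^ (ee γ a).1 * u ^ (ee γ a).2 :=
    fun a => by simp only [mul_zpow, ← zpow_mul, Finset.prod_mul_distrib, prod_zpow_sum, ee]
  have t1 : t ≠ 1 := by rintro rfl; simp at ht
  have u1 : u ≠ 1 := fun e => t1 (Units.map_injective S.θ.injective (e.trans (map_one _).symm))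
  have tu : t * u ≠ 1 := fun e => ht (congrArg Units.val e)
  refine kill_HH S.tw (c := fun i => t ^ (rsOf chevE6).α γ i * u ^ (rsOf chevE6).α γ (foldE6.τ i))
    (HH_mem_T S.A τ_τ τ_τ S.nontriv ((mem_eqLocus_Sc _ _).2 fun j => ?_))
    (fun a ha => by rw [e, (h a).1 ha]; simp) fun a ha => ?_
  · simp [S.φ, τ_τ, u, S.hθ, mul_comm]
  · have := (h a).2 ha
    simp only [List.mem_cons, List.not_mem_nil, or_false] at this
    rw [e]
    rcases this with h | h | h | h | h | h <;> rw [h] <;>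
      simp [t1, u1, tu, ← mul_inv, -mul_inv_rev]

/-- elements of the group -/
noncomputable abbrev o (g : GL chevE6.Idx K) : S.G := subo S.G g

theorem o_val {r : Fin chevF4.nroots} {g : GL chevE6.Idx K} (h : g ∈ S.X.U r) : (o S g).1 = g :=
  subo_val (S.X_grp.le (U_le_grp _ h))

theorem chi (a b c d : Kˣ) (r : Fin chevE6.nroots) {e : Fin 6 → ℤ}
    (h : ∀ i : Fin 6, chevE6.cartan i r = e i) :
    ((∏ i : Fin chevE6.rank, S.hc a b c d i ^ chevE6.cartan i r : Kˣ) : K) =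
      a ^ e 0 * d ^ e 1 * b ^ e 2 * c ^ e 3 * S.θ b ^ e 4 * S.θ a ^ e 5 := by
  rw [show ∏ i : Fin chevE6.rank, S.hc a b c d i ^ chevE6.cartan i r = ∏ i : Fin 6,
    S.hc a b c d i ^ e i from Finset.prod_congr rfl fun i _ => by rw [h i], Fin.prod_univ_six]
  simp only [Units.val_mul, Units.val_zpow_eq_zpow_val]
  rfl

variable {E : Type u} [Group E] {p : ℕ} {π : E →* S.G} (H : CX p π)
include H

theorem lc33 (h5 : ∃ s : Finset K, 4 < s.card) : LC (Y S) π 33 33 := by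
  obtain ⟨v, v0, v1, h⟩ := exists_five h5
  have vl := fun t => o_val S (S.mem_U33.2 ⟨t, rfl⟩)
  have ad : ∀ s t, o S (S.up 56 36 (s + t)) = o S (S.up 56 36 s) * o S (S.up 56 36 t) :=
    fun s t => Subtype.ext (by rw [coe_mul, vl, vl, vl]; exact (rel_two o1 S.θ).1.x_add s t)
  have cj : ∀ (d : Kˣ) t, o S (HH chevE6 K (S.hc 1 d⁻¹ 1 1)) * o S (S.up 56 36 t) *
      (o S (HH chevE6 K (S.hc 1 d⁻¹ 1 1)))⁻¹ = o S (S.up 56 36 ((d : K) • t)) := fun d t =>
    Subtype.ext (by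
      rw [coe_mul, coe_mul, coe_inv, vl, vl, subo_val (S.X_grp.le (T_le_grp
        (S.mem_T.2 ⟨_, _, _, _, map_one _, map_one _, rfl⟩))), ED.up, ← conj_mul, HH_conj_x, HH_conj_x,
        chi S _ _ _ _ _ (e := ![2, 0, -1, 0, 0, 0]) (by decide +kernel),
        chi S _ _ _ _ _ (e := ![0, 0, 0, 0, -1, 2]) (by decide +kernel)]
      simp [ED.up])
  have m : ∀ g, g ∈ (Y S).U 33 → ∃ t, g = o S (S.up 56 36 t) := fun g hg =>
    (S.mem_U33.1 hg).imp fun t e => Subtype.ext (e.trans (vl t).symm)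
  refine H.lc fun u hu w hw => ?_
  obtain ⟨s, rfl⟩ := m u hu
  obtain ⟨t, rfl⟩ := m w hw
  exact H.five_K ad ad (fun s t => by rw [← ad, ← ad, add_comm]) h (cj (Units.mk0 v v0))
    (cj (Units.mk0 v v0)) (cj (Units.mk0 _ v1)) (cj (Units.mk0 _ v1)) s t

theorem lc25 : LC (Y S) π 25 25 := by
  refine H.lc fun u hu w hw => ?_
  obtain ⟨s, hs, e⟩ := S.mem_U25.1 hu
  obtain ⟨t, ht, e'⟩ := S.mem_U25.1 hw
  have g : ∀ {r} {g : GL chevE6.Idx K}, g ∈ S.X.U r → g ∈ S.G := fun h => S.X_grp.le (U_le_grp _ h)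
  have a := g (S.mem23 (map_one _))
  have b : x 47 t ∈ S.G := by
    have := x_comm_one (D := chevE6) (r := 46) (s := 39) (k := 47) (e := -1) (by decide +kernel) 1 t
    rw [show -(((-1 : ℤ) : K) * 1 * t) = t by simp] at this
    have b1 := g (S.mem_U24.2 ⟨1, map_one _, rfl⟩)
    have b2 := g (S.mem_U25.2 ⟨t, ht, rfl⟩)
    rw [x, ← this]
    exact mul_mem (mul_mem (mul_mem (inv_mem b2) (inv_mem b1)) b2) b1
  have := x_comm_one (D := chevE6) (r := 25) (s := 47) (k := 39) (e := -1) (by decide +kernel) 1 t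
  rw [show -(((-1 : ℤ) : K) * 1 * t) = t by simp] at this
  rw [show w = (⟨_, b⟩ : S.G)⁻¹ * (⟨_, a⟩ : S.G)⁻¹ * (⟨_, b⟩ : S.G)⁻¹⁻¹ * (⟨_, a⟩ : S.G)⁻¹⁻¹ from
    Subtype.ext (e'.trans (by rw [inv_inv, inv_inv]; exact this.symm))]
  obtain rfl : u = ⟨_, g (S.mem_U25.2 ⟨s, hs, rfl⟩)⟩ := Subtype.ext e
  exact H.cm_mem_K (Subtype.ext (x_comm_of (r := 39) (s := 47) (by decide +kernel) _ _).inv_right.eq)
    (Subtype.ext (x_comm_of (r := 39) (s := 25) (by decide +kernel) _ _).inv_right.eq)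

theorem lift [Fact p.Prime] [CharP K p] (h5 : ∃ s : Finset K, 4 < s.card) {t : Kˣ}
    (ht : (t : K) * S.θ t ≠ 1) :
    ∃ L : Lift (Y S) π, ∀ r s, s ≠ r → s ≠ (rsOf chevF4).neg r → L.CM r s := by
  have hX : (Y S).CharP p := (twist_charP S.tw (chev_charP p)).sub _
  refine ⟨Lift.mk' H.surj H.cent _ eqv_Vt Vt_le fun i => ?_, fun r s => Lift.cm_of_ok fun i s h1 h2 => ?_⟩
  · obtain ⟨γ, -, h⟩ := ko2 i
    refine H.isLift_Vt hX ?_ (kill S ht h)
    have : ∀ i, ∃ l ∈ [[], [0, 1], [2, 3]], l.foldr (rsOf chevF4).sref 33 = (rsOf chevF4).simple i ∨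
      l.foldr (rsOf chevF4).sref 25 = (rsOf chevF4).simple i := by decide +kernel
    obtain ⟨l, -, e | e⟩ := this i
    · simpa only [wprod_smul, e] using (lc33 S H h5).smul H.surj (wprod (rsOf chevF4).s l)
    · simpa only [wprod_smul, e] using (lc25 S H).smul H.surj (wprod (rsOf chevF4).s l)
  · obtain ⟨γ, -, h⟩ := ko1 i s h1 h2
    exact Lift.ok_of_kill (kill S ht h)

omit H

theorem mb (h5 : ∃ s : Finset K, 4 < s.card) {t : Kˣ} (ht : (t : K) * S.θ t ≠ 1) (Z : Finset K)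
    (hZ : ∀ z : K, z ^ 3 = 1 → z * S.θ z = 1 → z ∈ Z) : MB S.G Z.card := by
  obtain ⟨p, _⟩ := CharP.exists K
  have hp := CharP.char_is_prime K p
  haveI := Fact.mk hp
  have hX : (Y S).CharP p := (twist_charP S.tw (chev_charP p)).sub _
  refine mb_of hp (pt_of_lift hX (sub_grp_eq_top _ S.X_grp.ge) fun E _ _ π H => lift S H h5 ht)
    fun E _ _ π hπ hc => ?_
  obtain ⟨L, hL, -, h⟩ := exists_lift_prod hX (by rw [sub_US, ← S.G_eq_US, subgroupOf_self]) hπ hc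
  have n : ((rsOf chevE6).neg 56 = 15 ∧ (rsOf chevE6).neg 36 = 35 ∧ (rsOf chevE6).neg 42 = 29 ∧
      (rsOf chevE6).neg 37 = 34 ∧ (rsOf chevE6).neg 39 = 32 ∧ (rsOf chevE6).neg 46 = 25) ∧
      ((rsOf chevF4).simple 0 = 33 ∧ (rsOf chevF4).simple 1 = 27 ∧ (rsOf chevF4).simple 2 = 25 ∧
      (rsOf chevF4).simple 3 = 24) ∧ (rsOf chevF4).neg 33 = 14 ∧ (rsOf chevF4).neg 27 = 20 ∧
      (rsOf chevF4).neg 25 = 22 ∧ (rsOf chevF4).neg 24 = 23 := by decide +kernel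
  obtain ⟨⟨n1, n2, n3, n4, n5, n6⟩, ⟨s0, s1, s2, s3⟩, m0, m1, m2, m3⟩ := n
  obtain ⟨r0, e0⟩ := r1_sub (X := S.X) S.tw.rgd_grp.le (i := 0) (rel_two o1 S.θ).1
    (fun _ => by rw [s0]; exact S.mem_U33) fun t => by rw [s0, m0, n1, n2]; exact S.mem14 t
  obtain ⟨r1, e1⟩ := r1_sub (X := S.X) S.tw.rgd_grp.le (i := 1) (rel_two o2 S.θ).1
    (fun _ => by rw [s1]; exact S.mem_U27) fun t => by rw [s1, m1, n3, n4]; exact S.mem20 t
  obtain ⟨r2, e2⟩ := r1_sub (X := S.X) S.tw.rgd_grp.le (i := 2)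
    (rel_comp (chevNC.rel 39) (S.θ.eqLocusField (RingHom.id K)).subtype)
    (fun _ => by
      rw [s2]
      exact S.mem_U25.trans ⟨fun ⟨t, ht, e⟩ => ⟨⟨t, ht⟩, e⟩, fun ⟨t, e⟩ => ⟨t, t.2, e⟩⟩)
    fun t => by rw [s2, m2, n5]; exact S.mem22 t.2
  obtain ⟨r3, e3⟩ := r1_sub (X := S.X) S.tw.rgd_grp.le (i := 3)
    (rel_comp (chevNC.rel 46) (S.θ.eqLocusField (RingHom.id K)).subtype)
    (fun _ => by
      rw [s3]
      exact S.mem_U24.trans ⟨fun ⟨t, ht, e⟩ => ⟨⟨t, ht⟩, e⟩, fun ⟨t, e⟩ => ⟨t, t.2, e⟩⟩)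
    fun t => by rw [s3, m3, n6]; exact S.mem23 t.2
  obtain ⟨η0, a0, b0, c0⟩ := r0.exists_lift L hL
  obtain ⟨η1, a1, b1, c1⟩ := r1.exists_lift L hL
  obtain ⟨η2, a2, b2, c2⟩ := r2.exists_lift L hL
  obtain ⟨η3, a3, b3, c3⟩ := r3.exists_lift L hL
  refine card_le_of_image (fun z => η0 z * η1 (z ^ 2)) Z fun z hz => ?_
  obtain ⟨f, hf, rfl⟩ := h [0, 1, 2, 3] (by decide) (by decide) z hz
  obtain ⟨a, a', ea⟩ := c0 _ (hf 0)
  obtain ⟨b, b', eb⟩ := c1 _ (hf 1)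
  obtain ⟨c, c', ec⟩ := c2 _ (hf 2)
  obtain ⟨d, d', ed⟩ := c3 _ (hf 3)
  have c'' : (c : K) ≠ 0 := fun e => c' (Subtype.ext e)
  have d'' : (d : K) ≠ 0 := fun e => d' (Subtype.ext e)
  simp only [List.map_cons, List.map_nil, List.prod_cons, List.prod_nil, mul_one, ea, eb, ec, ed]
    at hz ⊢
  rw [MonoidHom.mem_ker, ← mul_assoc, map_mul, map_mul, map_mul, b0, b1, b2, b3, Subtype.ext_iff,
    coe_mul, coe_mul, coe_mul, e0, e1, e2, e3, (rel_two o1 S.θ).2, (rel_two o2 S.θ).2, hh_comp, hh_comp,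
    StSys.hh_eq, StSys.hh_eq] at hz
  obtain ⟨z, hz3, e⟩ := mem_ker.1 (mem_ker_of_HH ((S.HH_hc (Units.mk0 a a') (Units.mk0 b b')
    (Units.mk0 c c'') (Units.mk0 d d'')).trans hz))
  have h0 : a = z := congrArg Units.val ((congrFun e 0).trans (zpow_one z))
  have h1 : d = 1 := Subtype.ext (congrArg Units.val ((congrFun e 1).trans (zpow_zero z)))
  have h2 : b = z ^ 2 := congrArg Units.val ((congrFun e 2).trans (zpow_ofNat z 2))
  have h3 : c = 1 := Subtype.ext (congrArg Units.val ((congrFun e 3).trans (zpow_zero z)))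
  exact ⟨z, hZ _ (congrArg Units.val hz3) (congrArg Units.val ((S.zc_mem hz3).1
    (e ▸ S.hc_mem _ _ c.2 d.2))), by rw [h0, h1, h2, h3, a2, a3, mul_one, mul_one]⟩

theorem exists_stem (h : ∀ z : K, z ^ 3 = 1 → z * S.θ z = 1) {l : K} (l0 : l ≠ 0) (hl : l ^ 2 ≠ 1) :
    ∃ (Δ : Type u) (_ : Group Δ) (τ : Δ →* S.G), IsStemExtension τ ∧
      Nat.card τ.ker = Nat.card (hT chevE6 K).ker := by
  obtain ⟨f, hf⟩ := stSt_lift (grpSt_r3 (D := chevE6) (K := K))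
  have hf' := hf.comp grpSt_hom
  let τ := ((chevE6.group K).subtype.comp f).subgroupComap S.G
  have hk : ∀ g, g ∈ τ.ker ↔ g.1 ∈ center _ := fun g => by
    rw [← hom_grp_ker stSt_top hf, MonoidHom.mem_ker, MonoidHom.mem_ker, Subtype.ext_iff,
      Subtype.ext_iff]; rfl
  refine ⟨_, _, τ, ⟨fun g => ?_, fun g hg => ?_, fun g hg => ?_⟩, ?_⟩
  · obtain ⟨a, ha⟩ := hf.surjective grpSt_top ⟨g.1, group_eq.ge (S.tw.Fix_le_grp g.2)⟩
    have : (chevE6.group K).subtype.comp f a = g := congrArg Subtype.val ha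
    exact ⟨⟨a, by rw [mem_comap, this]; exact g.2⟩, Subtype.ext this⟩
  · exact Subgroup.mem_center_iff.2 fun a =>
      Subtype.ext (Subgroup.mem_center_iff.1 ((hk g).1 hg) a.1)
  · have := (hk g).1 hg
    rw [center_eq_map stSt_nm stSt_top stSt_r3] at this
    obtain ⟨c, hc, e⟩ := this
    obtain ⟨z, hz, rfl⟩ := mem_ker.1 hc
    have hθ : S.θ z = z ^ 2 := mul_left_cancel₀ z.ne_zero ((h z (congrArg Units.val hz)).trans (by
      rw [← pow_succ']; exact (congrArg Units.val hz).symm))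
    have e1 : zc z = Pi.mulSingle 0 z * Pi.mulSingle 5 (z ^ 2) *
        (Pi.mulSingle 2 (z ^ 2) * Pi.mulSingle 4 z) := by
      funext i
      rcases rank_cases i with rfl | rfl | rfl | rfl | rfl | rfl <;>
        simp only [Pi.mul_apply, Pi.mulSingle_apply] <;> simp +decide only [if_true, if_false,
          mul_one, one_mul]
      exacts [zpow_one z, zpow_zero z, zpow_ofNat z 2, zpow_zero z, zpow_one z, zpow_ofNat z 2]
    have g' : ∀ {r} {g : GL chevE6.Idx K}, g ∈ S.X.U r → g ∈ S.G := fun h => S.X_grp.le (U_le_grp _ h)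
    have n : (rsOf chevE6).neg 56 = 15 ∧ (rsOf chevE6).neg 36 = 35 ∧ (rsOf chevE6).neg 42 = 29 ∧
      (rsOf chevE6).neg 37 = 34 ∧ (rsOf chevE6).simple 0 = 56 ∧ (rsOf chevE6).simple 5 = 36 ∧
      (rsOf chevE6).simple 2 = 42 ∧ (rsOf chevE6).simple 4 = 37 := by decide +kernel
    obtain ⟨n1, n2, n3, n4, s0, s5, s2, s4⟩ := n
    have k1 := h_two_mem (stSt chevE6 K) o1 S.θ (H := S.G.comap ((chevE6.group K).subtype.comp f))
      (fun t => by rw [mem_comap, map_mul, hf', hf']; exact g' (S.mem_U33.2 ⟨t, rfl⟩))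
      (fun t => by rw [mem_comap, map_mul, hf', hf', n1, n2]; exact g' (S.mem14 t)) l0 hl z
    have k2 := h_two_mem (stSt chevE6 K) o2 S.θ (H := S.G.comap ((chevE6.group K).subtype.comp f))
      (fun t => by rw [mem_comap, map_mul, hf', hf']; exact g' (S.mem_U27.2 ⟨t, rfl⟩))
      (fun t => by rw [mem_comap, map_mul, hf', hf', n3, n4]; exact g' (S.mem20 t)) l0 hl (z ^ 2)
    rw [map_pow, hθ, ← pow_mul, show 2 * 2 = 3 + 1 from rfl, pow_succ _ 3,
      show (z : K) ^ 3 = 1 from congrArg Units.val hz, one_mul] at k2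
    rw [hθ] at k1
    have := mul_mem k1 k2
    rw [← map_subtype_commutator] at this
    obtain ⟨y, hy, e'⟩ := this
    simp only [e1, map_mul, StSys.hProd_single, s0, s5, s2, s4, Units.val_pow_eq_pow_val] at e
    exact (Subtype.ext (e'.trans e) : y = g) ▸ hy
  · obtain ⟨e⟩ := center_stSt_equiv (stSt_hProd_E6 (K := K))
    rw [Nat.card_congr e.toEquiv]
    refine Nat.card_congr ⟨fun g => ⟨g.1.1, (hk _).1 g.2⟩, fun g => ⟨⟨g.1, ?_⟩, (hk _).2 g.2⟩,
      fun _ => rfl, fun _ => rfl⟩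
    rw [mem_comap, MonoidHom.comp_apply, show f g = 1 from (hom_grp_ker stSt_top hf).ge g.2, map_one]
    exact one_mem _

end TE

theorem schur_E6 {K : Type u} [Field K] [Fintype K] {q : ℕ} (hq : IsPrimePow q)
    (hK : Fintype.card K = q ^ 2) (h2 : q ≠ 2) :
    HasCyclicSchurMultiplier (twistedE6 K q) (Nat.gcd 3 (q + 1)) := by
  classical
  obtain ⟨S, he, e, hK'⟩ := exists_ED hq hK
  have h3 : 3 ≤ q := by have := hq.two_le; omega
  obtain ⟨t, t0, ht⟩ := exists_pow_ne_one_of_card (K := K) (n := q + 1) (by omega)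
    ⟨Finset.univ, by rw [Finset.card_univ, hK]; nlinarith⟩
  have hm := TE.mb S ⟨Finset.univ, by rw [Finset.card_univ, hK]; nlinarith⟩ (t := Units.mk0 t t0)
    (by rwa [he, ← pow_succ']) (Polynomial.nthRoots (Nat.gcd 3 (q + 1)) 1).toFinset fun z h h' => by
      rw [Multiset.mem_toFinset, Polynomial.mem_nthRoots (Nat.gcd_pos_of_pos_left _ (by norm_num)),
        pow_gcd_eq_one]
      exact ⟨h, by rwa [he, ← pow_succ'] at h'⟩
  replace hm : MB S.G (Nat.gcd 3 (q + 1)) := fun Γ _ _ σ hσ =>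
    (hm Γ σ hσ).trans ((Multiset.toFinset_card_le _).trans (Polynomial.card_nthRoots _ _))
  rw [e]
  rcases (Nat.dvd_prime Nat.prime_three).1 (Nat.gcd_dvd_left 3 (q + 1)) with h | h <;> rw [h] at hm ⊢
  · exact hm.hasCyclic_one
  have hd : 3 ∣ q + 1 := h ▸ Nat.gcd_dvd_right 3 (q + 1)
  obtain ⟨l, hl⟩ := H13.exists_sq_ne_one (K := K) (by rw [hK']; nlinarith)
  obtain ⟨Δ, _, τ, h1, h4⟩ := TE.exists_stem S (fun z hz => by
    obtain ⟨k, hk⟩ := hd
    rw [he, ← pow_succ', hk, pow_mul, hz, one_pow]) l.ne_zero fun e => hl (Units.ext e)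
  rw [card_hT_ker_E6, hK', Nat.gcd_eq_left (hd.trans ⟨q - 1, by rw [← Nat.sq_sub_sq, one_pow]⟩)] at h4
  haveI := Fact.mk Nat.prime_three
  exact (h4 ▸ hm).hasCyclic h1 (isCyclic_of_prime_card h4) h4

end Cfsg.Agent.H17
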