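import Mathlib
import Cfsg.Agent.H17.MulW
import Cfsg.Agent.H17.MulV
import Cfsg.Agent.H13.F4Str

/-!
The Schur multiplier of `²F₄(q)`: lifting the root groups.
-/

set_option autoImplicit false
set_option linter.unusedSectionVars false
set_option maxRecDepth 100000

namespace Cfsg.Agent.H17

open Subgroup H12 H12.RGD H13 H13.F4 H19.St Cfsg.Lie
open scoped commutatorElement

universe u

namespace TR

variable {K : Type u} [Field K] [Finite K] (S : FD K)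

/-- the root group datum on the group -/
noncomputable abbrev Y : RGD rsI8 S.G := twY S.tw

theorem chi (l m : Kˣ) (a : Fin chevF4.nroots) :
    ∏ i : Fin chevF4.rank, S.hc (l, m) i ^ chevF4.cartan i a =
      Units.map S.θ.toMonoidHom l ^ chevF4.cartan 0 a * Units.map S.θ.toMonoidHom m ^ chevF4.cartan 1 a *
        m ^ chevF4.cartan 2 a * l ^ chevF4.cartan 3 a := Fin.prod_univ_four _

/-- exponents of a character on a torus element -/
def ee (i : Fin 2) (a : Fin chevF4.nroots) : ℤ × ℤ :=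
  if i = 0 then (chevF4.cartan 0 a + 2 * chevF4.cartan 1 a, 2 * chevF4.cartan 2 a + chevF4.cartan 3 a)
  else (2 * chevF4.cartan 0 a + chevF4.cartan 1 a - 2 * chevF4.cartan 3 a,
    -chevF4.cartan 0 a + chevF4.cartan 2 a + 2 * chevF4.cartan 3 a)

theorem ko : ∀ i a, (foldF4.π a = rsI8.simple i → ee i a = (0, 0)) ∧
    (foldF4.π a ≠ rsI8.simple i → foldF4.π a ≠ rsI8.neg (rsI8.simple i) →
      (ee i a).1 ^ 2 - 2 * (ee i a).2 ^ 2 ∣ 8) := by decide +kernel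

theorem uu (x : Kˣ) : Units.map S.θ.toMonoidHom (Units.map S.θ.toMonoidHom x) ^ 2 = x :=
  Units.ext (S.hθ x)

theorem eq_one_of {x : Kˣ} {a b : ℤ} (h : Units.map S.θ.toMonoidHom x ^ a * x ^ b = 1)
    (hd : a ^ 2 - 2 * b ^ 2 ∣ 8) : x = 1 := by
  have h1 := congrArg (fun y => Units.map S.θ.toMonoidHom y ^ 2) h
  simp only [map_mul, map_zpow, map_one, one_pow, mul_pow] at h1
  rw [← zpow_natCast, ← zpow_mul, mul_comm a, zpow_mul, zpow_natCast, uu, ← zpow_natCast,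
    ← zpow_mul] at h1
  generalize Units.map S.θ.toMonoidHom x = y at h h1
  have h2 : x ^ (a ^ 2 - 2 * b ^ 2) = 1 := by
    have e : x ^ (a ^ 2 - 2 * b ^ 2) = (x ^ a * y ^ (b * (2 : ℕ))) ^ a * ((y ^ a * x ^ b) ^ (2 * b))⁻¹ := by
      refine Additive.ofMul.injective ?_
      simp only [ofMul_mul, ofMul_zpow, ofMul_inv]
      module
    rw [e, h, h1]; simp
  obtain ⟨c, hc⟩ := hd
  have h3 : (x : K) ^ 8 = 1 := by
    rw [← Units.val_pow_eq_pow_val, ← zpow_natCast, show ((8 : ℕ) : ℤ) = _ from hc, zpow_mul, h2,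
      one_zpow, Units.val_one]
  refine Units.ext (sub_eq_zero.1 (pow_eq_zero_iff (n := 8) (by norm_num) |>.1 ?_))
  rw [Units.val_one]
  generalize (x : K) = z at h3
  linear_combination h3 + (1 - 4 * z + 14 * z ^ 2 - 28 * z ^ 3 + 35 * z ^ 4 - 28 * z ^ 5 +
    14 * z ^ 6 - 4 * z ^ 7) * S.two

theorem kill {x : Kˣ} (hx : x ≠ 1) (i : Fin 2) {s : Fin 16} (h1 : s ≠ rsI8.simple i)
    (h2 : s ≠ rsI8.neg (rsI8.simple i)) : (Y S).Kill (rsI8.simple i) s := by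
  obtain ⟨l, e⟩ : ∃ l : Kˣ × Kˣ, ∀ a : Fin chevF4.nroots,
      ∏ j : Fin chevF4.rank, S.hc l j ^ chevF4.cartan j a =
        Units.map S.θ.toMonoidHom x ^ (ee i a).1 * x ^ (ee i a).2 := by
    fin_cases i
    · refine ⟨(x, x ^ 2), fun a => ?_⟩
      refine Additive.ofMul.injective ?_
      simp only [chi, map_pow, ee, ofMul_mul, ofMul_zpow, ofMul_pow, Fin.zero_eta, if_true]
      module
    · refine ⟨(x ^ 2 * (Units.map S.θ.toMonoidHom x ^ 2)⁻¹, x), fun a => ?_⟩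
      refine Additive.ofMul.injective ?_
      simp only [chi, map_pow, map_mul, map_inv, uu, ee, ofMul_mul, ofMul_zpow, ofMul_pow, ofMul_inv,
        Fin.mk_one, one_ne_zero, if_false]
      module
  refine kill_HH S.tw (c := S.hc l) (S.hh_mem_T l) (fun a ha => by rw [e, (ko i a).1 ha]; simp)
    fun a ha h => hx (eq_one_of S ((e a).symm.trans h) ((ko i a).2 (ha ▸ h1) (ha ▸ h2)))

/-- root elements which commute in characteristic two -/
noncomputable def cm (a b : ℕ) : Bool := decide (b = a) || (decide (b ≠ fastF4.tab.neg a) &&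
  (fastF4.tab.commTerms a b).all fun c => decide (c.2.1 % 2 = 0))

include S in
theorem cm_of {a b : Fin chevF4.nroots} (h : cm a b = true) : (cdOf chevF4).Cm K a b := by
  simp only [cm, Bool.or_eq_true, Bool.and_eq_true, decide_eq_true_eq, List.all_eq_true, ← tbF4] at h
  refine h.imp Fin.ext fun h => ⟨fun e => h.1 (congrArg Fin.val e), fun c hc => ?_⟩
  obtain ⟨c, hc', rfl⟩ := List.mem_map.1 hc
  obtain ⟨k, hk⟩ := Int.dvd_of_emod_eq_zero (h.2 c hc')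
  simp [hk, S.two]

theorem comm_of {r s : Fin 16} (h : ∀ a b, foldF4.π a = r → foldF4.π b = s → cm a b = true) :
    ∀ u ∈ (Y S).U r, ∀ w ∈ (Y S).U s, u * w = w * u := fun u hu w hw => Subtype.ext (by
  have h1 : (chevRGD chevF4 K).US (foldF4.π ⁻¹' {s}) ≤
      centralizer ((chevRGD chevF4 K).US (foldF4.π ⁻¹' {r}) : Set _) :=
    iSup₂_le fun b hb => le_centralizer_iff.1 (iSup₂_le fun a ha => le_centralizer_iff.1
      (StSys.U_le_centralizer (cm_of S (h a b ha hb))))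
  exact mem_centralizer_iff.1 (h1 hw.1) _ hu.1)

/-- elements of the group -/
noncomputable abbrev o (g : GL chevF4.Idx K) : S.G := subo S.G g

theorem o_val {r : Fin 16} {g : GL chevF4.Idx K} (h : g ∈ S.X.U r) : (o S g).1 = g :=
  subo_val (S.X_grp.le (U_le_grp _ h))

theorem o_mem {r : Fin 16} {g : GL chevF4.Idx K} (h : g ∈ S.X.U r) : o S g ∈ (Y S).U r :=
  (Set.mem_of_eq_of_mem (o_val S h) h : (o S g).1 ∈ (S.X.U r : Set _))

theorem ho_val (l : Kˣ × Kˣ) : (o S (S.hh l)).1 = S.hh l :=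
  subo_val (S.X_grp.le (T_le_grp (S.hh_mem_T l)))

theorem ho_mem (l : Kˣ × Kˣ) : o S (S.hh l) ∈ (Y S).T :=
  (Set.mem_of_eq_of_mem (ho_val S l) (S.hh_mem_T l) : _ ∈ (S.X.T : Set _))

local notation "v" n:max => Ex.var n

theorem ub_mul (t u t' u' : K) : S.ub 27 25 28 30 t u * S.ub 27 25 28 30 t' u' =
    S.ub 27 25 28 30 (t + t') (u + u' + S.θ t * t') := by
  obtain ⟨μ, h1, h2, h3, h4, h5, h6, h7, h8⟩ := exists_mu8 (S.θ t) t (S.θ t * t + u) (S.θ u ^ 2)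
    (S.θ t') t' (S.θ t' * t' + u') (S.θ u' ^ 2)
  have := chk2 S.two μ [(27, v 2), (25, v 3), (28, v 5), (30, v 7), (27, v 11), (25, v 13),
    (28, v 17), (30, v 19)] [(27, v 2 + v 11), (25, v 3 + v 13), (28, v 5 + v 17 + v 11 * v 3),
    (30, v 7 + v 19 + v 11 ^ 2 * v 3)] (by decide +kernel)
  simp only [List.map_cons, List.map_nil, List.prod_cons, List.prod_nil, mul_one, Ex.ev_var,
    Ex.ev_add, Ex.ev_mul, Ex.ev_pow, h1, h2, h3, h4, h5, h6, h7, h8] at this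
  simp only [FD.ub, mul_assoc, this, map_add, map_mul, S.sq_add, mul_pow, S.hθ]
  congr 4
  · linear_combination (-S.θ t * t') * S.two
  · ring

theorem conj_ub (l : Kˣ × Kˣ) (t u : K) : ∃ u', S.hh l * S.ub 27 25 28 30 t u * (S.hh l)⁻¹ =
    S.ub 27 25 28 30 (((∏ i : Fin chevF4.rank, S.hc l i ^ chevF4.cartan i (25 : Fin chevF4.nroots) :
      Kˣ) : K) * t) u' := by
  obtain ⟨t', u', e⟩ := S.mem_U7.1 (S.X.T_conj _ (S.hh_mem_T l) 7 _ (S.mem_U7.2 ⟨t, u, rfl⟩))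
  refine ⟨u', e.trans ?_⟩
  rw [FD.ub, ← conj_mul, ← conj_mul, ← conj_mul, FD.hh, MonoidHom.comp_apply, HH_conj_x, HH_conj_x,
    HH_conj_x, HH_conj_x] at e
  rw [(x4_inj e).2.1]

theorem f75 (t u : K) : S.ub 27 25 28 30 t u * S.ub 35 31 40 46 1 0 =
    S.ub 35 31 40 46 1 0 * S.up 37 32 t * S.ub 27 25 28 30 t u := by
  obtain ⟨μ, h1, h2, h3, h4, h5, -⟩ := exists_mu8 (S.θ t) t (S.θ t * t + u) (S.θ u ^ 2) 1 0 0 0
  have := chk2 S.two μ [(27, v 2), (25, v 3), (28, v 5), (30, v 7), (35, v 11), (31, v 11),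
    (40, v 11)] [(35, v 11), (31, v 11), (40, v 11), (37, v 2 * v 11), (32, v 3 * v 11), (27, v 2),
    (25, v 3), (28, v 5), (30, v 7)] (by decide +kernel)
  simpa [FD.ub, FD.up, mul_assoc, h1, h2, h3, h4, h5] using this

theorem f58 (s : K) : S.ub 35 31 40 46 1 0 * S.up 14 23 s =
    S.ub 27 25 28 30 0 (S.θ s) * S.up 14 23 s * S.ub 35 31 40 46 1 0 := by
  obtain ⟨μ, h1, h2, h5, -⟩ := exists_mu8 (S.θ s) s 1 0 0 0 0 0
  have := chk2 S.two μ [(35, v 5), (31, v 5), (40, v 5), (14, v 2), (23, v 3)]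
    [(28, v 2 * v 5), (30, v 3 * v 5), (14, v 2), (23, v 3), (35, v 5), (31, v 5), (40, v 5)]
    (by decide +kernel)
  simpa [FD.ub, FD.up, mul_assoc, h1, h2, h5, S.hθ] using this

theorem mem5 : S.ub 35 31 40 46 1 0 ∈ S.X.U 5 := by
  have e := (pr_f4 (a := 35) (b := 31) (c := 40) (d := 46) (by decide) (S.θ 1) 1 (S.θ 1 * 1 + 0)
    (S.θ 0 ^ 2)).symm
  exact Set.mem_of_eq_of_mem e (pr_mem_U S.tw (by decide +kernel)
    (e ▸ S.σ_ub (by decide +kernel) 1 0))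

theorem mem6 (t : K) : S.up 37 32 t ∈ S.X.U 6 := by
  have e := (pr_f2 (a := 37) (b := 32) (by decide) (S.θ t) t).symm
  exact Set.mem_of_eq_of_mem e (pr_mem_U S.tw (by decide +kernel)
    (e ▸ S.σ_up (by decide +kernel) t))

/-- the elements of the simple class of type `B₂` -/
noncomputable def y7 (t u : K) : S.G := o S (S.ub 27 25 28 30 t u)

theorem y7_val (t u : K) : (y7 S t u).1 = S.ub 27 25 28 30 t u := o_val S (S.mem_U7.2 ⟨t, u, rfl⟩)

theorem y7_iff (g : S.G) : g ∈ (Y S).U 7 ↔ ∃ t u, g = y7 S t u :=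
  S.mem_U7.trans (exists₂_congr fun t u => by rw [Subtype.ext_iff, y7_val]; rfl)

theorem y7_mul (t u t' u' : K) : y7 S t u * y7 S t' u' = y7 S (t + t') (u + u' + S.θ t * t') :=
  Subtype.ext (by rw [coe_mul, y7_val, y7_val, y7_val, ub_mul])

theorem y7_conj (l : Kˣ × Kˣ) (t u : K) : ∃ u', o S (S.hh l) * y7 S t u * (o S (S.hh l))⁻¹ =
    y7 S (((∏ i : Fin chevF4.rank, S.hc l i ^ chevF4.cartan i (25 : Fin chevF4.nroots) :
      Kˣ) : K) * t) u' :=
  (conj_ub S l t u).imp fun u' e => Subtype.ext (by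
    rw [coe_mul, coe_mul, coe_inv, ho_val, y7_val, y7_val, e])

/-- the centre of the root group -/
noncomputable def Z7 : Subgroup S.G := (MonoidHom.mk' (fun u : Multiplicative K => y7 S 0 u.toAdd)
  fun a b => by simp [y7_mul]).range

theorem mem_Z7 {g : S.G} : g ∈ Z7 S ↔ ∃ u, y7 S 0 u = g := Iff.rfl

variable {E : Type u} [Group E] {π : E →* S.G} (H : CX 2 π)
include H

theorem lc0 (h5 : ∃ s : Finset K, 4 < s.card) : LC (Y S) π 0 0 := by
  obtain ⟨c, v0, v1, h⟩ := exists_five h5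
  have vl := fun t => o_val S (S.mem_U0.2 ⟨t, rfl⟩)
  have ad : ∀ s t, o S (S.up 33 24 (s + t)) = o S (S.up 33 24 s) * o S (S.up 33 24 t) :=
    fun s t => Subtype.ext (by
      rw [coe_mul, vl, vl, vl, FD.up, FD.up, FD.up, map_add, x, x, StSys.add, StSys.add]
      exact (x_comm_of a2_pos.2.2.2.2 _ _).mul_mul_mul_comm _ _)
  have cj : ∀ (d : Kˣ) t, o S (S.hh (1, d⁻¹)) * o S (S.up 33 24 t) * (o S (S.hh (1, d⁻¹)))⁻¹ =
      o S (S.up 33 24 ((d : K) • t)) := fun d t => Subtype.ext (by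
    have c : (chevF4.cartan 1 (33 : Fin chevF4.nroots) = -1 ∧ chevF4.cartan 2 (33 : Fin chevF4.nroots) = 0) ∧
        chevF4.cartan 1 (24 : Fin chevF4.nroots) = 0 ∧ chevF4.cartan 2 (24 : Fin chevF4.nroots) = -1 := by
      decide +kernel
    rw [coe_mul, coe_mul, coe_inv, vl, vl, ho_val, FD.up, ← conj_mul, FD.hh, MonoidHom.comp_apply,
      HH_conj_x, HH_conj_x, chi, chi, c.1.1, c.1.2, c.2.1, c.2.2]
    simp [FD.up])
  have m : ∀ g, g ∈ (Y S).U 0 → ∃ t, g = o S (S.up 33 24 t) := fun g hg =>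
    (S.mem_U0.1 hg).imp fun t e => Subtype.ext (e.trans (vl t).symm)
  refine H.lc fun u hu w hw => ?_
  obtain ⟨s, rfl⟩ := m u hu
  obtain ⟨t, rfl⟩ := m w hw
  exact H.five_K ad ad (fun s t => by rw [← ad, ← ad, add_comm]) h (cj (Units.mk0 c v0))
    (cj (Units.mk0 c v0)) (cj (Units.mk0 _ v1)) (cj (Units.mk0 _ v1)) s t

theorem Z7_le_K {c : Kˣ} (hc : c ≠ 1) : ∀ w ∈ (Y S).U 7, ∀ z ∈ Z7 S, z ∈ H.K w := by
  have l68 : LC (Y S) π 6 8 := by
    have k := kill_smul (kill S hc 0 (s := 2) (by decide) (by decide)) (rsI8.s 0)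
    rw [RS.s_smul, RS.s_smul] at k
    exact (H.lc_of_kill (r := 8) (s := 6) k (comm_of S (by decide +kernel))).symm
  intro w hw z hz
  obtain ⟨u, rfl⟩ := (mem_Z7 S).1 hz
  obtain ⟨s, rfl⟩ : ∃ s, S.θ s = u := ⟨_, S.θ_sq u⟩
  have hx := o_mem S (S.um_mem s)
  obtain ⟨t, u, rfl⟩ := (y7_iff S w).1 hw
  obtain ⟨W, hW⟩ := H.surj (y7 S t u)
  obtain ⟨y, hy⟩ := H.surj (o S (S.ub 35 31 40 46 1 0))
  have e := H.c_conj W (π y) (o S (S.up 14 23 s))
  rw [hW, show y7 S t u * π y * (y7 S t u)⁻¹ = π y * o S (S.up 37 32 t) from Subtype.ext (by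
      rw [hy, coe_mul, coe_mul, coe_mul, coe_inv, y7_val, o_val S (mem5 S), o_val S (mem6 S t), f75,
        mul_inv_cancel_right]), comm_of S (r := 7) (s := 8) (by decide +kernel) _ hw _ hx,
    mul_inv_cancel_right, H.c_mul_left, H.mem_K.1 (H.of_lc l68 (o_mem S (mem6 S t)) hx)] at e
  rw [H.mem_K, H.c_eq hW (b := H.c (π y) (o S (S.up 14 23 s))) (Subtype.ext (by
    rw [H.map_c, hy, coe_mul, coe_mul, coe_mul, coe_inv, coe_inv, y7_val, o_val S (mem5 S),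
      o_val S (S.um_mem s), f58]; group)), e]
  group

theorem lift (h5 : ∃ s : Finset K, 4 < s.card) :
    ∃ L : Lift (Y S) π, ∀ r s, s ≠ r → s ≠ rsI8.neg r → L.CM r s := by
  haveI : CharP K 2 := CharTwo.of_one_ne_zero_of_two_eq_zero one_ne_zero S.two
  have hX : (Y S).CharP 2 := (twist_charP S.tw (chev_charP 2)).sub _
  obtain ⟨c, v0, v1, h⟩ := exists_five h5
  have hc : Units.mk0 c v0 ≠ 1 := fun e => v1 (sub_eq_zero.2 (congrArg Units.val e).symm)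
  refine ⟨Lift.mk' H.surj H.cent _ eqv_Vt Vt_le fun i => ?_, fun r s => Lift.cm_of_ok fun i s h1 h2 =>
    Lift.ok_of_kill (kill S hc i h1 h2)⟩
  fin_cases i
  · exact H.isLift_Vt hX (lc0 S H h5) (kill S hc 1 (by decide) (by decide))
  obtain ⟨g, hg, -, h3⟩ := kill S hc 0 (s := 7) (by decide) (by decide)
  have cj : ∀ (d : Kˣ) t, ∃ z ∈ Z7 S, o S (S.hh (d⁻¹, 1)) * y7 S t 0 * (o S (S.hh (d⁻¹, 1)))⁻¹ =
      y7 S ((d : K) • t) 0 * z := fun d t => by
    have c : chevF4.cartan 0 (25 : Fin chevF4.nroots) = 0 ∧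
        chevF4.cartan 3 (25 : Fin chevF4.nroots) = -1 := by decide +kernel
    obtain ⟨u, e⟩ := y7_conj S (d⁻¹, 1) t 0
    exact ⟨_, (mem_Z7 S).2 ⟨u, rfl⟩, by rw [e, chi, c.1, c.2]; simp [y7_mul]⟩
  refine H.isLift_Vt' hX (H.two_five (Z7_le_K S H hc) (fun u hu w hw => ?_) (coprime_card_T hX)
    (fun z hz => ?_) (fun g hg z hz => ?_) (y := fun t => y7 S t 0) (fun t => (y7_iff S _).2 ⟨_, _, rfl⟩)
    (fun u hu => ?_) (fun a b => ⟨_, (mem_Z7 S).2 ⟨S.θ a * b, rfl⟩, ?_⟩) h (ho_mem S _) (ho_mem S _)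
    (cj (Units.mk0 c v0)) (cj (Units.mk0 _ v1))) hg h3
  · obtain ⟨t, u, rfl⟩ := (y7_iff S u).1 hu
    obtain ⟨t', u', rfl⟩ := (y7_iff S w).1 hw
    refine (mem_Z7 S).2 ⟨S.θ t * t' + S.θ t' * t, ?_⟩
    rw [eq_mul_inv_iff_mul_eq, eq_mul_inv_iff_mul_eq, y7_mul, y7_mul, y7_mul]
    congr 1
    · ring
    · simp only [map_zero, zero_add]; linear_combination (S.θ t' * t) * S.two
  · obtain ⟨u, rfl⟩ := (mem_Z7 S).1 hz
    exact (y7_iff S _).2 ⟨_, _, rfl⟩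
  · obtain ⟨u, rfl⟩ := (mem_Z7 S).1 hz
    obtain ⟨l, e⟩ := S.mem_T.1 hg
    obtain ⟨u', e'⟩ := y7_conj S l 0 u
    exact (mem_Z7 S).2 ⟨u', by
      rw [show g = o S (S.hh l) from Subtype.ext (e.symm.trans (ho_val S l).symm), e', mul_zero]⟩
  · obtain ⟨t, u, rfl⟩ := (y7_iff S u).1 hu
    exact ⟨t, _, (mem_Z7 S).2 ⟨u, rfl⟩, by simp [y7_mul]⟩
  · simp only [y7_mul]
    congr 1
    · ring
    · linear_combination (-S.θ a * b - S.θ (a + b) * 0) * S.two

end TR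

end Cfsg.Agent.H17
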