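import Mathlib
import Cfsg.Agent.H17.MulR
import Cfsg.Agent.H17.ChB2
import Cfsg.Agent.H12.Emb
import Cfsg.Agent.H12.Orders
import Cfsg.Agent.H13.SzModels
import Cfsg.Agent.H13.SzMult
import Cfsg.Agent.H13.SzPart

/-!
The Schur multiplier of `²F₄(q)`: the torus.
-/

set_option autoImplicit false
set_option linter.unusedSectionVars false
set_option maxRecDepth 100000

namespace Cfsg.Agent.H17

open Subgroup H12 H12.RGD H13 H13.F4 H19.St Cfsg.Lie
open scoped commutatorElement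

universe u

namespace SpB

variable {K : Type*} [Field K]

theorem mul4 (a0 a1 a2 a3 b0 b1 b2 b3 c0 c1 c2 c3 d0 d1 d2 d3 e0 e1 e2 e3 f0 f1 f2 f3 g0 g1 g2 g3
    h0 h1 h2 h3 : K) : !![a0, a1, a2, a3; b0, b1, b2, b3; c0, c1, c2, c3; d0, d1, d2, d3] *
    !![e0, e1, e2, e3; f0, f1, f2, f3; g0, g1, g2, g3; h0, h1, h2, h3] =
    !![a0 * e0 + a1 * f0 + a2 * g0 + a3 * h0, a0 * e1 + a1 * f1 + a2 * g1 + a3 * h1,
      a0 * e2 + a1 * f2 + a2 * g2 + a3 * h2, a0 * e3 + a1 * f3 + a2 * g3 + a3 * h3;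
      b0 * e0 + b1 * f0 + b2 * g0 + b3 * h0, b0 * e1 + b1 * f1 + b2 * g1 + b3 * h1,
      b0 * e2 + b1 * f2 + b2 * g2 + b3 * h2, b0 * e3 + b1 * f3 + b2 * g3 + b3 * h3;
      c0 * e0 + c1 * f0 + c2 * g0 + c3 * h0, c0 * e1 + c1 * f1 + c2 * g1 + c3 * h1,
      c0 * e2 + c1 * f2 + c2 * g2 + c3 * h2, c0 * e3 + c1 * f3 + c2 * g3 + c3 * h3;
      d0 * e0 + d1 * f0 + d2 * g0 + d3 * h0, d0 * e1 + d1 * f1 + d2 * g1 + d3 * h1,
      d0 * e2 + d1 * f2 + d2 * g2 + d3 * h2, d0 * e3 + d1 * f3 + d2 * g3 + d3 * h3] := by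
  ext i j
  fin_cases i <;> fin_cases j <;> simp [Matrix.mul_apply, Fin.sum_univ_four]

/-- the root elements -/
def mx : ℕ → K → Matrix (Fin 4) (Fin 4) K
  | 0, t => !![1, 0, 0, 0; 0, 1, 0, 0; 0, 0, 1, 0; t, 0, 0, 1]
  | 1, t => !![1, 0, 0, 0; 0, 1, 0, 0; -t, 0, 1, 0; 0, t, 0, 1]
  | 2, t => !![1, 0, 0, 0; t, 1, 0, 0; 0, 0, 1, 0; 0, 0, t, 1]
  | 3, t => !![1, 0, 0, 0; 0, 1, 0, 0; 0, t, 1, 0; 0, 0, 0, 1]
  | 4, t => !![1, 0, 0, 0; 0, 1, t, 0; 0, 0, 1, 0; 0, 0, 0, 1]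
  | 5, t => !![1, t, 0, 0; 0, 1, 0, 0; 0, 0, 1, t; 0, 0, 0, 1]
  | 6, t => !![1, 0, -t, 0; 0, 1, 0, t; 0, 0, 1, 0; 0, 0, 0, 1]
  | _, t => !![1, 0, 0, t; 0, 1, 0, 0; 0, 0, 1, 0; 0, 0, 0, 1]

theorem mx_add (r : ℕ) (t u : K) : mx r (t + u) = mx r t * mx r u := by
  match r with
  | 0 | 1 | 2 | 3 | 4 | 5 | 6 | _ + 7 => simp [mx, mul4, add_comm]

theorem mx_zero (r : ℕ) : mx r (0 : K) = 1 := by
  match r with
  | 0 | 1 | 2 | 3 | 4 | 5 | 6 | _ + 7 =>
    ext i j; fin_cases i <;> fin_cases j <;> simp [mx]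

theorem mx_comm (r s : ℕ) (hr : r < 8) (hs : s < 8) (h1 : s ≠ r) (h2 : s ≠ 7 - r) (t u : K) :
    mx s u * mx r t = mx r t * mx s u *
      ((ChB2.tb r s).map fun c => mx c.1 ((c.2.1 : K) * (-t) ^ c.2.2.1 * u ^ c.2.2.2)).prod := by
  interval_cases r <;> interval_cases s <;> first | exact absurd rfl h1 | exact absurd rfl h2 | skip
  all_goals
    simp only [ChB2.tb, List.getD_cons_zero, List.getD_cons_succ, List.map_nil, List.prod_nil, mul_one,
      List.map_cons, List.prod_cons, mx, mul4, mul_zero, zero_mul, one_mul, add_zero, zero_add]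
  all_goals
    push_cast
    ring_nf

/-- the Steinberg system -/
def st (K : Type*) [Field K] : StSys (cdOf chevB2) K (GL (Fin 4) K) where
  x := fun r t => ⟨mx r t, mx r (-t), by rw [← mx_add, add_neg_cancel, mx_zero],
    by rw [← mx_add, neg_add_cancel, mx_zero]⟩
  add := fun r t u => Units.ext (mx_add r t u)
  comm := fun r s h1 h2 t u => Units.ext (by
    simp only [Units.val_mul]
    rw [mx_comm r s r.2 s.2 (fun e => h1 (Fin.ext e))
      (fun e => h2 (Fin.ext (e.trans (ChB2.neg_eq r r.2).symm))), ← ChB2.tb_eq r r.2 s s.2]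
    simp only [cdOf, List.map_map, ← Units.coeHom_apply, map_list_prod]
    congr 2
    exact List.map_congr_left fun c hc => by
      simp only [Function.comp, finR_val r (mem_commTerms r.2 s.2 hc).1, Units.coeHom_apply])

theorem exists_inj [Finite K] (h2 : Nat.gcd 2 (Nat.card K - 1) = 1) (hF : ∃ a : K, a ≠ 0 ∧ a ≠ 1)
    {G : Type*} [Group G] (S : StSys (cdOf chevB2) K G) {r : Fin chevB2.nroots} {t : K}
    (h : S.x r t ≠ 1) : ∃ f : chevB2.SteinbergGroup K →* G,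
      Function.Injective f ∧ (stSt chevB2 K).Hom S f := by
  obtain ⟨g, hg⟩ := stSt_lift (grpSt_r3 (D := chevB2) (K := K))
  obtain ⟨f, hf⟩ := stSt_lift (chev_nc S).r3_of_finite
  have h0 : g.ker = ⊥ := by
    rw [hom_grp_ker stSt_top hg, center_eq_map stSt_nm stSt_top stSt_r3,
      card_eq_one.1 (card_hT_ker_B2.trans h2), Subgroup.map_bot]
  haveI := grp_isSimpleGroup (der_B2 hF)
  haveI := (MulEquiv.ofBijective g ⟨(MonoidHom.ker_eq_bot_iff _).1 h0,
    hg.surjective grpSt_top⟩).isSimpleGroup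
  refine ⟨f, (MonoidHom.ker_eq_bot_iff _).1 ((f.normal_ker.eq_bot_or_eq_top).resolve_right
    fun e => h ?_), hf⟩
  rw [← hf]
  exact e.ge (mem_top _)

theorem cyc_of_two {A B C : Type*} [Group A] [Group B] [Group C] {f : A →* B} {g : A →* C}
    (hf : Function.Injective f) (hg : Function.Injective g) {Z : Subgroup C} {p : ℕ}
    (hZ : ∀ P : Subgroup Z, IsPGroup p P → IsCyclic P) {P : Subgroup B}
    (hP : P ≤ (Z.comap g).map f) (h : IsPGroup p P) : IsCyclic P := by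
  have e1 : (P.comap f).map f = P := map_comap_eq_self (hP.trans (map_le_range _ _))
  have h1 : (P.comap f).map g ≤ Z := map_le_iff_le_comap.2 fun a ha => by
    obtain ⟨b, hb, e⟩ := hP ha
    exact hf e ▸ hb
  have h2 := hZ (((P.comap f).map g).subgroupOf Z)
    (((h.comap_of_injective f hf).map g).comap_subtype.to_le le_rfl)
  rw [← e1]
  exact (((equivMapOfInjective _ f hf).symm.trans (equivMapOfInjective _ g hg)).trans
    (subgroupOfEquivOfLe h1).symm).isCyclic.2 h2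

theorem ker_inf_eq_one {E G : Type*} [Group E] [Finite E] [Group G] {π : E →* G}
    (hc : π.ker ≤ center E) (h2 : Nat.Coprime 2 (Nat.card π.ker)) {A B : Subgroup E}
    (hA : IsPGroup 2 A) (hB : IsPGroup 2 B) (h : ∀ p : ℕ, p.Prime → p ≠ 2 → ∀ P : Subgroup G,
      P ≤ (A ⊔ B).map π → IsPGroup p P → IsCyclic P) {z : E} (hz : z ∈ π.ker) (hz' : z ∈ A ⊔ B) :
    z = 1 := by
  by_contra hne
  obtain ⟨p, hp, hd⟩ := Nat.exists_prime_and_dvd (mt orderOf_eq_one_iff.1 hne)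
  haveI := Fact.mk hp
  have p2 : p ≠ 2 := by
    rintro rfl
    exact Nat.prime_two.one_lt.ne' (h2.eq_one_of_dvd (hd.trans (π.ker.orderOf_dvd_natCard hz)))
  set M := A ⊔ B
  let y : M := ⟨z ^ (orderOf z / p), pow_mem hz' _⟩
  have hy : orderOf y = p := by
    rw [← orderOf_coe]; exact orderOf_pow_orderOf_div (orderOf_pos z).ne' hd
  have hk : y ∈ (π.comp M.subtype).ker := pow_mem hz _
  have hc' : (π.comp M.subtype).ker ≤ center M := fun a ha =>
    mem_center_iff.2 fun b => Subtype.ext (mem_center_iff.1 (hc ha) b)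
  have h1 : y ∈ commutator M := by
    have : IsPGroup 2 (⊤ : Subgroup (Abelianization M)) := by
      rw [← (MonoidHom.range_eq_top (f := Abelianization.of)).2 Quot.mk_surjective,
        MonoidHom.range_eq_map, ← subgroupOf_self, subgroupOf_sup le_sup_left le_sup_right, Subgroup.map_sup]
      exact IsPGroup.to_sup_of_normal_right (hA.comap_subtype.map _) (hB.comap_subtype.map _)
    obtain ⟨k, hk⟩ := this ⟨Abelianization.of y, mem_top _⟩
    rw [← Abelianization.ker_of]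
    refine mem_of_pow_mem (A := Abelianization.of.ker) (m := p) (n := 2 ^ k) (by rw [← hy, pow_orderOf_eq_one]) (by
      rw [MonoidHom.mem_ker, map_pow]; exact congrArg Subtype.val hk) ?_
    exact ((Nat.coprime_primes Nat.prime_two hp).2 p2.symm).pow_left k
  obtain ⟨Q⟩ := (inferInstance : Nonempty (Sylow p M))
  have h3 := pow_index_mem_commutator (Q : Subgroup M) (hc' hk) h1
  have h4 := commutator_comap_eq_bot_of_isCyclic hc' (h p hp p2 ((Q : Subgroup M).map (π.comp M.subtype))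
    (by rw [← Subgroup.map_map]; exact map_mono (map_subtype_le _)) (Q.isPGroup'.map _))
  have h5 := commutator_mono (le_comap_map (π.comp M.subtype) _) (le_comap_map (π.comp M.subtype) _) h3
  rw [h4, mem_bot, ← orderOf_dvd_iff_pow_eq_one, hy] at h5
  exact Q.not_dvd_index h5

end SpB

theorem L1_le {Φ I k : Type*} [DecidableEq I] [CommRing k] [LinearOrder k] {R : RS Φ I k}
    {G : Type*} [Group G] {X : RGD R G} [IsStrictOrderedRing k] [Fintype I] [Finite Φ] {i : I}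
    {H : Subgroup G} (h : X.U (R.simple i) ≤ H) {w : G} (hw : w ∈ X.U (R.neg (R.simple i)))
    (h1 : w ≠ 1) (h2 : w ∈ H) : X.L1 i ≤ H := by
  obtain ⟨a, n, b, d⟩ := exists_dc hw h1
  have hn : n ∈ H := by
    simpa [d.eq, mul_assoc] using mul_mem (mul_mem (inv_mem (h d.ha)) h2) (inv_mem (h d.hb))
  refine sup_le h fun g hg => ?_
  simpa [mul_assoc] using mul_mem (mul_mem (inv_mem hn) (h (conj_neg d.hn hg))) hn

namespace TR

variable {K : Type u} [Field K] [Finite K] (S : FD K)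

theorem cyc {m : ℕ} (hm : 1 ≤ m) (hF : Nat.card K = 2 ^ (2 * m + 1)) (he : ∀ t, S.θ t = t ^ 2 ^ m)
    {p : ℕ} (hp : p.Prime) (p2 : p ≠ 2) {P : Subgroup (GL chevF4.Idx K)} (hP : P ≤ S.X.L1 1)
    (h : IsPGroup p P) : IsCyclic P := by
  haveI := Fact.mk hp
  haveI := charP_two_of_card hF
  have h2 : Nat.gcd 2 (Nat.card K - 1) = 1 := by
    rw [hF, pow_succ]
    have := Nat.two_pow_pos (2 * m)
    exact Nat.coprime_two_left.2 ⟨2 ^ (2 * m) - 1, by omega⟩
  have h8 := (szDataB hm hF).eight_le_q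
  have hK : ∃ a : K, a ≠ 0 ∧ a ≠ 1 := by
    haveI := Fintype.ofFinite K
    obtain ⟨a, a0, a1, -⟩ := exists_five (K := K) ⟨Finset.univ, by
      rw [Finset.card_univ, ← Nat.card_eq_fintype_card, hF]; exact lt_of_lt_of_le (by norm_num) h8⟩
    exact ⟨a, a0, fun e => a1 (by rw [e, sub_self])⟩
  have e0 : ∀ (r : Fin chevB2.nroots) (t : K), embB2.φ r t = t := fun r t => by
    simp [Mor.φ, embB2, embB2D, pMor]
  obtain ⟨f, hf, ef⟩ := SpB.exists_inj h2 hK (Mor.pull (embB2_fld K) (chevSt chevF4 K)) (r := 4) (t := 1)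
    (by rw [Mor.pull_x, e0]; exact mt (StSys.x_eq_one_iff chevNC chevNM).1 one_ne_zero)
  obtain ⟨g, hg, eg⟩ := SpB.exists_inj h2 hK (SpB.st K) (r := 4) (t := 1) fun e => by
    simpa [SpB.mx] using congrFun (congrFun (show SpB.mx 4 (1 : K) = 1 from congrArg Units.val e) 1) 2
  have hθ : ∀ x, szTheta hF x = S.θ x ^ 2 := fun x => by rw [szTheta_apply, he, pow_succ, pow_mul]
  have hθ' : ∀ x, szTheta hF (szTheta hF x) = x ^ 2 := fun x => by rw [hθ, hθ, S.θ_sq]
  have e : ∀ r t, f ((stSt chevB2 K).x r t) = x (embB2.ρ r) t := fun r t => by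
    rw [ef, Mor.pull_x, e0]
  have k : ∀ a b c d t u, IsSz (szTheta hF) (SpB.mx a.1 (S.θ t) * SpB.mx b.1 t *
      SpB.mx c.1 (S.θ t * t + u) * SpB.mx d.1 (S.θ u ^ 2)) → S.ub (embB2.ρ a) (embB2.ρ b) (embB2.ρ c)
      (embB2.ρ d) t u ∈ ((Lie.Sz K (2 ^ (m + 1))).comap g).map f := fun a b c d t u h =>
    ⟨(stSt chevB2 K).x a (S.θ t) * (stSt chevB2 K).x b t * (stSt chevB2 K).x c (S.θ t * t + u) *
      (stSt chevB2 K).x d (S.θ u ^ 2), (mem_lieSz_iff hF _).2 (by
        simp only [map_mul, eg _ _]; exact h), by simp only [map_mul, e]; rfl⟩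
  refine SpB.cyc_of_two hf hg (fun P => (szDataB hm hF).isCyclic_of_isPGroup p2)
    (hP.trans (L1_le (fun w hw => ?_) (S.ubm_mem 1 0) S.ubm_ne_one ?_)) h
  · obtain ⟨t, u, rfl⟩ := S.mem_U7.1 hw
    refine k 5 4 6 7 t u ?_
    convert isSz_szU _ hθ' (S.θ t) (S.θ t * t + u) using 1
    simp only [szU, szf, hθ, S.hθ, map_add, map_mul, S.sq_add, mul_pow]
    change SpB.mx 5 _ * SpB.mx 4 _ * SpB.mx 6 _ * SpB.mx 7 _ = _
    simp only [SpB.mx, SpB.mul4, EmbeddingLike.apply_eq_iff_eq, Matrix.vecCons_inj]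
    have := S.two
    and_intros <;> grind
  · refine k 2 3 1 0 1 0 ?_
    convert ((isSz_form _).mul (isSz_szU _ hθ' 1 1)).mul (isSz_form _) using 1
    change SpB.mx 2 _ * SpB.mx 3 _ * SpB.mx 1 _ * SpB.mx 0 _ = _
    simp only [szU, szf, map_one, map_zero, suzukiForm, SpB.mx, SpB.mul4, EmbeddingLike.apply_eq_iff_eq,
      Matrix.vecCons_inj]
    have := S.two
    and_intros <;> grind

theorem mb {m : ℕ} (hm : 1 ≤ m) (hF : Nat.card K = 2 ^ (2 * m + 1)) (he : ∀ t, S.θ t = t ^ 2 ^ m) :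
    MB S.G 1 := by
  haveI := charP_two_of_card hF
  haveI := Fintype.ofFinite K
  have hX : (Y S).CharP 2 := (twist_charP S.tw (chev_charP 2)).sub _
  refine mb_of Nat.prime_two (pt_of_lift hX (sub_grp_eq_top _ S.X_grp.ge) fun E _ _ π H =>
    lift S H ⟨Finset.univ, by
      rw [Finset.card_univ, ← Nat.card_eq_fintype_card, hF]
      exact lt_of_lt_of_le (by norm_num) (szDataB hm hF).eight_le_q⟩) fun E _ _ π hπ hc => ?_
  obtain ⟨L, hL, hp, h⟩ := exists_lift_prod hX (by rw [sub_US, ← S.G_eq_US, subgroupOf_self]) hπ hc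
  have o1 : Orth (D := chevF4) 24 33 := by decide +kernel
  have n : (rsOf chevF4).neg 24 = 23 ∧ (rsOf chevF4).neg 33 = 14 := by decide +kernel
  obtain ⟨r0, e0⟩ := r1_sub (X := S.X) S.tw.rgd_grp.le (i := 0) (rel_two o1 S.θ).1
    (fun _ => S.mem_U0.trans (exists_congr fun t => by rw [(o1.pp _ _).eq]; rfl))
    fun t => by rw [(o1.nn _ _).eq, n.1, n.2]; exact S.um_mem t
  obtain ⟨η, a0, b0, c0⟩ := r0.exists_lift L hL
  refine (card_eq_one.2 (eq_bot_iff.2 fun z hz => ?_)).le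
  obtain ⟨f, hf, rfl⟩ := h [0, 1] (by decide) (by decide) z hz
  obtain ⟨t, t0, et⟩ := c0 _ (hf 0)
  simp only [List.map_cons, List.map_nil, List.prod_cons, List.prod_nil, mul_one, et] at hz ⊢
  obtain rfl : t = 1 := by
    by_contra t1
    have h1 : (Y S).L1 1 ≤ centralizer ((Y S).U 3 : Set S.G) := sup_le
      (fun a ha => mem_centralizer_iff.2 fun b hb =>
        comm_of S (r := 3) (s := 7) (by decide +kernel) b hb a ha)
      fun a ha => mem_centralizer_iff.2 fun b hb =>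
        comm_of S (r := 3) (s := 15) (by decide +kernel) b hb a ha
    have h2 := inv_mem (h1 (map_L1 L hL (hf 1).1))
    have h3 : S.hh (Units.mk0 t t0, 1) = (chevSt chevF4 K).h 24 t * (chevSt chevF4 K).h 33 (S.θ t) := by
      have : S.hc (Units.mk0 t t0, 1) = Pi.mulSingle 3 (Units.mk0 t t0) *
          Pi.mulSingle 0 (Units.map S.θ.toMonoidHom (Units.mk0 t t0)) := by
        funext i
        rcases (by decide : ∀ i : Fin chevF4.rank, i = 0 ∨ i = 1 ∨ i = 2 ∨ i = 3) i with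
          rfl | rfl | rfl | rfl <;> simp only [Pi.mul_apply, Pi.mulSingle_apply] <;>
          simp +decide [FD.hc]
      rw [FD.hh, MonoidHom.comp_apply, this, map_mul, HH_single, HH_single]
      rfl
    rw [MonoidHom.mem_ker, map_mul, mul_eq_one_iff_eq_inv] at hz
    rw [← hz, b0] at h2
    obtain ⟨w, hw, w1⟩ := (Y S).exists_ne_one 3
    refine w1 (Subtype.ext (HH_fpf S.tw (c := S.hc (Units.mk0 t t0, 1)) (fun a ha e => ?_) w hw ?_))
    · have : ∀ a, foldF4.π a = 3 → chevF4.cartan 0 a ^ 2 - 2 * chevF4.cartan 3 a ^ 2 ∣ 8 := by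
        decide +kernel
      rw [chi, map_one, one_zpow, one_zpow, mul_one, mul_one] at e
      exact t1 (congrArg Units.val (eq_one_of S e (this a ha)))
    · have := congrArg Subtype.val (mem_centralizer_iff.1 h2 w hw)
      rw [coe_mul, coe_mul, e0, (rel_two o1 S.θ).2, ← h3] at this
      exact this.symm
  rw [a0, one_mul] at hz ⊢
  refine SpB.ker_inf_eq_one hπ.2.1 hc (hp _) (hp _) (fun p hp p2 P hP h => ?_) hz (hf 1).1
  refine (equivMapOfInjective P _ S.G.subtype_injective).isCyclic.2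
    (cyc S hm hF he hp p2 ?_ (h.map _))
  rintro _ ⟨g, hg, rfl⟩
  obtain ⟨a, ha, rfl⟩ := hP hg
  exact (sup_le (comap_mono le_sup_left) (comap_mono le_sup_right) :
    (Y S).L1 1 ≤ (S.X.L1 1).comap S.G.subtype) (map_L1 L hL (i := 1) ha)

end TR

end Cfsg.Agent.H17
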