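import Mathlib
import Cfsg.Agent.H17.MulT
import Cfsg.Agent.H11.OOut3

/-!
The spin groups, and the Schur multipliers of the orthogonal groups.
-/

set_option autoImplicit false
set_option linter.unusedSectionVars false

namespace Cfsg.Agent.H17

open Subgroup H10 H11 H12 Module CliffordAlgebra
open scoped commutatorElement

universe u

section Spin

variable {F : Type u} [Field F] {V : Type u} [AddCommGroup V] [Module F V]
  {B : V →ₗ[F] V →ₗ[F] F} {Q : V → F} (h : IsQuad B Q)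

theorem involute_prod_mul (l : List V) (hl : ∀ v ∈ l, Q v ≠ 0) (v : V) :
    involute (l.map (ι h.toQF)).prod * ι h.toQF v =
      ι h.toQF (((l.map h.reflO).prod).1 v) * (l.map (ι h.toQF)).prod := by
  induction l generalizing v with
  | nil => simp
  | cons a l ih =>
    have ha : Q a ≠ 0 := hl a (by simp)
    simp only [List.map_cons, List.prod_cons, map_mul, involute_ι, Subgroup.coe_mul,
      LinearEquiv.mul_apply]
    rw [mul_assoc, ih (fun v hv => hl v (by simp [hv])), ← mul_assoc, ← mul_assoc]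
    congr 1
    generalize ((l.map h.reflO).prod).1 v = w
    rw [h.reflO_apply, map_sub, map_smul, sub_mul, smul_mul_assoc, ι_sq_scalar, neg_mul,
      ι_mul_ι_comm (Q := h.toQF) a w, Algebra.smul_def, ← map_mul (algebraMap F _),
      h.toQF_apply]
    have : QuadraticMap.polar h.toQF a w = (Q a)⁻¹ * B a w * Q a := by
      rw [show QuadraticMap.polar h.toQF a w = B a w from h.polar_eq a w]; field_simp
    rw [this]; abel

theorem prod_mul_reverse (l : List V) : (l.map (ι h.toQF)).prod * reverse (l.map (ι h.toQF)).prod =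
    algebraMap F _ (l.map Q).prod ∧ reverse (l.map (ι h.toQF)).prod * (l.map (ι h.toQF)).prod =
    algebraMap F _ (l.map Q).prod := by
  induction l with
  | nil => simp
  | cons a l ih =>
    simp only [List.map_cons, List.prod_cons, reverse.map_mul, reverse_ι, map_mul]
    constructor
    · rw [mul_assoc, ← mul_assoc _ (reverse _), ih.1, Algebra.commutes, ← mul_assoc, ι_sq_scalar]
      rfl
    · rw [mul_assoc, ← mul_assoc (ι _ a), ι_sq_scalar, ← mul_assoc, ← Algebra.commutes, mul_assoc, ih.2]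
      rfl

theorem prod_sq (l : List V) (hl : ∀ v ∈ l, Q v ≠ 0) (ho : l.Pairwise fun x y => B x y = 0) :
    (l.map (ι h.toQF)).prod * (l.map (ι h.toQF)).prod =
      algebraMap F _ ((-1) ^ l.length.choose 2 * (l.map Q).prod) := by
  induction l with
  | nil => simp
  | cons a l ih =>
    have hl' : ∀ v ∈ l, Q v ≠ 0 := fun v hv => hl v (by simp [hv])
    rw [List.pairwise_cons] at ho
    have h1 := involute_prod_mul h l hl' a
    rw [(h.prod_reflO_orth l hl' ho.2).2 a fun v hv => h.refl (ho.1 v hv), involute_prod_map_ι,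
      smul_mul_assoc] at h1
    have h2 : (l.map (ι h.toQF)).prod * ι h.toQF a =
        (-1 : F) ^ l.length • (ι h.toQF a * (l.map (ι h.toQF)).prod) := by
      rw [← h1, smul_smul, ← mul_pow]; simp
    simp only [List.map_cons, List.prod_cons, List.length_cons]
    rw [mul_assoc, ← mul_assoc _ (ι _ a), h2, smul_mul_assoc, mul_assoc, ih hl' ho.2, mul_smul_comm,
      ← mul_assoc, ι_sq_scalar, ← map_mul, Algebra.smul_def, ← map_mul, Nat.choose_succ_succ',
      Nat.choose_one_right, h.toQF_apply]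
    congr 1; ring

/-- the spin group -/
def spinG : Subgroup ((CliffordAlgebra h.toQF)ˣ × commutator (Isom B Q)) where
  carrier := {x | involute x.1.1 = x.1.1 ∧ x.1.1 * reverse x.1.1 = 1 ∧
    ∀ v, x.1.1 * ι h.toQF v = ι h.toQF (x.2.1.1 v) * x.1.1}
  one_mem' := by simp
  mul_mem' := fun {x y} hx hy => ⟨by simp [hx.1, hy.1], by
    simp only [Prod.fst_mul, Units.val_mul, reverse.map_mul]
    rw [mul_assoc, ← mul_assoc y.1.1, hy.2.1, one_mul, hx.2.1], fun v => by
    simp only [Prod.fst_mul, Units.val_mul]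
    rw [mul_assoc, hy.2.2, ← mul_assoc, hx.2.2, mul_assoc]; rfl⟩
  inv_mem' := fun {x} hx => by
    have e : (x.1⁻¹).1 = reverse x.1.1 := (Units.eq_inv_of_mul_eq_one_left hx.2.1).symm
    refine ⟨?_, ?_, fun v => ?_⟩
    · rw [Prod.fst_inv, e, ← reverse_involute, hx.1]
    · rw [Prod.fst_inv, e, reverse_reverse, ← e, Units.inv_mul]
    · rw [Prod.fst_inv, Units.inv_mul_eq_iff_eq_mul, ← mul_assoc, hx.2.2, Units.mul_inv_cancel_right]
      simp [LinearEquiv.coe_inv]

/-- the spin covering -/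
def spinπ : spinG h →* commutator (Isom B Q) := (MonoidHom.snd _ _).comp (spinG h).subtype

theorem exists_spin_list (l : List V) (hl : ∀ v ∈ l, Q v ≠ 0) (he : Even l.length) {c : F}
    (hc : (l.map Q).prod = c * c) (hm : (l.map h.reflO).prod ∈ commutator (Isom B Q)) :
    ∃ x : spinG h, spinπ h x = ⟨_, hm⟩ ∧ x.1.1.1 = c⁻¹ • (l.map (ι h.toQF)).prod := by
  have h0 : c ≠ 0 := fun e => IsQuad.prod_map_ne_zero hl (by rw [hc, e, zero_mul])
  have h1 := prod_mul_reverse h l
  have h2 : ∀ x y : CliffordAlgebra h.toQF, x * y = algebraMap F _ (l.map Q).prod →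
      c⁻¹ • x * c⁻¹ • y = 1 := fun x y e => by
    rw [smul_mul_smul_comm, e, hc, Algebra.smul_def, ← map_mul, ← mul_inv, inv_mul_cancel₀
      (mul_ne_zero h0 h0), map_one]
  have h3 : involute (l.map (ι h.toQF)).prod = (l.map (ι h.toQF)).prod := by
    rw [involute_prod_map_ι, he.neg_one_pow, one_smul]
  refine ⟨⟨(⟨_, _, h2 _ _ h1.1, h2 _ _ h1.2⟩, ⟨_, hm⟩), by simp only [map_smul, h3], by
    simp only [map_smul]; exact h2 _ _ h1.1, fun v => ?_⟩, rfl, rfl⟩
  simp only [smul_mul_assoc, mul_smul_comm]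
  rw [← involute_prod_mul h l hl, h3]

/-- the central involution -/
def spinNeg : spinG h := ⟨(-1, 1), by simp, by simp, by simp⟩

variable [FiniteDimensional F V] (hB : B.SeparatingLeft) (h2 : (2 : F) ≠ 0)
include hB h2

theorem mem_ker_spin {x : spinG h} : x ∈ (spinπ h).ker ↔ x = 1 ∨ x = spinNeg h := by
  refine ⟨fun hx => ?_, by rintro (rfl | rfl) <;> [exact one_mem _; rfl]⟩
  have h1 : x.1.2 = 1 := hx
  obtain ⟨c, hc⟩ := clifford_scalar_of_contract h.toQF x.1.1.1 fun d => by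
    obtain ⟨w, hw⟩ := exists_form_eq (σ := RingHom.id F) (fun _ => rfl) hB d
    have hw' : h.toQF.polarBilin w = d := by rw [h.toQF_polarBilin, hw]
    rw [← hw', ← clifford_commutator, x.2.1, x.2.2.2, h1]
    simp
  letI := invertibleOfNonzero h2
  have h3 := x.2.2.1
  rw [hc, reverse.commutes, ← map_mul, ← map_one (algebraMap F _)] at h3
  refine (mul_self_eq_one_iff.1 ((algebraMap F _).injective h3)).imp (fun e => ?_) fun e => ?_ <;>
    exact Subtype.ext (Prod.ext (Units.ext (by simp [hc, e, spinNeg])) h1)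

omit hB in
theorem spinNeg_ne : spinNeg h ≠ 1 := fun e => by
  letI := invertibleOfNonzero h2
  have : (-1 : CliffordAlgebra h.toQF) = 1 := congrArg (fun x : spinG h => x.1.1.1) e
  refine h2 ((algebraMap F (CliffordAlgebra h.toQF)).injective ?_)
  rw [map_zero, map_ofNat, ← one_add_one_eq_two, add_eq_zero_iff_eq_neg, this]

theorem card_ker_spin : Nat.card (spinπ h).ker = 2 := by
  rw [Nat.card_eq_two_iff' 1]
  refine ⟨⟨_, (mem_ker_spin h hB h2).2 (Or.inr rfl)⟩, fun e => spinNeg_ne h h2 (congrArg Subtype.val e),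
    fun y hy => Subtype.ext (((mem_ker_spin h hB h2).1 y.2).resolve_left fun e => hy (Subtype.ext e))⟩

theorem spin_ext {x y : spinG h} (e : x.1.1 = y.1.1) : x = y := by
  refine Subtype.ext (Prod.ext e (Subtype.ext (Subtype.ext (LinearEquiv.ext fun v => ?_))))
  have h1 := x.2.2.2 v
  rw [e, y.2.2.2, Units.mul_left_inj, ← sub_eq_zero, ← map_sub] at h1
  letI := invertibleOfNonzero h2
  refine (sub_eq_zero.1 (hB _ fun w => (algebraMap F (CliffordAlgebra h.toQF)).injective ?_)).symm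
  have := ι_mul_ι_add_swap (Q := h.toQF) (y.1.2.1.1 v - x.1.2.1.1 v) w
  rw [h1, zero_mul, mul_zero, add_zero] at this
  rw [← h.polar_eq, map_zero]; exact this.symm

variable [Finite F]

theorem stem_spin (hn : 4 ≤ finrank F V) : IsStemExtension (spinπ h) := by
  classical
  haveI := Fintype.ofFinite F
  have hex := h.nonExc_of_two_ne_zero hB h2
  refine ⟨fun g => ?_, fun x hx => ?_, fun x hx => ?_⟩
  · obtain ⟨l, hl, e⟩ := h.exists_list_reflO hB hex g
    obtain ⟨he, c, hc⟩ := (h.prod_mem_commutator_iff hB hex l hl).1 (e ▸ g.2)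
    obtain ⟨x, hx, -⟩ := exists_spin_list h l hl he hc (e ▸ g.2)
    exact ⟨x, hx.trans (Subtype.ext e)⟩
  · rcases (mem_ker_spin h hB h2).1 hx with rfl | rfl
    · exact one_mem _
    · exact mem_center_iff.2 fun g => Subtype.ext (by simp [spinNeg, Prod.ext_iff])
  rcases (mem_ker_spin h hB h2).1 hx with rfl | rfl
  · exact one_mem _
  obtain ⟨n, hn'⟩ : ∃ n, finrank F V = n + 3 + 1 := ⟨finrank F V - 4, by omega⟩
  obtain ⟨b, h3, h4, -⟩ := h.exists_orth_basis hB h2 hn' one_ne_zero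
  have key : ∀ j i : Fin (n + 3), ∃ x : spinG h,
      x.1.1.1 = ι h.toQF (b j.castSucc) * ι h.toQF (b i.castSucc) := fun j i => by
    have hl : ∀ v ∈ [b j.castSucc, b i.castSucc], Q v ≠ 0 := by simp [h4]
    obtain ⟨x, -, hx⟩ := exists_spin_list h _ hl (by simp) (c := 1) (by simp [h4])
      ((h.prod_mem_commutator_iff hB hex _ hl).2 (by simp [h4]))
    exact ⟨x, by simpa using hx⟩
  obtain ⟨i, j, m, h9, h10, h11⟩ : ∃ i j m : Fin (n + 3), j ≠ i ∧ m ≠ i ∧ j ≠ m :=
    ⟨⟨0, by omega⟩, ⟨1, by omega⟩, ⟨2, by omega⟩, by simp, by simp, by simp⟩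
  obtain ⟨x, hx⟩ := key i j
  obtain ⟨y, hy⟩ := key i m
  have h5 : ∀ i j : Fin (n + 3), i ≠ j → ι h.toQF (b i.castSucc) * ι h.toQF (b j.castSucc) =
      -(ι h.toQF (b j.castSucc) * ι h.toQF (b i.castSucc)) := fun i j e =>
    ι_mul_ι_comm_of_isOrtho (QuadraticMap.isOrtho_polarBilin.1 (by
      rw [h.toQF_polarBilin]; exact h3 _ _ (by simpa using e)))
  have h6 : x.1.1 * y.1.1 = -(y.1.1 * x.1.1) := Units.ext (by
    simp only [Units.val_mul, Units.val_neg, hx, hy]
    rw [mul_assoc, mul_assoc, ← mul_assoc (ι _ (b j.castSucc)), ← mul_assoc (ι _ (b m.castSucc)),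
      h5 j i h9, h5 m i h10, neg_mul, neg_mul, mul_assoc, mul_assoc, h5 j m h11]
    simp)
  have h7 : (⁅x, y⁆ : spinG h).1.1 = -1 := by
    change x.1.1 * y.1.1 * x.1.1⁻¹ * y.1.1⁻¹ = _
    rw [h6]; simp
  rw [← spin_ext h hB h2 (y := spinNeg h) h7]
  exact commutator_mem_commutator (mem_top _) (mem_top _)

theorem spin_sq {l : ℕ} (hl : finrank F V = 2 * l) (hn : 1 ≤ l)
    (hm : h.negI ∈ commutator (Isom B Q)) {y : spinG h} (hy : spinπ h y = ⟨_, hm⟩) :
    y ^ 2 = spinNeg h ^ l := by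
  classical
  haveI := Fintype.ofFinite F
  have hex := h.nonExc_of_two_ne_zero hB h2
  obtain ⟨b, h3, h4, h5⟩ := h.exists_orth_basis hB h2 (n := 2 * l - 1) (by omega) one_ne_zero
  have h6 : ∀ v ∈ List.ofFn b, Q v ≠ 0 := List.forall_mem_ofFn_iff.2 fun i => by
    refine Fin.lastCases h5 (fun i => ?_) i
    simp [h4]
  have h7 : (List.ofFn b).Pairwise fun x y => B x y = 0 :=
    List.pairwise_ofFn.2 fun i j e => h3 i j e.ne
  have e : ((List.ofFn b).map h.reflO).prod = h.negI := Subtype.ext (LinearEquiv.toLinearMap_injective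
    (b.ext fun i => (h.prod_reflO_orth _ h6 h7).1 _ (List.mem_ofFn.2 ⟨i, rfl⟩)))
  obtain ⟨he, c, hc⟩ := (h.prod_mem_commutator_iff hB hex _ h6).1 (e ▸ hm)
  obtain ⟨x, hx, hx'⟩ := exists_spin_list h _ h6 he hc (e ▸ hm)
  have h0 : c ≠ 0 := fun e => IsQuad.prod_map_ne_zero h6 (by rw [hc, e, zero_mul])
  have h8 : x ^ 2 = spinNeg h ^ l := spin_ext h hB h2 (Units.ext (by
    change x.1.1.1 ^ 2 = (-1) ^ l
    rw [sq, hx', smul_mul_smul_comm, prod_sq h _ h6 h7, hc, Algebra.smul_def, ← map_mul,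
      List.length_ofFn, show 2 * l - 1 + 1 = 2 * l by omega, Nat.choose_two_right, mul_assoc 2,
      Nat.mul_div_cancel_left _ two_pos, mul_comm l, pow_mul, Odd.neg_one_pow ⟨l - 1, by omega⟩,
      mul_left_comm, ← mul_inv, inv_mul_cancel₀ (mul_ne_zero h0 h0), mul_one, map_pow, map_neg,
      map_one]))
  obtain ⟨z, hz, rfl⟩ := eq_mul_of_map_eq (hy.trans ((hx.trans (Subtype.ext e)).symm))
  rcases (mem_ker_spin h hB h2).1 hz with rfl | rfl
  · rw [mul_one, h8]
  · rw [← h8]; exact spin_ext h hB h2 (by simp [spinNeg, sq])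

theorem exists_spin (hn : 5 ≤ finrank F V) : ∃ (Δ : Type u) (_ : Group Δ)
    (τ : Δ →* commutator (Isom B Q) ⧸ center (commutator (Isom B Q))), IsStemExtension τ ∧
    Nat.card τ.ker = 2 * Nat.card (center (commutator (Isom B Q))) ∧
    ∀ l, finrank F V = 2 * l → h.negI ∈ commutator (Isom B Q) →
      (Odd l → IsCyclic τ.ker) ∧ (Even l → ∀ y ∈ τ.ker, y ^ 2 = 1) := by
  have hs := stem_spin h hB h2 (by omega)
  have hp := h.commutator_perfect hB hn
  have hex := h.nonExc_of_two_ne_zero hB h2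
  have hk : ∀ y, y ∈ ((QuotientGroup.mk' (center _)).comp (spinπ h)).ker ↔ spinπ h y ∈ center _ :=
    fun y => QuotientGroup.eq_one_iff _
  have h1 := (QuotientGroup.mk'_surjective (center _)).comp hs.1
  have h3 : Nat.card ((QuotientGroup.mk' (center _)).comp (spinπ h)).ker =
      2 * Nat.card (center (commutator (Isom B Q))) := by
    have := card_eq_mul_ker (f := (QuotientGroup.mk' (center _)).comp (spinπ h)) h1
    rw [card_eq_mul_ker hs.1, card_ker_spin h hB h2, card_eq_mul_ker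
      (QuotientGroup.mk'_surjective (center _)), QuotientGroup.ker_mk', ← mul_assoc] at this
    exact (Nat.eq_of_mul_eq_mul_right Nat.card_pos this).symm
  have h4 : spinNeg h ^ 2 = 1 := spin_ext h hB h2 (by simp [spinNeg, sq])
  refine ⟨_, _, (QuotientGroup.mk' (center _)).comp (spinπ h), ⟨h1, fun y hy => mem_center_iff.2
    fun g => (commute_of_mem_commutator hs.1 hs.2.1 (C := ⊤)
      (fun c _ => mem_center_iff.1 ((hk y).1 hy) c) (hp.ge (mem_top _))).symm,
    by rw [commutator_eq_top_of_stem hs hp]; exact le_top⟩, h3, fun l hl hm => ⟨fun ho => ?_,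
    fun he y hy => ?_⟩⟩
  · obtain ⟨y, hy⟩ := hs.1 ⟨_, hm⟩
    have h5 := spin_sq h hB h2 hl (by omega) hm hy
    obtain ⟨m, rfl⟩ := ho
    rw [pow_succ (spinNeg h), pow_mul, h4, one_pow, one_mul] at h5
    rw [h.card_center_commutator_two hB h2 (by omega) hm] at h3
    haveI := Nat.finite_of_card_ne_zero (h3.trans_ne (by simp))
    refine isCyclic_of_orderOf_eq_card ⟨y, (hk y).2 (hy ▸ (h.mem_center_commutator_iff hB hex
      (by omega) _).2 (Or.inr rfl))⟩ ?_
    rw [h3, ← orderOf_coe]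
    exact orderOf_eq_prime_pow (p := 2) (n := 1) (by rw [pow_one, h5]; exact spinNeg_ne h h2)
      (by rw [pow_succ, pow_mul, pow_one, h5, h4])
  · rcases (h.mem_center_commutator_iff hB hex (by omega) _).1 ((hk y).1 hy) with e | e
    · rcases (mem_ker_spin h hB h2).1 (Subtype.ext e) with rfl | rfl
      · exact one_pow _
      · exact h4
    · obtain ⟨m, rfl⟩ := he
      rw [spin_sq h hB h2 hl (by omega) hm (Subtype.ext e), ← two_mul, pow_mul, h4, one_pow]

end Spin

section Final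

theorem MB.mono {G : Type u} [Group G] {m n : ℕ} (h : MB G m) (hn : m ≤ n) : MB G n :=
  fun Γ _ _ σ hσ => (h Γ σ hσ).trans hn

theorem MB.pm {G : Type u} [Group G] {F K : Type*} [Field F] [Field K] [Algebra F K] {_ : DecidableEq K}
    (h : MB G ({1, -1} : Finset K).card) : MB G 2 ∧ ((2 : F) = 0 → MB G 1) :=
  ⟨h.mono Finset.card_le_two, fun e => h.mono (by
    have : (-1 : K) = 1 := by
      rw [neg_eq_iff_add_eq_zero, one_add_one_eq_two, ← map_ofNat (algebraMap F K), e, map_zero]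
    simp [this])⟩

variable {F : Type u} [Field F] [Fintype F]

theorem mb_odd {m : ℕ} (h2 : (2 : F) ≠ 0) (hm : 3 ≤ m) (h : ¬ (m = 3 ∧ Fintype.card F = 3)) :
    MB (clOdd m h2).Om 2 := by
  obtain ⟨P, -⟩ := frame_odd m h2
  obtain ⟨φ, c, hφ⟩ := P.exists_yf_one (by
    have : finrank F P.V0 + 2 * m = _ := P.finrank_V0
    simp only [finrank_fintype_fun_eq_card, Fintype.card_sum, Fintype.card_fin, Fintype.card_unit] at this
    omega)
  have h3 : Fintype.card F ≠ 2 := fun e => h2 (by simpa [e] using FiniteField.cast_card_eq_zero F)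
  have := Fintype.one_lt_card (α := F)
  exact (hφ.mb rfl (show 1 ≤ m by omega) fun p _ _ => P.pt_orth p hm (fun e => absurd e h3)
    fun _ => by change 4 ≤ m ∨ _; omega).pm (F := F) |>.1

theorem mb_plus {m : ℕ} (hm : 3 ≤ m) (h : Fintype.card F = 2 → 5 ≤ m) :
    MB (clPlus m F).Om 2 ∧ ((2 : F) = 0 → MB (clPlus m F).Om 1) := by
  obtain ⟨P, -⟩ := frame_plus (m := m) (by omega) F
  classical
  exact (P.mb_D rfl hm h).pm

theorem mb_minus {m : ℕ} (hm : 3 ≤ m) {a b : F}
    (hab : ∀ z₁ z₂ : F, z₁ ^ 2 + a * z₁ * z₂ + b * z₂ ^ 2 = 0 → z₁ = 0 ∧ z₂ = 0) :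
    MB (clMinus m hab).Om 2 ∧ ((2 : F) = 0 → MB (clMinus m hab).Om 1) := by
  obtain ⟨P, -⟩ := frame_minus m hab
  obtain ⟨c, d, _, φ, e, hφ, ht⟩ := P.exists_yf_two (by
    have : finrank F P.V0 + 2 * m = _ := P.finrank_V0
    simp only [finrank_fintype_fun_eq_card, Fintype.card_sum, Fintype.card_fin] at this
    omega)
  haveI : Finite (QuadraticAlgebra F c d) := Module.finite_of_finite F
  have hG := hφ.hg rfl (.inl ⟨0, show 0 < m by omega⟩) ht
  classical
  exact (hφ.mb rfl (show 1 ≤ m by omega) fun p _ _ => P.pt_orth p hm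
    (fun _ => ⟨by simp [ctB], fun _ => hG⟩) fun _ => Or.inr (Or.inr hG)).pm

variable {ι : Type} [Fintype ι] [DecidableEq ι] {B : (ι → F) →ₗ[F] (ι → F) →ₗ[F] F}
  {Q : (ι → F) → F} (h : Cl (σ := RingHom.id F) 1 2 (AddMonoidHom.id F) B Q)
  (hn : 5 ≤ Fintype.card ι)
include hn

theorem mb_pomega {m : ℕ} (H : MB h.Om m) :
    MB (POmega F Q) (m * Nat.card (center (commutator (Isom B Q)))) := by
  have hQ : IsQuad B Q := h.form
  have := ((H.equiv ((omegaEquiv hQ).symm.trans (omOm h (hQ.nonExc_of_finrank h.sep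
    (by simp; omega)) (by omega)))).quot (hQ.commutator_perfect h.sep (by simpa))
    (QuotientGroup.mk'_surjective (center _))).equiv (pomegaEquiv hQ)
  rwa [QuotientGroup.ker_mk'] at this

theorem mb_pomega_two (h2 : (2 : F) = 0) (H : MB h.Om 1) : MB (POmega F Q) 1 := by
  have hQ : IsQuad B Q := h.form
  have := mb_pomega h hn H
  rwa [hQ.center_commutator_eq_bot h.sep (hQ.nonExc_of_finrank h.sep (by simp; omega))
    (by simp; omega) (Or.inl h2), card_bot] at this

theorem exists_pomega (h2 : (2 : F) ≠ 0) (H : MB h.Om 2) : ∃ (Δ : Type u) (_ : Group Δ)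
    (τ : Δ →* POmega F Q), IsStemExtension τ ∧ MB (POmega F Q) (Nat.card τ.ker) ∧
    (IsQuad.negI h.form ∉ commutator (Isom B Q) → Nat.card τ.ker = 2) ∧
    ∀ l, Fintype.card ι = 2 * l → IsQuad.negI h.form ∈ commutator (Isom B Q) → Nat.card τ.ker = 4 ∧
      (Odd l → IsCyclic τ.ker) ∧ (Even l → ∀ y ∈ τ.ker, y ^ 2 = 1) := by
  have hQ : IsQuad B Q := h.form
  obtain ⟨Δ, _, τ, h3, h4, h5⟩ := exists_spin hQ h.sep h2 (by simpa)
  obtain ⟨h6, h7⟩ := stem_comp_equiv h3 (pomegaEquiv hQ).symm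
  refine ⟨Δ, _, _, h6, ?_⟩
  rw [h7, h4]
  refine ⟨mb_pomega h hn H, fun e => ?_, fun l hl e => ⟨?_, h5 l (by simpa) e⟩⟩
  · rw [hQ.center_commutator_eq_bot h.sep (hQ.nonExc_of_finrank h.sep (by simp; omega))
      (by simp; omega) (Or.inr e), card_bot]
  · rw [hQ.card_center_commutator_two h.sep h2 (by simp; omega) e]

theorem pomega_two (h2 : (2 : F) ≠ 0) (H : MB h.Om 2)
    (e : IsQuad.negI h.form ∉ commutator (Isom B Q)) : HasCyclicSchurMultiplier (POmega F Q) 2 := by
  obtain ⟨Δ, _, τ, h3, h4, h5, -⟩ := exists_pomega h hn h2 H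
  exact h4.hasCyclic h3 (isCyclic_of_prime_card (h5 e)) (h5 e)

theorem pomega_four (h2 : (2 : F) ≠ 0) (H : MB h.Om 2) {l : ℕ} (hl : Fintype.card ι = 2 * l)
    (ho : Odd l) (e : IsQuad.negI h.form ∈ commutator (Isom B Q)) :
    HasCyclicSchurMultiplier (POmega F Q) 4 := by
  obtain ⟨Δ, _, τ, h3, h4, -, h5⟩ := exists_pomega h hn h2 H
  exact h4.hasCyclic h3 ((h5 l hl e).2.1 ho) (h5 l hl e).1

theorem pomega_klein (h2 : (2 : F) ≠ 0) (H : MB h.Om 2) {l : ℕ} (hl : Fintype.card ι = 2 * l)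
    (ho : Even l) (e : IsQuad.negI h.form ∈ commutator (Isom B Q)) :
    HasSchurMultiplier (POmega F Q) (Multiplicative (ZMod 2 × ZMod 2)) := by
  obtain ⟨Δ, _, τ, h3, h4, -, h5⟩ := exists_pomega h hn h2 H
  obtain ⟨h6, -, h7⟩ := h5 l hl e
  haveI := Nat.finite_of_card_ne_zero (h6.trans_ne (by simp))
  haveI : Nontrivial τ.ker := Finite.one_lt_card_iff_nontrivial.1 (by omega)
  haveI : IsKleinFour τ.ker := ⟨h6, (Monoid.exponent_eq_prime_iff Nat.prime_two).2 fun y hy =>
    orderOf_eq_prime (Subtype.ext (h7 ho y y.2)) hy⟩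
  exact h4.hasSchur h3 IsKleinFour.nonempty_mulEquiv.some

omit hn in
theorem even_of_two (h2 : (2 : F) = 0) : Fintype.card F % 2 = 0 :=
  FiniteField.even_card_of_char_two (ringChar_eq_two_of h2)

omit hn in
theorem odd_of_two (h2 : (2 : F) ≠ 0) : Fintype.card F % 2 = 1 :=
  FiniteField.odd_card_of_char_ne_two (ringChar_ne_two_of h2)

omit hn in
theorem pow_mod_four {q : ℕ} (hq : q % 2 = 1) (l : ℕ) :
    q ^ l % 4 = if Odd l ∧ q % 4 = 3 then 3 else 1 := by
  rw [Nat.pow_mod]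
  rcases (by omega : q % 4 = 1 ∨ q % 4 = 3) with e | e <;> rw [e]
  · simp
  · rcases Nat.even_or_odd' l with ⟨m, rfl | rfl⟩ <;> simp [pow_succ, pow_mul, Nat.pow_mod, Nat.mul_mod]

end Final

end Cfsg.Agent.H17
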